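import Cfsg.Statements.S1383

set_option autoImplicit false

/-!
# CALL BG83 (helper25; row S1383) piece DER (helper14, double)

`H` nilpotent, `P` its Sylow `p`-subgroup, all other Sylow subgroups cyclic: `H' ≤ P'`.
-/

namespace Cfsg.Agent.Helper14

open Cfsg Subgroup
open scoped commutatorElement

universe u

variable {G : Type u} [Group G] [Finite G]

/-- an element of `H` killed by a power of `p` lies in `P`. -/
theorem bg83_der_mem (H P : Subgroup G) (p : ℕ)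
    (hmax : ∀ Q : Subgroup G, Q ≤ H → IsPGroup p Q → Q ≤ P) (g : G) (hg : g ∈ H) (N : ℕ)
    (hgN : g ^ (p ^ N) = 1) : g ∈ P := by
  have h1 : zpowers g ≤ P := by
    apply hmax
    · exact zpowers_le.mpr hg
    · intro y
      obtain ⟨m, hm⟩ := Subgroup.mem_zpowers_iff.mp y.2
      refine ⟨N, Subtype.ext ?_⟩
      rw [Subgroup.coe_pow, ← hm, ← zpow_natCast, ← zpow_mul, mul_comm, zpow_mul, zpow_natCast,
        hgN, one_zpow]
      rfl
  exact h1 (mem_zpowers g)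

/-- a uniform exponent for the elements of a `p`-subgroup. -/
theorem bg83_der_exp {Γ : Type*} [Group Γ] [Finite Γ] (p : ℕ) (hp : p.Prime) (n : ℕ)
    (hn : n = p) (S : Subgroup Γ) (hS : IsPGroup n S) (g : ↥S) :
    g ^ (p ^ Nat.card Γ) = 1 := by
  subst hn
  obtain ⟨k, hk⟩ := hS g
  obtain ⟨j, hj, hjo⟩ := (Nat.dvd_prime_pow hp).mp (orderOf_dvd_of_pow_eq_one hk)
  have h1 : orderOf g ≤ Nat.card ↥S := _root_.orderOf_le_card
  have h2 : Nat.card ↥S ≤ Nat.card Γ := Subgroup.card_le_card_group S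
  have h3 : j < n ^ j := Nat.lt_pow_self hp.one_lt
  have h4 : j ≤ Nat.card Γ := by omega
  rw [← orderOf_dvd_iff_pow_eq_one, hjo]
  exact pow_dvd_pow n h4

/-- DER (pure). -/
theorem bg83_derived_le (H P : Subgroup G) (hnil : Group.IsNilpotent ↥H) (p : ℕ)
    [Fact p.Prime] (hPH : P ≤ H) (hP : IsPGroup p P)
    (hmax : ∀ Q : Subgroup G, Q ≤ H → IsPGroup p Q → Q ≤ P)
    (hcyc : ∀ q : ℕ, q.Prime → q ≠ p → ∀ Q : Subgroup G, Q ≤ H → IsPGroup q Q → IsCyclic ↥Q) :
    ⁅H, H⁆ ≤ ⁅P, P⁆ := by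
  classical
  have hp : p.Prime := Fact.out
  obtain ⟨φ⟩ := ((Group.isNilpotent_of_finite_tfae (G := ↥H)).out 0 4 rfl rfl).mp hnil
  -- truncation to the `p`-coordinates
  let tr : ((q : ↥(Nat.card ↥H).primeFactors) → (Q : Sylow (↑q) ↥H) → ↥(Q : Subgroup ↥H)) →
      ((q : ↥(Nat.card ↥H).primeFactors) → (Q : Sylow (↑q) ↥H) → ↥(Q : Subgroup ↥H)) :=
    fun x q Q => if (q : ℕ) = p then x q Q else 1
  have htr_comm : ∀ x y, ⁅x, y⁆ = ⁅tr x, tr y⁆ := by
    intro x y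
    funext q Q
    show ⁅x q Q, y q Q⁆ = ⁅tr x q Q, tr y q Q⁆
    by_cases hq : (q : ℕ) = p
    · simp only [tr, if_pos hq]
    · simp only [tr, if_neg hq]
      rw [commutatorElement_one_right]
      have hqprime : (q : ℕ).Prime := Nat.prime_of_mem_primeFactors q.2
      have hQ : IsPGroup (q : ℕ) ↥((Q : Subgroup ↥H).map H.subtype) :=
        (Q.isPGroup').map H.subtype
      have hcycQ : IsCyclic ↥((Q : Subgroup ↥H).map H.subtype) :=
        hcyc q hqprime hq ((Q : Subgroup ↥H).map H.subtype) (map_subtype_le _) hQ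
      have hab := (IsCyclic.commGroup (α := ↥((Q : Subgroup ↥H).map H.subtype))).mul_comm
        ⟨((x q Q : ↥H) : G), ⟨(x q Q : ↥H), (x q Q).2, rfl⟩⟩
        ⟨((y q Q : ↥H) : G), ⟨(y q Q : ↥H), (y q Q).2, rfl⟩⟩
      have hab' : ((x q Q : ↥H) : G) * ((y q Q : ↥H) : G) =
          ((y q Q : ↥H) : G) * ((x q Q : ↥H) : G) := congrArg Subtype.val hab
      rw [commutatorElement_eq_one_iff_mul_comm]
      exact Subtype.ext (Subtype.ext hab')
  have hmemP : ∀ x, ((φ (tr x) : ↥H) : G) ∈ P := by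
    intro x
    apply bg83_der_mem H P p hmax _ (φ (tr x)).2 (Nat.card ↥H)
    have h1 : (tr x) ^ (p ^ Nat.card ↥H) = 1 := by
      funext q Q
      show (tr x q Q) ^ (p ^ Nat.card ↥H) = 1
      by_cases hq : (q : ℕ) = p
      · simp only [tr, if_pos hq]
        exact bg83_der_exp p hp (q : ℕ) hq (Q : Subgroup ↥H) Q.isPGroup' (x q Q)
      · simp only [tr, if_neg hq]
        exact one_pow _
    have h2 : (φ (tr x)) ^ (p ^ Nat.card ↥H) = 1 := by
      rw [← map_pow, h1, map_one]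
    have h3 := congrArg Subtype.val h2
    rw [Subgroup.coe_pow] at h3
    exact h3
  rw [Subgroup.commutator_le]
  intro a ha b hb
  obtain ⟨x, hx⟩ : ∃ x, φ x = ⟨a, ha⟩ := φ.surjective _
  obtain ⟨y, hy⟩ : ∃ y, φ y = ⟨b, hb⟩ := φ.surjective _
  have h1 : ⁅(⟨a, ha⟩ : ↥H), ⟨b, hb⟩⁆ = ⁅φ (tr x), φ (tr y)⁆ := by
    rw [← hx, ← hy, ← map_commutatorElement, ← map_commutatorElement, htr_comm x y]
  have h2 : ⁅a, b⁆ = ⁅((φ (tr x) : ↥H) : G), ((φ (tr y) : ↥H) : G)⁆ := by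
    have h3 := congrArg H.subtype h1
    rw [map_commutatorElement, map_commutatorElement] at h3
    exact h3
  rw [h2]
  exact Subgroup.commutator_mem_commutator (hmemP x) (hmemP y)

end Cfsg.Agent.Helper14
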