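import Cfsg.Statements.S1383
import Cfsg.Agent.Helper14.BG83DER

set_option autoImplicit false

/-!
# CALL BG83 (helper25; row S1383) piece PCOMM (helper14, double)

`H` nilpotent, `P` its Sylow `p`-subgroup, `K` normalising `H` with `[H, K] = H`: `[P, K] = P`.
The projection of `H` onto `P` is the power map `h ↦ h ^ e` (`e ≡ 1` modulo a large power of `p`,
`e ≡ 0` modulo the `p'`-part of `|H|`), which commutes with conjugation.
-/

namespace Cfsg.Agent.Helper14

open Cfsg Subgroup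
open scoped commutatorElement

universe u

variable {G : Type u} [Group G] [Finite G]

/-- PCOMM (pure). -/
theorem bg83_P_comm (H P K : Subgroup G) (hnil : Group.IsNilpotent ↥H) (p : ℕ) [Fact p.Prime]
    (hPH : P ≤ H) (hP : IsPGroup p P)
    (hmax : ∀ Q : Subgroup G, Q ≤ H → IsPGroup p Q → Q ≤ P)
    (hK : K ≤ normalizer (H : Set G)) (hHK : ⁅H, K⁆ = H) : ⁅P, K⁆ = P := by
  classical
  have hp : p.Prime := Fact.out
  obtain ⟨φ⟩ := ((Group.isNilpotent_of_finite_tfae (G := ↥H)).out 0 4 rfl rfl).mp hnil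
  let tr : ((q : ↥(Nat.card ↥H).primeFactors) → (Q : Sylow (↑q) ↥H) → ↥(Q : Subgroup ↥H)) →
      ((q : ↥(Nat.card ↥H).primeFactors) → (Q : Sylow (↑q) ↥H) → ↥(Q : Subgroup ↥H)) :=
    fun x q Q => if (q : ℕ) = p then x q Q else 1
  have htr_mul : ∀ x y, tr (x * y) = tr x * tr y := by
    intro x y
    funext q Q
    show tr (x * y) q Q = tr x q Q * tr y q Q
    by_cases hq : (q : ℕ) = p
    · simp only [tr, if_pos hq]
      rfl
    · simp only [tr, if_neg hq]
      rw [one_mul]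
  -- the exponent
  have hcardH : Nat.card ↥H ≠ 0 := Nat.card_pos.ne'
  have hco : (p ^ Nat.card ↥H).Coprime (Nat.card ↥H / p ^ (Nat.card ↥H).factorization p) :=
    Nat.Coprime.pow_left _ (Nat.coprime_ordCompl hp hcardH)
  obtain ⟨e, he1, he0⟩ := Nat.chineseRemainder hco 1 0
  have hsplit := Nat.ordProj_mul_ordCompl_eq_self (Nat.card ↥H) p
  -- powers by `e` in the product
  have hpow : ∀ x, x ^ e = tr x := by
    intro x
    funext q Q
    show (x q Q) ^ e = tr x q Q
    by_cases hq : (q : ℕ) = p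
    · simp only [tr, if_pos hq]
      have h1 := bg83_der_exp p hp (q : ℕ) hq (Q : Subgroup ↥H) Q.isPGroup' (x q Q)
      have h2 : orderOf (x q Q) ∣ p ^ Nat.card ↥H := orderOf_dvd_of_pow_eq_one h1
      have h3 : e ≡ 1 [MOD orderOf (x q Q)] := Nat.ModEq.of_dvd h2 he1
      have h4 := pow_eq_pow_iff_modEq.mpr h3
      rw [h4, pow_one]
    · simp only [tr, if_neg hq]
      have hqprime : (q : ℕ).Prime := Nat.prime_of_mem_primeFactors q.2
      obtain ⟨k, hk⟩ := Q.isPGroup' (x q Q)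
      have h1 : orderOf (x q Q) ∣ (q : ℕ) ^ k := orderOf_dvd_of_pow_eq_one hk
      have h2 : (orderOf (x q Q)).Coprime (p ^ (Nat.card ↥H).factorization p) :=
        Nat.Coprime.coprime_dvd_left h1
          (Nat.Coprime.pow _ _ ((Nat.coprime_primes hqprime hp).mpr hq))
      have h3 : orderOf (x q Q) ∣ Nat.card ↥H := by
        have h := orderOf_dvd_natCard ((x q Q : ↥(Q : Subgroup ↥H)) : ↥H)
        rwa [Subgroup.orderOf_coe] at h
      have h3' : orderOf (x q Q) ∣ p ^ (Nat.card ↥H).factorization p *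
          (Nat.card ↥H / p ^ (Nat.card ↥H).factorization p) := by
        rw [hsplit]
        exact h3
      have h4 : orderOf (x q Q) ∣ e :=
        (h2.dvd_of_dvd_mul_left h3').trans (Nat.modEq_zero_iff_dvd.mp he0)
      exact orderOf_dvd_iff_pow_eq_one.mp h4
  have htr_p : ∀ x, (tr x) ^ (p ^ Nat.card ↥H) = 1 := by
    intro x
    funext q Q
    show (tr x q Q) ^ (p ^ Nat.card ↥H) = 1
    by_cases hq : (q : ℕ) = p
    · simp only [tr, if_pos hq]
      exact bg83_der_exp p hp (q : ℕ) hq (Q : Subgroup ↥H) Q.isPGroup' (x q Q)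
    · simp only [tr, if_neg hq]
      exact one_pow _
  -- `h ↦ h ^ e` on `H`
  have hpowP : ∀ a ∈ H, a ^ e ∈ P := by
    intro a ha
    obtain ⟨x, hx⟩ : ∃ x, φ x = ⟨a, ha⟩ := φ.surjective _
    have h1 : (⟨a, ha⟩ : ↥H) ^ e = φ (tr x) := by
      rw [← hx, ← map_pow, hpow]
    have h2 : a ^ e = ((φ (tr x) : ↥H) : G) := by
      rw [← h1]
      rfl
    rw [h2]
    apply bg83_der_mem H P p hmax _ (φ (tr x)).2 (Nat.card ↥H)
    have h3 : (φ (tr x)) ^ (p ^ Nat.card ↥H) = 1 := by
      rw [← map_pow, htr_p, map_one]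
    have h4 := congrArg Subtype.val h3
    rw [Subgroup.coe_pow] at h4
    exact h4
  have hpowmul : ∀ a ∈ H, ∀ b ∈ H, (a * b) ^ e = a ^ e * b ^ e := by
    intro a ha b hb
    obtain ⟨x, hx⟩ : ∃ x, φ x = ⟨a, ha⟩ := φ.surjective _
    obtain ⟨y, hy⟩ : ∃ y, φ y = ⟨b, hb⟩ := φ.surjective _
    have h1 : ((⟨a, ha⟩ : ↥H) * ⟨b, hb⟩) ^ e = (⟨a, ha⟩ : ↥H) ^ e * (⟨b, hb⟩ : ↥H) ^ e := by
      rw [← hx, ← hy, ← map_mul, ← map_pow, ← map_pow, ← map_pow, ← map_mul, hpow, hpow, hpow,
        htr_mul]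
    exact congrArg Subtype.val h1
  have hpowfix : ∀ a ∈ P, a ^ e = a := by
    intro a ha
    have h1 := bg83_der_exp p hp p rfl P hP ⟨a, ha⟩
    have h1' : a ^ (p ^ Nat.card G) = 1 := by
      have h := congrArg Subtype.val h1
      rwa [Subgroup.coe_pow] at h
    have hord : orderOf a ∣ p ^ Nat.card ↥H := by
      obtain ⟨j, hj, hjo⟩ := (Nat.dvd_prime_pow hp).mp (orderOf_dvd_of_pow_eq_one h1')
      have h2 : orderOf a ∣ Nat.card ↥H := by
        have h := orderOf_dvd_natCard (⟨a, hPH ha⟩ : ↥H)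
        rwa [← Subgroup.orderOf_coe] at h
      have h3 : j < p ^ j := Nat.lt_pow_self hp.one_lt
      have h4 : p ^ j ≤ Nat.card ↥H := by
        rw [← hjo]
        exact Nat.le_of_dvd Nat.card_pos h2
      rw [hjo]
      exact pow_dvd_pow p (by omega)
    have h3 : e ≡ 1 [MOD orderOf a] := Nat.ModEq.of_dvd hord he1
    have h4 := pow_eq_pow_iff_modEq.mpr h3
    rw [h4, pow_one]
  -- conjugates by `K` stay in `H`
  have hconjH : ∀ k ∈ K, ∀ a ∈ H, k * a * k⁻¹ ∈ H := fun k hk a ha =>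
    (mem_normalizer_iff.mp (hK hk) a).mp ha
  apply le_antisymm
  · rw [Subgroup.commutator_le]
    intro s hs k hk
    have h1 : k * s⁻¹ * k⁻¹ ∈ P := by
      have hsP := bg83_der_exp p hp p rfl P hP ⟨s, hs⟩
      have hs' : s ^ (p ^ Nat.card G) = 1 := by
        have h := congrArg Subtype.val hsP
        rwa [Subgroup.coe_pow] at h
      apply bg83_der_mem H P p hmax _ (hconjH k hk _ (inv_mem (hPH hs))) (Nat.card G)
      rw [conj_pow, inv_pow, hs', inv_one, mul_one, mul_inv_cancel]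
    have h2 : ⁅s, k⁆ = s * (k * s⁻¹ * k⁻¹) := by
      rw [commutatorElement_def]
      group
    rw [h2]
    exact mul_mem hs h1
  · intro x hx
    have hxH : x ∈ ⁅H, K⁆ := by
      rw [hHK]
      exact hPH hx
    have key : ∀ z, z ∈ ⁅H, K⁆ → z ∈ H ∧ z ^ e ∈ ⁅P, K⁆ := by
      intro z hz
      rw [Subgroup.commutator_def] at hz
      induction hz using Subgroup.closure_induction with
      | mem z hz =>
        obtain ⟨h, hh, k, hk, rfl⟩ := hz
        have h1 : k * h⁻¹ * k⁻¹ ∈ H := hconjH k hk _ (inv_mem hh)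
        have h2 : ⁅h, k⁆ = h * (k * h⁻¹ * k⁻¹) := by
          rw [commutatorElement_def]
          group
        refine ⟨by rw [h2]; exact mul_mem hh h1, ?_⟩
        have h3 : ⁅h, k⁆ ^ e = ⁅h ^ e, k⁆ := by
          rw [h2, hpowmul h hh _ h1, conj_pow, inv_pow, commutatorElement_def]
          group
        rw [h3]
        exact Subgroup.commutator_mem_commutator (hpowP h hh) hk
      | one => exact ⟨one_mem _, by rw [one_pow]; exact one_mem _⟩
      | mul a b _ _ iha ihb =>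
        exact ⟨mul_mem iha.1 ihb.1, by
          rw [hpowmul a iha.1 b ihb.1]; exact mul_mem iha.2 ihb.2⟩
      | inv a _ iha =>
        exact ⟨inv_mem iha.1, by rw [inv_pow]; exact inv_mem iha.2⟩
    have h1 := (key x hxH).2
    rwa [hpowfix x hx] at h1

end Cfsg.Agent.Helper14
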