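-- helper14 library: piece T of helper98's CALL S5634 (column lemmas under `NoFix`).
import Mathlib
import Cfsg.Agent.Helper98.C2Defs

set_option autoImplicit false

namespace Cfsg.Agent.Helper14.C2T

open Matrix Cfsg.Agent.Helper98.C2
open scoped MatrixGroups

variable {K : Type*} [Field K]

theorem gl_mulVec_inj {ι : Type*} [Fintype ι] [DecidableEq ι] (g : GL ι K) {v w : ι → K}
    (h : g.1 *ᵥ v = g.1 *ᵥ w) : v = w := by
  have h1 := congrArg (fun u => (g⁻¹ : GL ι K).1 *ᵥ u) h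
  simp only [Matrix.mulVec_mulVec, ← Units.val_mul, inv_mul_cancel, Units.val_one,
    Matrix.one_mulVec] at h1
  exact h1

/-- a column of an invertible matrix is not zero -/
theorem gl_col_ne_zero {ι : Type*} [Fintype ι] [DecidableEq ι] (y : GL ι K) (r : ι)
    (h : ∀ k, y.1 k r = 0) : False := by
  have h1 : y.1 *ᵥ (Pi.single r 1) = y.1 *ᵥ 0 := by
    rw [Matrix.mulVec_zero]
    funext k
    rw [Matrix.mulVec_single_one]
    exact h k
  have h2 := congrFun (gl_mulVec_inj y h1) r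
  rw [Pi.single_eq_same] at h2
  exact one_ne_zero h2

/-- PIECE T (1) -/
theorem nf_cols (n : ℕ) (M : Subgroup (GL (Fin n) K)) (hNF : NoFix M)
    (g h : GL (Fin n) K) (hg : g ∈ M) (hh : h ∈ M) (t : Fin n)
    (hfix : ∀ p, (h.1 * g.1) p t = g.1 p t) (r : Fin n) :
    ∃ (r' : Fin n) (c : K), c ≠ 0 ∧ ∀ p, (h.1 * g.1) p r = c * g.1 p r' := by
  obtain ⟨y, hy⟩ : ∃ y : GL (Fin n) K, y = g⁻¹ * h * g := ⟨_, rfl⟩
  have hyM : y ∈ M := by
    rw [hy]
    exact mul_mem (mul_mem (inv_mem hg) hh) hg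
  have hgy : g.1 * y.1 = h.1 * g.1 := by
    rw [← Units.val_mul, ← Units.val_mul, hy]
    congr 1
    group
  have hcol : (fun k => y.1 k t) = Pi.single t 1 := by
    apply gl_mulVec_inj g
    funext p
    rw [Matrix.mulVec_single_one]
    have h1 : (g.1 *ᵥ fun k => y.1 k t) p = (g.1 * y.1) p t := by
      rw [Matrix.mul_apply]
      rfl
    rw [h1, hgy, hfix]
    rfl
  have hfl : FixesLine y.1 := by
    refine ⟨t, fun j hj => ?_⟩
    have h1 : y.1 j t = (Pi.single t 1 : Fin n → K) j := congrFun hcol j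
    rw [h1, Pi.single_eq_of_ne hj]
  obtain ⟨σ, hσ⟩ := hNF y hyM hfl
  have hc : y.1 (σ r) r ≠ 0 := by
    intro h0
    apply gl_col_ne_zero y r
    intro k
    by_cases hk : k = σ r
    · rw [hk, h0]
    · exact hσ k r hk
  refine ⟨σ r, y.1 (σ r) r, hc, fun p => ?_⟩
  rw [← hgy, Matrix.mul_apply, Finset.sum_eq_single (σ r)]
  · rw [mul_comm]
  · intro k _ hk
    rw [hσ k r hk, mul_zero]
  · intro h
    exact absurd (Finset.mem_univ _) h

/-- PIECE T (2) -/
theorem nf_diag_cols (n : ℕ) (M : Subgroup (GL (Fin n) K)) (hH : MonSLLE M) (hNF : NoFix M)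
    (g : GL (Fin n) K) (hg : g ∈ M) (t a b : Fin n) (hab : a ≠ b)
    (ha : g.1 a t = 0) (hb : g.1 b t = 0) (ε : K) (hε : ε ≠ 0) (r : Fin n) :
    ∃ (r' : Fin n) (c : K), c ≠ 0 ∧
      ∀ p, (if p = a then ε else if p = b then ε⁻¹ else 1) * g.1 p r = c * g.1 p r' := by
  obtain ⟨d, hd⟩ : ∃ d : Fin n → K,
      ∀ p, d p = if p = a then ε else if p = b then ε⁻¹ else 1 := ⟨_, fun p => rfl⟩
  have hdet : (Matrix.diagonal d).det = 1 := by
    rw [Matrix.det_diagonal]
    have e : d = fun p => (if p = a then ε else 1) * (if p = b then ε⁻¹ else 1) := by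
      funext p
      rw [hd p]
      by_cases h1 : p = a
      · have h2 : ¬ p = b := fun h => hab (h1.symm.trans h)
        rw [if_pos h1, if_pos h1, if_neg h2, mul_one]
      · rw [if_neg h1, if_neg h1, one_mul]
    rw [e, Finset.prod_mul_distrib, Finset.prod_ite_eq', Finset.prod_ite_eq',
      if_pos (Finset.mem_univ _), if_pos (Finset.mem_univ _), mul_inv_cancel₀ hε]
  obtain ⟨h, hh⟩ : ∃ h : GL (Fin n) K, h.1 = Matrix.diagonal d :=
    ⟨((Matrix.isUnit_iff_isUnit_det (Matrix.diagonal d)).mpr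
      (by rw [hdet]; exact isUnit_one)).unit, rfl⟩
  have hmono : IsMono h.1 := by
    refine ⟨1, fun i j hij => ?_⟩
    rw [hh]
    exact Matrix.diagonal_apply_ne _ hij
  have hhM : h ∈ M := hH h hmono (by rw [hh]; exact hdet)
  have hmul : ∀ p q, (h.1 * g.1) p q = d p * g.1 p q := by
    intro p q
    rw [hh, Matrix.diagonal_mul]
  have hfix : ∀ p, (h.1 * g.1) p t = g.1 p t := by
    intro p
    rw [hmul, hd p]
    by_cases h1 : p = a
    · rw [if_pos h1, h1, ha, mul_zero]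
    · by_cases h2 : p = b
      · rw [if_neg h1, if_pos h2, h2, hb, mul_zero]
      · rw [if_neg h1, if_neg h2, one_mul]
  obtain ⟨r', c, hc, hrc⟩ := nf_cols n M hNF g h hg hhM t hfix r
  refine ⟨r', c, hc, fun p => ?_⟩
  rw [← hrc p, hmul, hd p]

/-- PIECE T (3) -/
theorem nf_twist_cols (n : ℕ) (M : Subgroup (GL (Fin n) K)) (hH : MonSLLE M) (hNF : NoFix M)
    (g : GL (Fin n) K) (hg : g ∈ M) (l : Fin n) (σ : Equiv.Perm (Fin n))
    (hσ : Equiv.Perm.sign σ = 1) (hu : ∀ p, σ p ≠ p → g.1 p l ≠ 0) (r : Fin n) :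
    ∃ (r' : Fin n) (c : K), c ≠ 0 ∧
      ∀ p, (if σ p = p then 1 else g.1 (σ p) l / g.1 p l) * g.1 p r = c * g.1 (σ p) r' := by
  obtain ⟨s, hs⟩ : ∃ s : Fin n → K,
      ∀ p, s p = if σ p = p then 1 else g.1 (σ p) l / g.1 p l := ⟨_, fun p => rfl⟩
  obtain ⟨v, hv⟩ : ∃ v : Fin n → K, ∀ p, v p = if σ p = p then 1 else g.1 p l :=
    ⟨_, fun p => rfl⟩
  have hv0 : ∀ p, v p ≠ 0 := by
    intro p
    rw [hv p]
    by_cases h1 : σ p = p
    · rw [if_pos h1]
      exact one_ne_zero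
    · rw [if_neg h1]
      exact hu p h1
  have hsv : ∀ p, s p = v (σ p) / v p := by
    intro p
    rw [hs p, hv p, hv (σ p)]
    by_cases h1 : σ p = p
    · have h2 : σ (σ p) = σ p := by rw [h1, h1]
      rw [if_pos h1, if_pos h2, if_pos h1, div_one]
    · have h2 : ¬ σ (σ p) = σ p := fun h => h1 (σ.injective h)
      rw [if_neg h1, if_neg h2, if_neg h1]
  have hprod : ∏ p, s p = 1 := by
    have e : ∀ p, s p = v (σ p) * (v p)⁻¹ := fun p => by rw [hsv, div_eq_mul_inv]
    rw [Finset.prod_congr rfl (fun p _ => e p), Finset.prod_mul_distrib, Equiv.prod_comp σ v,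
      ← Finset.prod_mul_distrib]
    exact Finset.prod_eq_one (fun p _ => mul_inv_cancel₀ (hv0 p))
  obtain ⟨H, hHdef⟩ : ∃ H : Matrix (Fin n) (Fin n) K,
      H = (σ⁻¹).permMatrix K * Matrix.diagonal s := ⟨_, rfl⟩
  have hdet : H.det = 1 := by
    rw [hHdef, Matrix.det_mul, Matrix.det_permutation, Matrix.det_diagonal, hprod, mul_one,
      Equiv.Perm.sign_inv, hσ]
    simp
  have hHapp : ∀ i j, H i j = if σ j = i then s j else 0 := by
    intro i j
    rw [hHdef, Equiv.Perm.permMatrix, PEquiv.toMatrix_toPEquiv_mul, Matrix.submatrix_apply,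
      Matrix.diagonal_apply]
    simp only [id]
    by_cases h1 : σ j = i
    · have h2 : σ⁻¹ i = j := by rw [← h1]; simp
      rw [if_pos h1, if_pos h2, h2]
    · have h2 : ¬ σ⁻¹ i = j := by
        intro h
        apply h1
        rw [← h]
        simp
      rw [if_neg h1, if_neg h2]
  obtain ⟨h, hh⟩ : ∃ h : GL (Fin n) K, h.1 = H :=
    ⟨((Matrix.isUnit_iff_isUnit_det H).mpr (by rw [hdet]; exact isUnit_one)).unit, rfl⟩
  have hmono : IsMono h.1 := by
    refine ⟨σ, fun i j hij => ?_⟩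
    rw [hh, hHapp, if_neg (fun h => hij h.symm)]
  have hhM : h ∈ M := hH h hmono (by rw [hh]; exact hdet)
  have hmul : ∀ p q, (h.1 * g.1) (σ p) q = s p * g.1 p q := by
    intro p q
    rw [hh, Matrix.mul_apply, Finset.sum_eq_single p]
    · rw [hHapp, if_pos rfl]
    · intro k _ hk
      rw [hHapp, if_neg (fun h => hk (σ.injective h)), zero_mul]
    · intro h
      exact absurd (Finset.mem_univ _) h
  have hfix : ∀ p, (h.1 * g.1) p l = g.1 p l := by
    intro p
    obtain ⟨p', rfl⟩ := σ.surjective p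
    rw [hmul, hs p']
    by_cases h1 : σ p' = p'
    · rw [if_pos h1, one_mul, h1]
    · rw [if_neg h1, div_mul_cancel₀ _ (hu p' h1)]
  obtain ⟨r', c, hc, hrc⟩ := nf_cols n M hNF g h hg hhM l hfix r
  refine ⟨r', c, hc, fun p => ?_⟩
  rw [← hrc (σ p), hmul, hs p]

/-- PIECE T (4) -/
theorem nf_no_coord (n : ℕ) (hn : 3 ≤ n) (M : Subgroup (GL (Fin n) K)) (hH : MonSLLE M)
    (hNF : NoFix M) (g : GL (Fin n) K) (hg : g ∈ M) (hgm : ¬ IsMono g.1) (j i : Fin n) :
    ∃ p, p ≠ i ∧ g.1 p j ≠ 0 := by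
  by_contra hcon
  have hz : ∀ p, p ≠ i → g.1 p j = 0 := by
    intro p hp
    by_contra h
    exact hcon ⟨p, hp, h⟩
  by_cases hij : i = j
  · apply hgm
    apply hNF g hg
    refine ⟨j, fun p hp => hz p ?_⟩
    rw [hij]
    exact hp
  · obtain ⟨d, hd⟩ : ∃ d : Fin n → K, ∀ p, d p = if p = i then -1 else 1 := ⟨_, fun p => rfl⟩
    have hd0 : ∀ p, d p ≠ 0 := by
      intro p
      rw [hd p]
      by_cases h1 : p = i
      · rw [if_pos h1]
        exact neg_ne_zero.mpr one_ne_zero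
      · rw [if_neg h1]
        exact one_ne_zero
    obtain ⟨W, hW⟩ : ∃ W : Matrix (Fin n) (Fin n) K,
        W = Matrix.diagonal d * (Equiv.swap i j).permMatrix K := ⟨_, rfl⟩
    have hdet : W.det = 1 := by
      rw [hW, Matrix.det_mul, Matrix.det_permutation, Matrix.det_diagonal,
        Equiv.Perm.sign_swap hij, Finset.prod_congr rfl (fun p _ => hd p), Finset.prod_ite_eq',
        if_pos (Finset.mem_univ _)]
      simp
    have hWmul : ∀ (X : Matrix (Fin n) (Fin n) K) p q,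
        (W * X) p q = d p * X (Equiv.swap i j p) q := by
      intro X p q
      rw [hW, Matrix.mul_assoc, Matrix.diagonal_mul, Equiv.Perm.permMatrix,
        PEquiv.toMatrix_toPEquiv_mul, Matrix.submatrix_apply]
      rfl
    obtain ⟨w, hw⟩ : ∃ w : GL (Fin n) K, w.1 = W :=
      ⟨((Matrix.isUnit_iff_isUnit_det W).mpr (by rw [hdet]; exact isUnit_one)).unit, rfl⟩
    have hmono : IsMono w.1 := by
      refine ⟨Equiv.swap i j, fun p q hpq => ?_⟩
      have h1 := hWmul 1 p q
      rw [Matrix.mul_one] at h1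
      rw [hw, h1, Matrix.one_apply_ne, mul_zero]
      intro h
      apply hpq
      rw [← h, Equiv.swap_apply_self]
    have hwM : w ∈ M := hH w hmono (by rw [hw]; exact hdet)
    have hwgM : w * g ∈ M := mul_mem hwM hg
    have hfl : FixesLine (w * g).1 := by
      refine ⟨j, fun p hp => ?_⟩
      rw [Units.val_mul, hw, hWmul]
      have h1 : Equiv.swap i j p ≠ i := by
        intro h
        apply hp
        have h2 := congrArg (Equiv.swap i j) h
        rw [Equiv.swap_apply_self, Equiv.swap_apply_left] at h2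
        exact h2
      rw [hz _ h1, mul_zero]
    obtain ⟨τ, hτ⟩ := hNF (w * g) hwgM hfl
    apply hgm
    refine ⟨τ.trans (Equiv.swap i j), fun p q hpq => ?_⟩
    have h1 : (w * g).1 (Equiv.swap i j p) q = 0 := by
      apply hτ
      intro h
      apply hpq
      rw [Equiv.trans_apply, ← h, Equiv.swap_apply_self]
    rw [Units.val_mul, hw, hWmul, Equiv.swap_apply_self] at h1
    exact (mul_eq_zero.mp h1).resolve_left (hd0 _)

end Cfsg.Agent.Helper14.C2T
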