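-- helper14 library: piece XA of helper98's CALL S5634 (changing the axis of a transvection by a
-- block-diagonal rank-one perturbation).
import Mathlib
import Cfsg.Agent.Helper98.C2Defs

set_option autoImplicit false

namespace Cfsg.Agent.Helper14.C2XA

open Matrix Cfsg.Agent.Helper98.C2
open scoped MatrixGroups

variable {K : Type*} [Field K]

/-- PIECE XA -/
theorem blk_axis {n t : ℕ} (blk : Fin n → Fin t)
    (M : Subgroup (GL (Fin n) K)) (hH : BlkLE blk M)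
    (a φ : Fin n → K) (hφa : φ ⬝ᵥ a = 0)
    (k : GL (Fin n) K) (hk : k ∈ M) (hkeq : k.1 = 1 + Matrix.vecMulVec a φ)
    (c : Fin t) (x ψ : Fin n → K) (hx : ∀ i, blk i ≠ c → x i = 0) (hψ : ∀ i, blk i ≠ c → ψ i = 0)
    (hψx : ψ ⬝ᵥ x = 0) (hψa : ψ ⬝ᵥ a = 0) :
    ∃ k' ∈ M, k'.1 = 1 + Matrix.vecMulVec a ((φ ⬝ᵥ x) • ψ) := by
  obtain ⟨X, hX⟩ : ∃ X : Matrix (Fin n) (Fin n) K, X = Matrix.vecMulVec x ψ := ⟨_, rfl⟩
  obtain ⟨A, hA⟩ : ∃ A : Matrix (Fin n) (Fin n) K, A = Matrix.vecMulVec a φ := ⟨_, rfl⟩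
  have hXX : X * X = 0 := by
    rw [hX, Matrix.vecMulVec_mul_vecMulVec, hψx, zero_smul, Matrix.vecMulVec_zero]
  have hAA : A * A = 0 := by
    rw [hA, Matrix.vecMulVec_mul_vecMulVec, hφa, zero_smul, Matrix.vecMulVec_zero]
  have hXA : X * A = 0 := by
    rw [hX, hA, Matrix.vecMulVec_mul_vecMulVec, hψa, zero_smul, Matrix.vecMulVec_zero]
  have hAX : A * X = Matrix.vecMulVec a ((φ ⬝ᵥ x) • ψ) := by
    rw [hX, hA, Matrix.vecMulVec_mul_vecMulVec]
  -- the block-diagonal element `1 - X`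
  have hdet : (1 - X).det = 1 := by
    have e : (1 : Matrix (Fin n) (Fin n) K) - X = 1 + Matrix.vecMulVec (-x) ψ := by
      rw [hX, Matrix.neg_vecMulVec, sub_eq_add_neg]
    rw [e, Matrix.vecMulVec_eq Unit, Matrix.det_one_add_replicateCol_mul_replicateRow,
      dotProduct_neg, hψx, neg_zero, add_zero]
  obtain ⟨h, hh⟩ : ∃ h : GL (Fin n) K, h.1 = 1 - X :=
    ⟨((Matrix.isUnit_iff_isUnit_det (1 - X)).mpr (by rw [hdet]; exact isUnit_one)).unit, rfl⟩
  have hblk : IsBlkMono blk h.1 := by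
    refine ⟨1, fun i j hij => ?_⟩
    have hij' : blk i ≠ blk j := hij
    have hne : i ≠ j := fun e => hij' (by rw [e])
    rw [hh, Matrix.sub_apply, Matrix.one_apply_ne hne, hX, Matrix.vecMulVec_apply]
    by_cases hi : blk i = c
    · have hj : blk j ≠ c := fun e => hij' (hi.trans e.symm)
      rw [hψ j hj, mul_zero, sub_zero]
    · rw [hx i hi, zero_mul, sub_zero]
  have hhM : h ∈ M := hH h hblk (by rw [hh]; exact hdet)
  have hhinv : (h⁻¹ : GL (Fin n) K).1 = 1 + X := by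
    apply Units.inv_eq_of_mul_eq_one_right
    rw [hh, sub_mul, one_mul, mul_add, mul_one, hXX]
    abel
  have hkinv : (k⁻¹ : GL (Fin n) K).1 = 1 - A := by
    apply Units.inv_eq_of_mul_eq_one_right
    rw [hkeq, ← hA, add_mul, one_mul, mul_sub, mul_one, hAA]
    abel
  refine ⟨h * k * h⁻¹ * k⁻¹, mul_mem (mul_mem (mul_mem hhM hk) (inv_mem hhM)) (inv_mem hk), ?_⟩
  rw [Units.val_mul, Units.val_mul, Units.val_mul, hhinv, hkinv, hh, hkeq, ← hA, ← hAX]
  have e1 : (1 - X) * (1 + A) = 1 + A - X := by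
    rw [sub_mul, one_mul, mul_add, mul_one, hXA]
    abel
  have e2 : (1 + A - X) * (1 + X) = 1 + A + A * X := by
    rw [mul_add, mul_one, sub_mul, add_mul, one_mul, hXX]
    abel
  have e3 : (1 + A + A * X) * (1 - A) = 1 + A * X := by
    rw [mul_sub, mul_one, add_mul, add_mul, one_mul, hAA, mul_assoc, hXA, mul_zero]
    abel
  rw [e1, e2, e3]

end Cfsg.Agent.Helper14.C2XA
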