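-- helper14 library: piece T3 of helper95's CALL S5874 (a block of plus type makes the whole space of plus type).
import Mathlib
import Cfsg.Prelude.Def_GeometricClasses

set_option autoImplicit false
open Cfsg Cfsg.Geo Matrix

namespace Cfsg.Agent.Helper14

/-- The dimension of the supremum of an independent finite family of subspaces is the sum of the dimensions. -/
theorem finrank_iSup_of_iSupIndep14 {F : Type*} [Field F] {V : Type*} [AddCommGroup V] [Module F V]
    [FiniteDimensional F V] {κ : Type*} [Fintype κ] [DecidableEq κ] (U : κ → Submodule F V)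
    (h : iSupIndep U) :
    Module.finrank F (⨆ i, U i : Submodule F V) = ∑ i, Module.finrank F (U i) := by
  have hinj : Function.Injective (DirectSum.coeLinearMap U) := h.dfinsupp_lsum_injective
  have hrange : LinearMap.range (DirectSum.coeLinearMap U) = ⨆ i, U i :=
    (Submodule.iSup_eq_range_dfinsupp_lsum U).symm
  rw [← hrange, LinearMap.finrank_range_of_inj hinj, Module.finrank_directSum]

variable {ι : Type} [Fintype ι] [DecidableEq ι] {F : Type*} [Field F]

/-- The vectors polar-orthogonal to a fixed vector form a subspace. -/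
def polarPerp14 (Q : (ι → F) → F) (hQ : IsNondegenerateQuadraticForm Q) (y : ι → F) :
    Submodule F (ι → F) where
  carrier := {z | QuadraticMap.polar Q y z = 0}
  add_mem' {a b} ha hb := by
    show QuadraticMap.polar Q y (a + b) = 0
    rw [hQ.polar_bilinear.add_right, ha, hb, add_zero]
  zero_mem' := by
    show QuadraticMap.polar Q y 0 = 0
    have h := hQ.polar_bilinear.smul_right 0 y 0
    rw [zero_mul, zero_smul] at h
    exact h
  smul_mem' c a ha := by
    show QuadraticMap.polar Q y (c • a) = 0
    rw [hQ.polar_bilinear.smul_right, ha, mul_zero]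

theorem o12_decomp_plus_of_block (Q : (ι → F) → F) (hQ : IsNondegenerateQuadraticForm Q)
    {t k : ℕ} (D : Fin t → Submodule F (ι → F)) (hD : IsOrthogonalMDecomposition Q k D)
    (i₀ : Fin t) (h : IsPlusTypeOn Q (D i₀)) : IsPlusTypeOn Q ⊤ := by
  classical
  obtain ⟨U₀, hU₀le, hU₀ts, hU₀dim⟩ := h
  choose e he using fun i => hD.isometric i₀ i
  obtain ⟨U, hUdef⟩ : ∃ U : Fin t → Submodule F (ι → F),
      U = fun i => (U₀.comap (D i₀).subtype).map ((D i).subtype.comp (e i).toLinearMap) := ⟨_, rfl⟩
  have hUle : ∀ i, U i ≤ D i := by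
    intro i w hw
    rw [hUdef] at hw
    obtain ⟨x, -, rfl⟩ := hw
    exact ((e i) x).2
  have hUts : ∀ i, ∀ w ∈ U i, Q w = 0 := by
    intro i w hw
    rw [hUdef] at hw
    obtain ⟨x, hx, rfl⟩ := hw
    have h1 := he i x
    have h2 : Q (x : ι → F) = 0 := hU₀ts _ hx
    simpa [h2] using h1
  have hUdim : ∀ i, Module.finrank F (U i) = Module.finrank F U₀ := by
    intro i
    rw [hUdef]
    have hinj : Function.Injective ((D i).subtype.comp (e i).toLinearMap) := by
      intro a b hab
      apply (e i).injective
      exact Subtype.ext hab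
    have h1 := (Submodule.equivMapOfInjective _ hinj (U₀.comap (D i₀).subtype)).finrank_eq
    have h2 := (Submodule.comapSubtypeEquivOfLe hU₀le).finrank_eq
    rw [← h1, h2]
  have hQadd : ∀ x y : ι → F, Q (x + y) = Q x + Q y + QuadraticMap.polar Q x y := by
    intro x y
    unfold QuadraticMap.polar
    ring
  have hfin : ∀ s : Finset (Fin t), ∀ w ∈ (⨆ i ∈ s, U i : Submodule F (ι → F)), Q w = 0 := by
    intro s
    induction s using Finset.induction_on with
    | empty =>
      intro w hw
      simp only [Finset.notMem_empty, iSup_false, iSup_bot, Submodule.mem_bot] at hw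
      rw [hw]
      have h := hQ.smul 0 0
      rw [zero_smul] at h
      rw [h]; ring
    | insert a s ha ih =>
      intro w hw
      rw [Finset.iSup_insert] at hw
      obtain ⟨y, hy, z, hz, rfl⟩ := Submodule.mem_sup.mp hw
      have hle : (⨆ i ∈ s, U i : Submodule F (ι → F)) ≤ polarPerp14 Q hQ y := by
        refine iSup₂_le fun i hi => ?_
        intro z' hz'
        have hne : a ≠ i := fun h => ha (h ▸ hi)
        exact hD.decomp.orthogonal a i hne y (hUle a hy) z' (hUle i hz')
      have hpol : QuadraticMap.polar Q y z = 0 := hle hz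
      rw [hQadd, hUts a y hy, ih z hz, hpol]
      ring
  refine ⟨⨆ i, U i, le_top, ?_, ?_⟩
  · intro w hw
    apply hfin Finset.univ
    simpa using hw
  · have hindep : iSupIndep U := hD.decomp.decomp.indep.mono hUle
    rw [finrank_iSup_of_iSupIndep14 U hindep]
    have h1 := finrank_iSup_of_iSupIndep14 D hD.decomp.decomp.indep
    rw [hD.decomp.decomp.iSup_eq_top] at h1
    rw [h1]
    simp only [hUdim, hD.decomp.decomp.finrank_eq, Finset.sum_const, Finset.card_univ,
      Fintype.card_fin, smul_eq_mul]
    have h2 := hD.decomp.decomp.finrank_eq i₀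
    rw [h2] at hU₀dim
    rw [← hU₀dim]; ring

end Cfsg.Agent.Helper14
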