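-- helper14 library: piece DEC of helper35's CALL S5877.
import Mathlib
import Cfsg.Prelude.Def_GeometricClasses
import Cfsg.Agent.Helper14.O12T3

set_option autoImplicit false
open Cfsg Cfsg.Geo Matrix Module

namespace Cfsg.Agent.Helper14

theorem c6e_decomp {F V : Type*} [Field F] [AddCommGroup V] [Module F V] [FiniteDimensional F V]
    {r : ℕ} (hr : 0 < r) (T : Module.End F V) (hT : T ^ r = 1) (ξ : F) (hξ : IsPrimitiveRoot ξ r)
    (W : Submodule F V) (hW : ∀ w ∈ W, T w ∈ W) :
    finrank F W ≤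
      ∑ k ∈ Finset.range r, finrank F (W ⊓ Module.End.eigenspace T (ξ ^ k) : Submodule F V) := by
  classical
  have hr0 : NeZero r := ⟨hr.ne'⟩
  have hrF : (r : F) ≠ 0 := (hξ.neZero').ne
  have hξ0 : ξ ≠ 0 := hξ.ne_zero hr.ne'
  have hξr : ξ ^ r = 1 := hξ.pow_eq_one
  have hWpow : ∀ (i : ℕ) (w : V), w ∈ W → (T ^ i) w ∈ W := by
    intro i
    induction i with
    | zero => intro w hw; simpa using hw
    | succ i ih =>
      intro w hw
      rw [pow_succ, Module.End.mul_apply]
      exact ih _ (hW w hw)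
  -- the vectors v k w
  obtain ⟨v, hv⟩ : ∃ v : ℕ → V → V, v = fun k w =>
      ∑ i ∈ Finset.range r, (ξ⁻¹) ^ (i * k) • (T ^ i) w := ⟨_, rfl⟩
  have hvW : ∀ k w, w ∈ W → v k w ∈ W := by
    intro k w hw
    rw [hv]
    exact Submodule.sum_mem _ (fun i _ => Submodule.smul_mem _ _ (hWpow i w hw))
  have hvT : ∀ k w, T (v k w) = ξ ^ k • v k w := by
    intro k w
    obtain ⟨f, hf⟩ : ∃ f : ℕ → V, f = fun i => (ξ⁻¹) ^ (i * k) • (T ^ i) w := ⟨_, rfl⟩
    have hshift : ∑ i ∈ Finset.range r, f (i + 1) = ∑ i ∈ Finset.range r, f i := by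
      have h1 := Finset.sum_range_succ' f r
      have h2 := Finset.sum_range_succ f r
      have h3 : f r = f 0 := by
        have e1 : (ξ⁻¹) ^ (r * k) = 1 := by rw [pow_mul, inv_pow, hξr, inv_one, one_pow]
        rw [hf]
        simp only
        rw [e1, hT, zero_mul, pow_zero, pow_zero]
      rw [h1, h3] at h2
      exact add_right_cancel h2
    have hstep : ∀ i, T (f i) = ξ ^ k • f (i + 1) := by
      intro i
      rw [hf]
      simp only
      rw [map_smul, smul_smul, pow_succ' T i, Module.End.mul_apply]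
      congr 1
      rw [add_mul, one_mul, pow_add, inv_pow ξ k]
      field_simp
    have hvk : v k w = ∑ i ∈ Finset.range r, f i := by rw [hv, hf]
    rw [hvk, map_sum, Finset.sum_congr rfl (fun i _ => hstep i), ← Finset.smul_sum, hshift]
  have hsum : ∀ w, ∑ k ∈ Finset.range r, v k w = (r : F) • w := by
    intro w
    rw [hv]
    simp only
    rw [Finset.sum_comm]
    have hterm : ∀ i ∈ Finset.range r, ∑ k ∈ Finset.range r, (ξ⁻¹) ^ (i * k) • (T ^ i) w
        = if i = 0 then (r : F) • w else 0 := by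
      intro i hi
      rw [← Finset.sum_smul]
      by_cases hi0 : i = 0
      · subst hi0
        simp
      · rw [if_neg hi0]
        have hx1 : (ξ⁻¹) ^ i ≠ 1 := by
          rw [inv_pow]
          intro h
          exact hξ.pow_ne_one_of_pos_of_lt hi0 (Finset.mem_range.mp hi) (inv_eq_one.mp h)
        have hxr : ((ξ⁻¹) ^ i) ^ r = 1 := by
          rw [← pow_mul, mul_comm, pow_mul, inv_pow, hξr]
          simp
        have hgeom := geom_sum_mul ((ξ⁻¹) ^ i) r
        rw [hxr, sub_self] at hgeom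
        have h0 : ∑ k ∈ Finset.range r, ((ξ⁻¹) ^ i) ^ k = 0 := by
          rcases mul_eq_zero.mp hgeom with h | h
          · exact h
          · exact absurd (sub_eq_zero.mp h) hx1
        have h1 : ∑ k ∈ Finset.range r, (ξ⁻¹) ^ (i * k) = 0 := by
          rw [← h0]
          exact Finset.sum_congr rfl (fun k _ => pow_mul _ _ _)
        rw [h1, zero_smul]
    rw [Finset.sum_congr rfl hterm, Finset.sum_ite_eq']
    rw [if_pos (Finset.mem_range.mpr hr)]
  have hle : W ≤ ⨆ i : Fin r, (W ⊓ Module.End.eigenspace T (ξ ^ (i : ℕ)) : Submodule F V) := by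
    intro w hw
    have hw' : w = ∑ k ∈ Finset.range r, (r : F)⁻¹ • v k w := by
      rw [← Finset.smul_sum, hsum w, smul_smul, inv_mul_cancel₀ hrF, one_smul]
    rw [hw']
    refine Submodule.sum_mem _ (fun k hk => ?_)
    refine Submodule.mem_iSup_of_mem (⟨k, Finset.mem_range.mp hk⟩ : Fin r) ?_
    refine ⟨Submodule.smul_mem _ _ (hvW k w hw), ?_⟩
    show (r : F)⁻¹ • v k w ∈ Module.End.eigenspace T (ξ ^ k)
    rw [Module.End.mem_eigenspace_iff, map_smul, hvT, smul_comm]
  have hind : iSupIndep (fun i : Fin r =>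
      (W ⊓ Module.End.eigenspace T (ξ ^ (i : ℕ)) : Submodule F V)) := by
    have h1 : iSupIndep (fun i : Fin r => Module.End.eigenspace T (ξ ^ (i : ℕ))) :=
      (Module.End.eigenspaces_iSupIndep T).comp (f := fun i : Fin r => ξ ^ (i : ℕ))
        (fun a b h => Fin.ext (hξ.pow_inj a.2 b.2 h))
    exact h1.mono (fun k => inf_le_right)
  have h2 := finrank_iSup_of_iSupIndep14 _ hind
  rw [Finset.sum_range (fun k => finrank F (W ⊓ Module.End.eigenspace T (ξ ^ k) : Submodule F V)),
    ← h2]
  exact Submodule.finrank_mono hle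

end Cfsg.Agent.Helper14
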