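-- helper14 library: piece SUMLE of helper35's CALL S5877.
import Mathlib
import Cfsg.Prelude.Def_GeometricClasses
import Cfsg.Agent.Helper14.O12T3

set_option autoImplicit false
open Cfsg Cfsg.Geo Matrix Module

namespace Cfsg.Agent.Helper14

theorem c6e_sum_le {F V : Type*} [Field F] [AddCommGroup V] [Module F V] [FiniteDimensional F V]
    (T : Module.End F V) (E : Submodule F V) {ι : Type*} (S : Finset ι) (μ : ι → F)
    (hμ : Set.InjOn μ S) :
    ∑ k ∈ S, finrank F (E ⊓ Module.End.eigenspace T (μ k) : Submodule F V) ≤ finrank F E := by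
  classical
  have hind : iSupIndep (fun k : S => (E ⊓ Module.End.eigenspace T (μ k) : Submodule F V)) := by
    have h1 : iSupIndep (fun k : S => Module.End.eigenspace T (μ k)) :=
      (Module.End.eigenspaces_iSupIndep T).comp (f := fun k : S => μ k)
        (fun a b h => Subtype.ext (hμ a.2 b.2 h))
    exact h1.mono (fun k => inf_le_right)
  have h2 := finrank_iSup_of_iSupIndep14 _ hind
  rw [← Finset.sum_coe_sort S
    (fun k => finrank F (E ⊓ Module.End.eigenspace T (μ k) : Submodule F V)), ← h2]
  apply Submodule.finrank_mono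
  exact iSup_le (fun k => inf_le_left)

end Cfsg.Agent.Helper14
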