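-- helper14 library: piece EIG of helper35's CALL S5877 (plus small tools on eigenspaces of
-- invertible matrices used by ORD0 / ORD1).
import Mathlib
import Cfsg.Prelude.Def_GeometricClasses
import Cfsg.Agent.Helper14.C6eSUMLE

set_option autoImplicit false
open Cfsg Cfsg.Geo Matrix Module

namespace Cfsg.Agent.Helper14

theorem c6e_mem_eig {F : Type*} [Field F] {n : ℕ} (M : Matrix (Fin n) (Fin n) F) (μ : F)
    (v : Fin n → F) : v ∈ Module.End.eigenspace (Matrix.toLin' M) μ ↔ M *ᵥ v = μ • v := by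
  rw [Module.End.mem_eigenspace_iff, Matrix.toLin'_apply]

theorem c6e_gl_inj {F : Type*} [Field F] {n : ℕ} (g : GL (Fin n) F) :
    Function.Injective (fun v : Fin n → F => (g : Matrix (Fin n) (Fin n) F) *ᵥ v) := by
  intro v w hvw
  have h1 := congrArg (fun u => ((g⁻¹ : GL (Fin n) F) : Matrix (Fin n) (Fin n) F) *ᵥ u) hvw
  simp only [Matrix.mulVec_mulVec, ← Units.val_mul, inv_mul_cancel, Units.val_one,
    Matrix.one_mulVec] at h1
  exact h1

theorem c6e_gl_mulVec {F : Type*} [Field F] {n : ℕ} (p q : GL (Fin n) F) (v : Fin n → F) :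
    ((p * q : GL (Fin n) F) : Matrix (Fin n) (Fin n) F) *ᵥ v
      = (p : Matrix (Fin n) (Fin n) F) *ᵥ ((q : Matrix (Fin n) (Fin n) F) *ᵥ v) := by
  rw [Units.val_mul, Matrix.mulVec_mulVec]

theorem c6e_finrank_le_of_map {F : Type*} [Field F] {n : ℕ} (g : GL (Fin n) F)
    (A B : Submodule F (Fin n → F))
    (hAB : ∀ v ∈ A, (g : Matrix (Fin n) (Fin n) F) *ᵥ v ∈ B) : finrank F A ≤ finrank F B := by
  have hinj : Function.Injective (Matrix.toLin' (g : Matrix (Fin n) (Fin n) F)) := by
    intro v w hvw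
    apply c6e_gl_inj g
    simpa [Matrix.toLin'_apply] using hvw
  have h1 := (Submodule.equivMapOfInjective _ hinj A).finrank_eq
  rw [h1]
  apply Submodule.finrank_mono
  rintro _ ⟨v, hv, rfl⟩
  rw [Matrix.toLin'_apply]
  exact hAB v hv

theorem c6e_eig_zero {F : Type*} [Field F] {n : ℕ} (g : GL (Fin n) F) :
    finrank F (Module.End.eigenspace (Matrix.toLin' (g : Matrix (Fin n) (Fin n) F)) 0) = 0 := by
  have h1 : Module.End.eigenspace (Matrix.toLin' (g : Matrix (Fin n) (Fin n) F)) 0 = ⊥ := by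
    rw [Submodule.eq_bot_iff]
    intro v hv
    rw [c6e_mem_eig, zero_smul] at hv
    apply c6e_gl_inj g
    simp only
    rw [hv, Matrix.mulVec_zero]
  rw [h1]
  simp

theorem c6e_toLin_pow {F : Type*} [Field F] {n : ℕ} (M : Matrix (Fin n) (Fin n) F) (k : ℕ) :
    Matrix.toLin' (M ^ k) = (Matrix.toLin' M) ^ k := by
  induction k with
  | zero => simp [Module.End.one_eq_id]
  | succ k ih => rw [pow_succ, pow_succ, Matrix.toLin'_mul, ih, Module.End.mul_eq_comp]

theorem c6e_eig_bound {F : Type*} [Field F] {n r : ℕ} (hr : r.Prime)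
    (y z : GL (Fin n) F) (ξ : F) (hξ : ξ ≠ 1) (hξr : ξ ^ r = 1)
    (h : (z * y * z⁻¹ : GL (Fin n) F).val = ξ • y.val) (μ : F) :
    r * finrank F (Module.End.eigenspace (Matrix.toLin' (y : Matrix (Fin n) (Fin n) F)) μ) ≤ n := by
  by_cases hμ : μ = 0
  · rw [hμ, c6e_eig_zero y]
    simp
  · have hξ0 : ξ ≠ 0 := by
      rintro rfl
      rw [zero_pow hr.ne_zero] at hξr
      exact zero_ne_one hξr
    have hfact : Fact r.Prime := ⟨hr⟩
    have hprim : IsPrimitiveRoot ξ r := by
      have h1 := IsPrimitiveRoot.orderOf ξ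
      rwa [orderOf_eq_prime hξr hξ] at h1
    have hzy : (z : Matrix (Fin n) (Fin n) F) * (y : Matrix (Fin n) (Fin n) F)
        = ξ • ((y : Matrix (Fin n) (Fin n) F) * (z : Matrix (Fin n) (Fin n) F)) := by
      have h1 : ((z * y * z⁻¹ : GL (Fin n) F).val) * (z : Matrix (Fin n) (Fin n) F)
          = (z : Matrix (Fin n) (Fin n) F) * (y : Matrix (Fin n) (Fin n) F) := by
        rw [← Units.val_mul, ← Units.val_mul]
        congr 1
        group
      rw [← h1, h, Matrix.smul_mul]
    have hyz : (y : Matrix (Fin n) (Fin n) F) * (z : Matrix (Fin n) (Fin n) F)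
        = ξ⁻¹ • ((z : Matrix (Fin n) (Fin n) F) * (y : Matrix (Fin n) (Fin n) F)) := by
      rw [hzy, smul_smul, inv_mul_cancel₀ hξ0, one_smul]
    have hstep : ∀ ν : F,
        finrank F (Module.End.eigenspace (Matrix.toLin' (y : Matrix (Fin n) (Fin n) F)) ν)
        ≤ finrank F (Module.End.eigenspace (Matrix.toLin' (y : Matrix (Fin n) (Fin n) F))
            (ξ⁻¹ * ν)) := by
      intro ν
      apply c6e_finrank_le_of_map z
      intro v hv
      rw [c6e_mem_eig] at hv ⊢
      rw [Matrix.mulVec_mulVec, hyz, Matrix.smul_mulVec, ← Matrix.mulVec_mulVec, hv,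
        Matrix.mulVec_smul, smul_smul]
    have hchain : ∀ k : ℕ,
        finrank F (Module.End.eigenspace (Matrix.toLin' (y : Matrix (Fin n) (Fin n) F)) μ)
        ≤ finrank F (Module.End.eigenspace (Matrix.toLin' (y : Matrix (Fin n) (Fin n) F))
            ((ξ⁻¹) ^ k * μ)) := by
      intro k
      induction k with
      | zero => rw [pow_zero, one_mul]
      | succ k ih =>
        refine ih.trans ?_
        have h1 := hstep ((ξ⁻¹) ^ k * μ)
        rwa [← mul_assoc, ← pow_succ'] at h1
    have hsum := c6e_sum_le (Matrix.toLin' (y : Matrix (Fin n) (Fin n) F)) ⊤ (Finset.range r)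
      (fun k => (ξ⁻¹) ^ k * μ) (by
        intro a ha b hb hab
        have h1 := mul_right_cancel₀ hμ hab
        exact hprim.inv.pow_inj (Finset.mem_range.mp ha) (Finset.mem_range.mp hb) h1)
    have e : ∀ X : Submodule F (Fin n → F), finrank F ↥(⊤ ⊓ X) = finrank F X :=
      fun X => (LinearEquiv.ofEq _ _ (top_inf_eq X)).finrank_eq
    rw [Finset.sum_congr rfl (fun k _ => e _), finrank_top, Module.finrank_fin_fun] at hsum
    calc r * finrank F (Module.End.eigenspace (Matrix.toLin' (y : Matrix (Fin n) (Fin n) F)) μ)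
        = ∑ _k ∈ Finset.range r,
          finrank F (Module.End.eigenspace (Matrix.toLin' (y : Matrix (Fin n) (Fin n) F)) μ) := by
          simp
      _ ≤ ∑ k ∈ Finset.range r,
          finrank F (Module.End.eigenspace (Matrix.toLin' (y : Matrix (Fin n) (Fin n) F))
            ((ξ⁻¹) ^ k * μ)) := Finset.sum_le_sum (fun k _ => hchain k)
      _ ≤ n := hsum

end Cfsg.Agent.Helper14
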