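-- helper14 library: piece ORD0 of helper35's CALL S5877.
import Mathlib
import Cfsg.Prelude.Def_GeometricClasses
import Cfsg.Agent.Helper14.C6eSUMLE
import Cfsg.Agent.Helper14.C6eDEC
import Cfsg.Agent.Helper14.C6eEIG

set_option autoImplicit false
open Cfsg Cfsg.Geo Matrix Module

namespace Cfsg.Agent.Helper14

theorem c6e_a_pow {F : Type*} [Field F] {n r : ℕ} (g a u : GL (Fin n) F) (hg : g ^ r = 1)
    (hag : Commute a g) (hu : u⁻¹ * g * u = a * g) : a ^ r = 1 := by
  have h1 : (a * g) ^ r = 1 := by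
    rw [← hu]
    have h2 : u⁻¹ * g * u = u⁻¹ * g * (u⁻¹)⁻¹ := by rw [inv_inv]
    rw [h2, conj_pow, hg]
    simp
  rw [hag.mul_pow, hg, mul_one] at h1
  exact h1

theorem c6e_frame {F : Type*} [Field F] {n r : ℕ} (hr0 : 0 < r) (g a : GL (Fin n) F)
    (hag : Commute a g) (har : a ^ r = 1) (ξ : F) (hξ : IsPrimitiveRoot ξ r) (c : F) :
    finrank F (Module.End.eigenspace (Matrix.toLin' (g : Matrix (Fin n) (Fin n) F)) c) ≤
      ∑ k ∈ Finset.range r,
        finrank F ((Module.End.eigenspace (Matrix.toLin' (g : Matrix (Fin n) (Fin n) F)) c ⊓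
          Module.End.eigenspace (Matrix.toLin' (a : Matrix (Fin n) (Fin n) F)) (ξ ^ k) :
            Submodule F (Fin n → F))) := by
  refine c6e_decomp hr0 (Matrix.toLin' (a : Matrix (Fin n) (Fin n) F)) ?_ ξ hξ _ ?_
  · rw [← c6e_toLin_pow, ← Units.val_pow_eq_pow_val, har, Units.val_one, Matrix.toLin'_one]
    rfl
  · intro w hw
    rw [c6e_mem_eig] at hw ⊢
    rw [Matrix.toLin'_apply, ← c6e_gl_mulVec g a w, ← hag.eq, c6e_gl_mulVec a g w, hw,
      Matrix.mulVec_smul]

theorem c6e_inf_comm_finrank {F : Type*} [Field F] {n : ℕ} (A B : Submodule F (Fin n → F)) :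
    finrank F ↥(A ⊓ B) = finrank F ↥(B ⊓ A) :=
  (LinearEquiv.ofEq _ _ (inf_comm A B)).finrank_eq

theorem c6e_order_r_comm {F : Type*} [Field F] {n r : ℕ} (hr : r.Prime) (hr5 : 5 ≤ r)
    (g a u : GL (Fin n) F) (hg : g ^ r = 1) (hag : Commute a g) (hu : u⁻¹ * g * u = a * g)
    (hua : Commute u a)
    (hbound : ∀ μ : F,
      r * finrank F (Module.End.eigenspace (Matrix.toLin' (a : Matrix (Fin n) (Fin n) F)) μ) ≤ n)
    (ζ : F) (hζ : IsPrimitiveRoot ζ r) (c : F) :
    2 * finrank F (Module.End.eigenspace (Matrix.toLin' (g : Matrix (Fin n) (Fin n) F)) c) ≤ n := by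
  by_cases hc : c = 0
  · rw [hc, c6e_eig_zero g]
    omega
  have hr0 : 0 < r := hr.pos
  have har := c6e_a_pow g a u hg hag hu
  have hframe := c6e_frame hr0 g a hag har ζ hζ c
  have hgu : g * u = u * (a * g) := by rw [← hu]; group
  have hshift : ∀ (j : ℕ) (μ : F),
      finrank F ((Module.End.eigenspace (Matrix.toLin' (a : Matrix (Fin n) (Fin n) F)) (ζ ^ j) ⊓
        Module.End.eigenspace (Matrix.toLin' (g : Matrix (Fin n) (Fin n) F)) μ :
          Submodule F (Fin n → F)))
      ≤ finrank F ((Module.End.eigenspace (Matrix.toLin' (a : Matrix (Fin n) (Fin n) F)) (ζ ^ j) ⊓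
        Module.End.eigenspace (Matrix.toLin' (g : Matrix (Fin n) (Fin n) F)) (μ * ζ ^ j) :
          Submodule F (Fin n → F))) := by
    intro j μ
    apply c6e_finrank_le_of_map u
    intro v hv
    rw [Submodule.mem_inf, c6e_mem_eig, c6e_mem_eig] at hv ⊢
    obtain ⟨hv1, hv2⟩ := hv
    refine ⟨?_, ?_⟩
    · rw [← c6e_gl_mulVec a u v, ← hua.eq, c6e_gl_mulVec u a v, hv1, Matrix.mulVec_smul]
    · rw [← c6e_gl_mulVec g u v, hgu, c6e_gl_mulVec u (a * g) v, c6e_gl_mulVec a g v, hv2,
        Matrix.mulVec_smul, hv1, smul_smul, Matrix.mulVec_smul]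
  have hchain : ∀ (j k : ℕ),
      finrank F ((Module.End.eigenspace (Matrix.toLin' (a : Matrix (Fin n) (Fin n) F)) (ζ ^ j) ⊓
        Module.End.eigenspace (Matrix.toLin' (g : Matrix (Fin n) (Fin n) F)) c :
          Submodule F (Fin n → F)))
      ≤ finrank F ((Module.End.eigenspace (Matrix.toLin' (a : Matrix (Fin n) (Fin n) F)) (ζ ^ j) ⊓
        Module.End.eigenspace (Matrix.toLin' (g : Matrix (Fin n) (Fin n) F)) (c * (ζ ^ j) ^ k) :
          Submodule F (Fin n → F))) := by
    intro j k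
    induction k with
    | zero => rw [pow_zero, mul_one]
    | succ k ih =>
      refine ih.trans ?_
      have h1 := hshift j (c * (ζ ^ j) ^ k)
      rwa [mul_assoc, ← pow_succ] at h1
  obtain ⟨x, hx⟩ : ∃ x : ℕ → ℕ, x = fun j =>
      finrank F ((Module.End.eigenspace (Matrix.toLin' (g : Matrix (Fin n) (Fin n) F)) c ⊓
        Module.End.eigenspace (Matrix.toLin' (a : Matrix (Fin n) (Fin n) F)) (ζ ^ j) :
          Submodule F (Fin n → F))) := ⟨_, rfl⟩
  have hD : finrank F (Module.End.eigenspace (Matrix.toLin' (g : Matrix (Fin n) (Fin n) F)) c)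
      ≤ ∑ j ∈ Finset.range r, x j := by rw [hx]; exact hframe
  have hxE : ∀ j, x j ≤
      finrank F (Module.End.eigenspace (Matrix.toLin' (a : Matrix (Fin n) (Fin n) F)) (ζ ^ j)) := by
    intro j
    rw [hx]
    exact Submodule.finrank_mono inf_le_right
  have hx0 : r * x 0 ≤ n := (Nat.mul_le_mul_left r (hxE 0)).trans (hbound (ζ ^ 0))
  have hxj : ∀ j, j ≠ 0 → j < r → r * (r * x j) ≤ n := by
    intro j hj0 hjr
    have hcop : Nat.Coprime j r :=
      (Nat.Coprime.symm ((Nat.Prime.coprime_iff_not_dvd hr).mpr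
        (Nat.not_dvd_of_pos_of_lt (Nat.pos_of_ne_zero hj0) hjr)))
    have hprim : IsPrimitiveRoot (ζ ^ j) r := hζ.pow_of_coprime j hcop
    have hsum := c6e_sum_le (Matrix.toLin' (g : Matrix (Fin n) (Fin n) F))
      (Module.End.eigenspace (Matrix.toLin' (a : Matrix (Fin n) (Fin n) F)) (ζ ^ j))
      (Finset.range r) (fun k => c * (ζ ^ j) ^ k) (by
        intro k1 hk1 k2 hk2 hkk
        have h1 := mul_left_cancel₀ hc hkk
        exact hprim.pow_inj (Finset.mem_range.mp hk1) (Finset.mem_range.mp hk2) h1)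
    have h2 : r * x j ≤
        finrank F (Module.End.eigenspace (Matrix.toLin' (a : Matrix (Fin n) (Fin n) F)) (ζ ^ j)) := by
      calc r * x j = ∑ _k ∈ Finset.range r, x j := by simp
        _ ≤ ∑ k ∈ Finset.range r,
            finrank F ((Module.End.eigenspace (Matrix.toLin' (a : Matrix (Fin n) (Fin n) F))
              (ζ ^ j) ⊓ Module.End.eigenspace (Matrix.toLin' (g : Matrix (Fin n) (Fin n) F))
                (c * (ζ ^ j) ^ k) : Submodule F (Fin n → F))) := by
            refine Finset.sum_le_sum (fun k _ => ?_)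
            rw [hx]
            simp only
            rw [c6e_inf_comm_finrank]
            exact hchain j k
        _ ≤ _ := hsum
    exact (Nat.mul_le_mul_left r h2).trans (hbound (ζ ^ j))
  obtain ⟨s, hs⟩ : ∃ s, r = s + 1 := ⟨r - 1, by omega⟩
  have hD' : finrank F (Module.End.eigenspace (Matrix.toLin' (g : Matrix (Fin n) (Fin n) F)) c)
      ≤ ∑ j ∈ Finset.range s, x (j + 1) + x 0 := by
    rw [← Finset.sum_range_succ', ← hs]
    exact hD
  have h1 : r * (r * finrank F (Module.End.eigenspace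
      (Matrix.toLin' (g : Matrix (Fin n) (Fin n) F)) c))
      ≤ r * (r * (∑ j ∈ Finset.range s, x (j + 1) + x 0)) :=
    Nat.mul_le_mul_left _ (Nat.mul_le_mul_left _ hD')
  have h2 : r * (r * (∑ j ∈ Finset.range s, x (j + 1) + x 0))
      = ∑ j ∈ Finset.range s, r * (r * x (j + 1)) + r * (r * x 0) := by
    rw [mul_add, mul_add, Finset.mul_sum, Finset.mul_sum]
  have h3 : ∑ j ∈ Finset.range s, r * (r * x (j + 1)) ≤ ∑ _j ∈ Finset.range s, n :=
    Finset.sum_le_sum (fun j hj => hxj (j + 1) (Nat.succ_ne_zero j)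
      (by have := Finset.mem_range.mp hj; omega))
  rw [Finset.sum_const, Finset.card_range, smul_eq_mul] at h3
  have h4 : r * (r * x 0) ≤ r * n := Nat.mul_le_mul_left r hx0
  have h5 : s * n ≤ r * n := Nat.mul_le_mul_right n (by omega)
  have h6 : r * (r * finrank F (Module.End.eigenspace
      (Matrix.toLin' (g : Matrix (Fin n) (Fin n) F)) c)) ≤ r * (2 * n) := by
    have h7 : r * (2 * n) = r * n + r * n := by ring
    omega
  have h8 := Nat.le_of_mul_le_mul_left h6 hr0
  have h9 : 5 * finrank F (Module.End.eigenspace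
      (Matrix.toLin' (g : Matrix (Fin n) (Fin n) F)) c)
      ≤ r * finrank F (Module.End.eigenspace
      (Matrix.toLin' (g : Matrix (Fin n) (Fin n) F)) c) := Nat.mul_le_mul_right _ hr5
  omega

end Cfsg.Agent.Helper14
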