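import Mathlib
import Cfsg.Agent.Helper14.Coherence
import Cfsg.Agent.Helper79.Abelian

/-!
# Degrees of the relevant characters for an abelian T.I. subgroup (helper14)

`degree_eq_index`: in the setting of `Helper14/Coherence.lean`, if `K` is abelian then every
irreducible character of `N = N_G(K)` that is not trivial on `K` has degree `[N : K]`.
(Counting proof: column orthogonality on `K \ {1}`, `|C_N(k)| = |K|`, and `χ(1) ≤ [N:K]`.)
-/

set_option autoImplicit false

namespace Cfsg.Agent.Helper14.Coh

open Cfsg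
open scoped ComplexConjugate

variable {G : Type*} [Group G] [Fintype G] (K : Subgroup G)
  [Fintype ↥(Subgroup.normalizer (K : Set G))]
  (S : Set (↥(Subgroup.normalizer (K : Set G)) → ℂ))

theorem degree_eq_index
    (hC : ∀ k ∈ K, k ≠ 1 → Subgroup.centralizer ({k} : Set G) ≤ K)
    (hab : ∀ a ∈ K, ∀ b ∈ K, a * b = b * a)
    (hS : S = {χ : ↥(Subgroup.normalizer (K : Set G)) → ℂ |
      IsIrrCharacter ↥(Subgroup.normalizer (K : Set G)) χ ∧
        ∃ k : ↥(Subgroup.normalizer (K : Set G)), (k : G) ∈ K ∧ χ k ≠ χ 1})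
    {χ : ↥(Subgroup.normalizer (K : Set G)) → ℂ} (hχ : χ ∈ S) :
    charDegree χ = (K.subgroupOf (Subgroup.normalizer (K : Set G))).index := by
  classical
  haveI : Fintype (IrrCharacter ↥(Subgroup.normalizer (K : Set G))) := Fintype.ofFinite _
  haveI : Fintype (K.subgroupOf (Subgroup.normalizer (K : Set G))) := Fintype.ofFinite _
  have hirr : ∀ χ ∈ S, IsIrrCharacter ↥(Subgroup.normalizer (K : Set G)) χ := by
    intro χ hχ
    rw [hS] at hχ
    exact hχ.1
  have hcm : Nat.card (K.subgroupOf (Subgroup.normalizer (K : Set G))) *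
      (K.subgroupOf (Subgroup.normalizer (K : Set G))).index
        = Nat.card ↥(Subgroup.normalizer (K : Set G)) := Subgroup.card_mul_index _
  have hNcard : (Fintype.card ↥(Subgroup.normalizer (K : Set G)) : ℂ)
      = (Fintype.card (K.subgroupOf (Subgroup.normalizer (K : Set G))) : ℂ) *
        ((K.subgroupOf (Subgroup.normalizer (K : Set G))).index : ℂ) := by
    rw [← Nat.card_eq_fintype_card, ← Nat.card_eq_fintype_card]
    exact_mod_cast hcm.symm
  -- (a) norm one, restricted to K
  have ha : ∀ θ : IrrCharacter ↥(Subgroup.normalizer (K : Set G)),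
      (θ : ↥(Subgroup.normalizer (K : Set G)) → ℂ) ∈ S →
      ∑ k : K.subgroupOf (Subgroup.normalizer (K : Set G)),
        (θ : ↥(Subgroup.normalizer (K : Set G)) → ℂ) (k : ↥(Subgroup.normalizer (K : Set G))) *
          conj ((θ : ↥(Subgroup.normalizer (K : Set G)) → ℂ)
            (k : ↥(Subgroup.normalizer (K : Set G))))
        = (Fintype.card ↥(Subgroup.normalizer (K : Set G)) : ℂ) := by
    intro θ hθ
    have h1 := Helper15.irr_inner_self θ.2
    unfold classInner at h1
    have hne : (Nat.card ↥(Subgroup.normalizer (K : Set G)) : ℂ) ≠ 0 := by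
      exact_mod_cast Nat.card_pos.ne'
    have h2 : ∑ y : ↥(Subgroup.normalizer (K : Set G)),
        (θ : ↥(Subgroup.normalizer (K : Set G)) → ℂ) y *
          conj ((θ : ↥(Subgroup.normalizer (K : Set G)) → ℂ) y)
        = (Fintype.card ↥(Subgroup.normalizer (K : Set G)) : ℂ) := by
      rw [← Nat.card_eq_fintype_card]
      rw [inv_mul_eq_iff_eq_mul₀ hne] at h1
      rw [h1, mul_one]
    rw [← h2]
    rw [← Finset.sum_subtype (Finset.univ.filter
      (fun y : ↥(Subgroup.normalizer (K : Set G)) =>
        y ∈ K.subgroupOf (Subgroup.normalizer (K : Set G))))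
      (fun x => by simp) (fun y => (θ : ↥(Subgroup.normalizer (K : Set G)) → ℂ) y *
          conj ((θ : ↥(Subgroup.normalizer (K : Set G)) → ℂ) y))]
    apply Finset.sum_subset (Finset.filter_subset _ _)
    intro y _ hy
    have hyK : (y : G) ∉ K := by
      intro h
      apply hy
      simp only [Finset.mem_filter, Finset.mem_univ, true_and]
      exact Subgroup.mem_subgroupOf.mpr h
    have hθ' := hθ
    rw [hS] at hθ'
    rw [vanish_off K hC _ θ.2 hθ'.2 y hyK, zero_mul]
  -- (b) column orthogonality on K \ {1}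
  have hb : ∀ k : K.subgroupOf (Subgroup.normalizer (K : Set G)), k ≠ 1 →
      ∑ θ : IrrCharacter ↥(Subgroup.normalizer (K : Set G)),
        (θ : ↥(Subgroup.normalizer (K : Set G)) → ℂ) (k : ↥(Subgroup.normalizer (K : Set G))) *
          conj ((θ : ↥(Subgroup.normalizer (K : Set G)) → ℂ)
            (k : ↥(Subgroup.normalizer (K : Set G))))
        = (Fintype.card (K.subgroupOf (Subgroup.normalizer (K : Set G))) : ℂ) := by
    intro k hk
    rw [Helper80.irr_column_orthogonality_of_isConj (IsConj.refl _)]
    have hcent : Subgroup.centralizer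
        ({(k : ↥(Subgroup.normalizer (K : Set G)))} : Set ↥(Subgroup.normalizer (K : Set G)))
        = K.subgroupOf (Subgroup.normalizer (K : Set G)) := by
      ext y
      constructor
      · intro hy
        rw [Subgroup.mem_subgroupOf]
        have hkK : ((k : ↥(Subgroup.normalizer (K : Set G))) : G) ∈ K :=
          Subgroup.mem_subgroupOf.mp k.2
        have hk1 : ((k : ↥(Subgroup.normalizer (K : Set G))) : G) ≠ 1 := by
          intro h
          apply hk
          apply Subtype.ext
          apply Subtype.ext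
          exact h
        apply hC _ hkK hk1
        rw [Subgroup.mem_centralizer_iff] at hy ⊢
        intro z hz
        rw [Set.mem_singleton_iff] at hz
        subst hz
        have := hy (k : ↥(Subgroup.normalizer (K : Set G))) rfl
        exact congrArg Subtype.val this
      · intro hy
        rw [Subgroup.mem_centralizer_iff]
        intro z hz
        rw [Set.mem_singleton_iff] at hz
        subst hz
        apply Subtype.ext
        exact hab _ (Subgroup.mem_subgroupOf.mp k.2) _ (Subgroup.mem_subgroupOf.mp hy)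
    rw [hcent, Nat.card_eq_fintype_card]
  have hE := sum_nonS_sq K S hS
  have hnonS : ∀ θ : IrrCharacter ↥(Subgroup.normalizer (K : Set G)),
      (θ : ↥(Subgroup.normalizer (K : Set G)) → ℂ) ∉ S →
      ∀ k : K.subgroupOf (Subgroup.normalizer (K : Set G)),
      (θ : ↥(Subgroup.normalizer (K : Set G)) → ℂ) (k : ↥(Subgroup.normalizer (K : Set G)))
        = (θ : ↥(Subgroup.normalizer (K : Set G)) → ℂ) 1 := by
    intro θ hθ k
    by_contra hne
    apply hθ
    rw [hS]
    exact ⟨θ.2, k, Subgroup.mem_subgroupOf.mp k.2, hne⟩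
  -- (e) sum over S at k ≠ 1
  have he1 : ∀ k : K.subgroupOf (Subgroup.normalizer (K : Set G)), k ≠ 1 →
      ∑ θ : IrrCharacter ↥(Subgroup.normalizer (K : Set G)),
        (if (θ : ↥(Subgroup.normalizer (K : Set G)) → ℂ) ∈ S then
          (θ : ↥(Subgroup.normalizer (K : Set G)) → ℂ) (k : ↥(Subgroup.normalizer (K : Set G))) *
          conj ((θ : ↥(Subgroup.normalizer (K : Set G)) → ℂ)
            (k : ↥(Subgroup.normalizer (K : Set G)))) else 0)
        = (Fintype.card (K.subgroupOf (Subgroup.normalizer (K : Set G))) : ℂ)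
          - ((K.subgroupOf (Subgroup.normalizer (K : Set G))).index : ℂ) := by
    intro k hk
    have hsplit : ∑ θ : IrrCharacter ↥(Subgroup.normalizer (K : Set G)),
        (if (θ : ↥(Subgroup.normalizer (K : Set G)) → ℂ) ∈ S then
          (θ : ↥(Subgroup.normalizer (K : Set G)) → ℂ) (k : ↥(Subgroup.normalizer (K : Set G))) *
          conj ((θ : ↥(Subgroup.normalizer (K : Set G)) → ℂ)
            (k : ↥(Subgroup.normalizer (K : Set G)))) else 0)
        + ∑ θ : IrrCharacter ↥(Subgroup.normalizer (K : Set G)),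
          (if (θ : ↥(Subgroup.normalizer (K : Set G)) → ℂ) ∈ S then 0
            else (θ : ↥(Subgroup.normalizer (K : Set G)) → ℂ) 1 *
              (θ : ↥(Subgroup.normalizer (K : Set G)) → ℂ) 1)
        = ∑ θ : IrrCharacter ↥(Subgroup.normalizer (K : Set G)),
          (θ : ↥(Subgroup.normalizer (K : Set G)) → ℂ) (k : ↥(Subgroup.normalizer (K : Set G))) *
          conj ((θ : ↥(Subgroup.normalizer (K : Set G)) → ℂ)
            (k : ↥(Subgroup.normalizer (K : Set G)))) := by
      rw [← Finset.sum_add_distrib]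
      apply Finset.sum_congr rfl
      intro θ _
      by_cases hθ : (θ : ↥(Subgroup.normalizer (K : Set G)) → ℂ) ∈ S
      · rw [if_pos hθ, if_pos hθ, add_zero]
      · rw [if_neg hθ, if_neg hθ, zero_add, hnonS θ hθ k, Helper80.irr_one_eq θ,
          Complex.conj_natCast]
    rw [hb k hk, hE] at hsplit
    linear_combination hsplit
  -- (f) sum over S at 1
  have he2 : ∑ θ : IrrCharacter ↥(Subgroup.normalizer (K : Set G)),
        (if (θ : ↥(Subgroup.normalizer (K : Set G)) → ℂ) ∈ S then
          (θ : ↥(Subgroup.normalizer (K : Set G)) → ℂ) 1 *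
          conj ((θ : ↥(Subgroup.normalizer (K : Set G)) → ℂ) 1) else 0)
        = (Fintype.card ↥(Subgroup.normalizer (K : Set G)) : ℂ)
          - ((K.subgroupOf (Subgroup.normalizer (K : Set G))).index : ℂ) := by
    have hsplit : ∑ θ : IrrCharacter ↥(Subgroup.normalizer (K : Set G)),
        (if (θ : ↥(Subgroup.normalizer (K : Set G)) → ℂ) ∈ S then
          (θ : ↥(Subgroup.normalizer (K : Set G)) → ℂ) 1 *
          conj ((θ : ↥(Subgroup.normalizer (K : Set G)) → ℂ) 1) else 0)
        + ∑ θ : IrrCharacter ↥(Subgroup.normalizer (K : Set G)),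
          (if (θ : ↥(Subgroup.normalizer (K : Set G)) → ℂ) ∈ S then 0
            else (θ : ↥(Subgroup.normalizer (K : Set G)) → ℂ) 1 *
              (θ : ↥(Subgroup.normalizer (K : Set G)) → ℂ) 1)
        = ∑ θ : IrrCharacter ↥(Subgroup.normalizer (K : Set G)),
          (θ : ↥(Subgroup.normalizer (K : Set G)) → ℂ) 1 *
            (θ : ↥(Subgroup.normalizer (K : Set G)) → ℂ) 1 := by
      rw [← Finset.sum_add_distrib]
      apply Finset.sum_congr rfl
      intro θ _
      by_cases hθ : (θ : ↥(Subgroup.normalizer (K : Set G)) → ℂ) ∈ S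
      · rw [if_pos hθ, if_pos hθ, add_zero, Helper80.irr_one_eq θ, Complex.conj_natCast]
      · rw [if_neg hθ, if_neg hθ, zero_add]
    rw [Helper80.irr_sum_degree_sq, hE] at hsplit
    linear_combination hsplit
  -- (g) double counting
  have hκ0 : (Fintype.card (K.subgroupOf (Subgroup.normalizer (K : Set G))) : ℂ) ≠ 0 := by
    exact_mod_cast Fintype.card_ne_zero
  have hcount : (∑ θ : IrrCharacter ↥(Subgroup.normalizer (K : Set G)),
        (if (θ : ↥(Subgroup.normalizer (K : Set G)) → ℂ) ∈ S then (1 : ℂ) else 0)) *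
        (Fintype.card ↥(Subgroup.normalizer (K : Set G)) : ℂ)
      = ((Fintype.card ↥(Subgroup.normalizer (K : Set G)) : ℂ)
          - ((K.subgroupOf (Subgroup.normalizer (K : Set G))).index : ℂ))
        + ((Fintype.card (K.subgroupOf (Subgroup.normalizer (K : Set G))) : ℂ) - 1) *
          ((Fintype.card (K.subgroupOf (Subgroup.normalizer (K : Set G))) : ℂ)
          - ((K.subgroupOf (Subgroup.normalizer (K : Set G))).index : ℂ)) := by
    have h1 : ∑ θ : IrrCharacter ↥(Subgroup.normalizer (K : Set G)),
        (if (θ : ↥(Subgroup.normalizer (K : Set G)) → ℂ) ∈ S then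
          ∑ k : K.subgroupOf (Subgroup.normalizer (K : Set G)),
            (θ : ↥(Subgroup.normalizer (K : Set G)) → ℂ)
              (k : ↥(Subgroup.normalizer (K : Set G))) *
            conj ((θ : ↥(Subgroup.normalizer (K : Set G)) → ℂ)
              (k : ↥(Subgroup.normalizer (K : Set G)))) else 0)
        = (∑ θ : IrrCharacter ↥(Subgroup.normalizer (K : Set G)),
          (if (θ : ↥(Subgroup.normalizer (K : Set G)) → ℂ) ∈ S then (1 : ℂ) else 0)) *
          (Fintype.card ↥(Subgroup.normalizer (K : Set G)) : ℂ) := by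
      rw [Finset.sum_mul]
      apply Finset.sum_congr rfl
      intro θ _
      split_ifs with hθ
      · rw [ha θ hθ, one_mul]
      · rw [zero_mul]
    have h2 : ∑ θ : IrrCharacter ↥(Subgroup.normalizer (K : Set G)),
        (if (θ : ↥(Subgroup.normalizer (K : Set G)) → ℂ) ∈ S then
          ∑ k : K.subgroupOf (Subgroup.normalizer (K : Set G)),
            (θ : ↥(Subgroup.normalizer (K : Set G)) → ℂ)
              (k : ↥(Subgroup.normalizer (K : Set G))) *
            conj ((θ : ↥(Subgroup.normalizer (K : Set G)) → ℂ)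
              (k : ↥(Subgroup.normalizer (K : Set G)))) else 0)
        = ∑ k : K.subgroupOf (Subgroup.normalizer (K : Set G)),
          ∑ θ : IrrCharacter ↥(Subgroup.normalizer (K : Set G)),
          (if (θ : ↥(Subgroup.normalizer (K : Set G)) → ℂ) ∈ S then
            (θ : ↥(Subgroup.normalizer (K : Set G)) → ℂ)
              (k : ↥(Subgroup.normalizer (K : Set G))) *
            conj ((θ : ↥(Subgroup.normalizer (K : Set G)) → ℂ)
              (k : ↥(Subgroup.normalizer (K : Set G)))) else 0) := by
      rw [Finset.sum_comm]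
      apply Finset.sum_congr rfl
      intro θ _
      split_ifs
      · rfl
      · simp
    have h3 : ∑ k : K.subgroupOf (Subgroup.normalizer (K : Set G)),
          ∑ θ : IrrCharacter ↥(Subgroup.normalizer (K : Set G)),
          (if (θ : ↥(Subgroup.normalizer (K : Set G)) → ℂ) ∈ S then
            (θ : ↥(Subgroup.normalizer (K : Set G)) → ℂ)
              (k : ↥(Subgroup.normalizer (K : Set G))) *
            conj ((θ : ↥(Subgroup.normalizer (K : Set G)) → ℂ)
              (k : ↥(Subgroup.normalizer (K : Set G)))) else 0)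
        = ((Fintype.card ↥(Subgroup.normalizer (K : Set G)) : ℂ)
          - ((K.subgroupOf (Subgroup.normalizer (K : Set G))).index : ℂ))
        + ((Fintype.card (K.subgroupOf (Subgroup.normalizer (K : Set G))) : ℂ) - 1) *
          ((Fintype.card (K.subgroupOf (Subgroup.normalizer (K : Set G))) : ℂ)
          - ((K.subgroupOf (Subgroup.normalizer (K : Set G))).index : ℂ)) := by
      rw [← Finset.add_sum_erase Finset.univ _
        (Finset.mem_univ (1 : K.subgroupOf (Subgroup.normalizer (K : Set G))))]
      refine congrArg₂ (· + ·) he2 ?_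
      rw [Finset.sum_congr rfl (fun k hk => he1 k (Finset.ne_of_mem_erase hk))]
      rw [Finset.sum_const, Finset.card_erase_of_mem (Finset.mem_univ _), Finset.card_univ,
        nsmul_eq_mul, Nat.cast_sub Fintype.card_pos, Nat.cast_one]
    rw [← h1, h2, h3]
  have hre : (∑ θ : IrrCharacter ↥(Subgroup.normalizer (K : Set G)),
        (if (θ : ↥(Subgroup.normalizer (K : Set G)) → ℂ) ∈ S then (1 : ℂ) else 0)) *
        ((K.subgroupOf (Subgroup.normalizer (K : Set G))).index : ℂ)
      = (Fintype.card (K.subgroupOf (Subgroup.normalizer (K : Set G))) : ℂ) - 1 := by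
    rw [hNcard] at hcount
    apply mul_left_cancel₀ hκ0
    linear_combination hcount
  have hsum0 : ∑ θ : IrrCharacter ↥(Subgroup.normalizer (K : Set G)),
      (if (θ : ↥(Subgroup.normalizer (K : Set G)) → ℂ) ∈ S then
        (((K.subgroupOf (Subgroup.normalizer (K : Set G))).index : ℂ) ^ 2
          - (θ : ↥(Subgroup.normalizer (K : Set G)) → ℂ) 1 *
            conj ((θ : ↥(Subgroup.normalizer (K : Set G)) → ℂ) 1)) else 0) = 0 := by
    have h1 : ∑ θ : IrrCharacter ↥(Subgroup.normalizer (K : Set G)),
      (if (θ : ↥(Subgroup.normalizer (K : Set G)) → ℂ) ∈ S then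
        (((K.subgroupOf (Subgroup.normalizer (K : Set G))).index : ℂ) ^ 2
          - (θ : ↥(Subgroup.normalizer (K : Set G)) → ℂ) 1 *
            conj ((θ : ↥(Subgroup.normalizer (K : Set G)) → ℂ) 1)) else 0)
        = (∑ θ : IrrCharacter ↥(Subgroup.normalizer (K : Set G)),
          (if (θ : ↥(Subgroup.normalizer (K : Set G)) → ℂ) ∈ S then (1 : ℂ) else 0)) *
          ((K.subgroupOf (Subgroup.normalizer (K : Set G))).index : ℂ) ^ 2
          - ∑ θ : IrrCharacter ↥(Subgroup.normalizer (K : Set G)),
            (if (θ : ↥(Subgroup.normalizer (K : Set G)) → ℂ) ∈ S then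
              (θ : ↥(Subgroup.normalizer (K : Set G)) → ℂ) 1 *
              conj ((θ : ↥(Subgroup.normalizer (K : Set G)) → ℂ) 1) else 0) := by
      rw [Finset.sum_mul, ← Finset.sum_sub_distrib]
      apply Finset.sum_congr rfl
      intro θ _
      split_ifs
      · rw [one_mul]
      · rw [zero_mul, sub_zero]
    rw [h1, he2, hNcard]
    linear_combination ((K.subgroupOf (Subgroup.normalizer (K : Set G))).index : ℂ) * hre
  -- degrees are at most the index
  have hle : ∀ θ : IrrCharacter ↥(Subgroup.normalizer (K : Set G)),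
      charDegree (θ : ↥(Subgroup.normalizer (K : Set G)) → ℂ)
        ≤ (K.subgroupOf (Subgroup.normalizer (K : Set G))).index := by
    intro θ
    have h := Helper79.irr_card_abelian_mul_degree_le θ
      (K.subgroupOf (Subgroup.normalizer (K : Set G)))
      (fun a ha b hb => Subtype.ext (hab _ (Subgroup.mem_subgroupOf.mp ha) _
        (Subgroup.mem_subgroupOf.mp hb)))
    rw [← hcm] at h
    exact Nat.le_of_mul_le_mul_left h Nat.card_pos
  have hint : ∑ θ : IrrCharacter ↥(Subgroup.normalizer (K : Set G)),
      (if (θ : ↥(Subgroup.normalizer (K : Set G)) → ℂ) ∈ S then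
        (((K.subgroupOf (Subgroup.normalizer (K : Set G))).index : ℤ) ^ 2
          - (charDegree (θ : ↥(Subgroup.normalizer (K : Set G)) → ℂ) : ℤ) ^ 2) else 0) = 0 := by
    have hc : ((∑ θ : IrrCharacter ↥(Subgroup.normalizer (K : Set G)),
      (if (θ : ↥(Subgroup.normalizer (K : Set G)) → ℂ) ∈ S then
        (((K.subgroupOf (Subgroup.normalizer (K : Set G))).index : ℤ) ^ 2
          - (charDegree (θ : ↥(Subgroup.normalizer (K : Set G)) → ℂ) : ℤ) ^ 2) else 0) : ℤ) : ℂ)
        = 0 := by
      rw [← hsum0]
      push_cast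
      apply Finset.sum_congr rfl
      intro θ _
      split_ifs
      · rw [Helper80.irr_one_eq θ, Complex.conj_natCast]
        ring
      · rfl
    exact_mod_cast hc
  have hnn : ∀ θ ∈ (Finset.univ : Finset (IrrCharacter ↥(Subgroup.normalizer (K : Set G)))),
      (0 : ℤ) ≤ (if (θ : ↥(Subgroup.normalizer (K : Set G)) → ℂ) ∈ S then
        (((K.subgroupOf (Subgroup.normalizer (K : Set G))).index : ℤ) ^ 2
          - (charDegree (θ : ↥(Subgroup.normalizer (K : Set G)) → ℂ) : ℤ) ^ 2) else 0) := by
    intro θ _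
    split_ifs
    · have h := hle θ
      have h' : (charDegree (θ : ↥(Subgroup.normalizer (K : Set G)) → ℂ) : ℤ)
          ≤ ((K.subgroupOf (Subgroup.normalizer (K : Set G))).index : ℤ) := by exact_mod_cast h
      have h0 : (0 : ℤ) ≤ (charDegree (θ : ↥(Subgroup.normalizer (K : Set G)) → ℂ) : ℤ) :=
        Int.natCast_nonneg _
      nlinarith
    · exact le_rfl
  have hz := (Finset.sum_eq_zero_iff_of_nonneg hnn).mp hint
    (⟨χ, hirr χ hχ⟩ : IrrCharacter ↥(Subgroup.normalizer (K : Set G))) (Finset.mem_univ _)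
  rw [if_pos hχ] at hz
  have h := hle ⟨χ, hirr χ hχ⟩
  have h' : (charDegree χ : ℤ)
      ≤ ((K.subgroupOf (Subgroup.normalizer (K : Set G))).index : ℤ) := by exact_mod_cast h
  have h0 : (0 : ℤ) ≤ (charDegree χ : ℤ) := Int.natCast_nonneg _
  have hfin : (charDegree χ : ℤ) = ((K.subgroupOf (Subgroup.normalizer (K : Set G))).index : ℤ) := by
    nlinarith
  exact_mod_cast hfin

end Cfsg.Agent.Helper14.Coh
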