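-- helper14: piece SF of CALL S4442B (helper77): a block whose central character is
-- `omTheta θ` modulo `M` is the set `blkTheta K x θ`.
import Mathlib
import Cfsg.Prelude.Def_Characters
import Cfsg.Prelude.Def_Blocks
import Cfsg.Agent.Helper77.D1Defs2
import Cfsg.Agent.Helper77.LocalRing
import Cfsg.Agent.Helper16.BlockCore
import Cfsg.Agent.Helper76.QuotRank2
import Cfsg.Agent.Helper74.D1IB
import Cfsg.Agent.Helper55.D1IH
import Cfsg.Agent.Helper55.D1IJ
import Cfsg.Agent.Helper65.D1II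

universe u

set_option autoImplicit false

namespace Cfsg.Agent.Helper14

open Cfsg Cfsg.Agent.Helper77
open scoped ComplexConjugate

variable {G : Type u} [Group G] [Finite G]

/-- `blkTheta K x θ` is nonempty -/
theorem d1_blkTheta_nonempty (p : ℕ) [Fact p.Prime] (x : G) (K : Subgroup G)
    (h : D1Hyp p x K) (θ : Cfsg.IrrCharacter K) : (blkTheta K x (θ : K → ℂ)).Nonempty := by
  have hp : p.Prime := Fact.out
  by_contra hempty
  rw [Set.not_nonempty_iff_eq_empty] at hempty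
  have h1 : ¬ p ∣ 1 := fun hd => hp.one_lt.ne' (Nat.dvd_one.mp hd)
  have hconj : thetaConj K (1 : G) (θ : K → ℂ) (θ : K → ℂ) := by
    intro k k' hk
    have hkk : k' = k := by
      apply Subtype.ext
      rw [hk, one_mul, inv_one, mul_one]
    rw [hkk]
  have hIB := (Helper74.d1_dco_orth p x K h θ θ 1 1 h1 h1).1
    ⟨1, by rw [one_mul, inv_one, mul_one], hconj⟩
  have hzero : ∀ χ : Cfsg.IrrCharacter G, dco K (θ : K → ℂ) (χ : G → ℂ) (x ^ 1) = 0 := by
    intro χ
    by_contra hne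
    have hmem : χ ∈ blkTheta K x (θ : K → ℂ) := by
      rw [pow_one] at hne
      exact hne
    rw [hempty] at hmem
    exact hmem
  simp only [hzero, zero_mul, finsum_zero] at hIB
  exact hp.ne_zero (by exact_mod_cast hIB.symm)

/-- PIECE SF -/
theorem d1_block_eq (p : ℕ) [Fact p.Prime] (hcc : D1CCStmt G p) (hinj : D1InjStmt G p)
    (M : Ideal Cfsg.AlgInt) (hM : Cfsg.IsPModular p M) (x : G) (K : Subgroup G)
    (h : D1Hyp p x K) (B : Set (Cfsg.IrrCharacter G)) (hB : Cfsg.IsPBlock M B)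
    (χ : Cfsg.IrrCharacter G) (hχB : χ ∈ B) (θ : Cfsg.IrrCharacter K)
    (hχ : ∀ g : G, Cfsg.MemLocalIdeal M
      (Cfsg.centralChar (χ : G → ℂ) g - omTheta p x K (θ : K → ℂ) g)) :
    B = blkTheta K x (θ : K → ℂ) := by
  classical
  haveI : Fintype G := Fintype.ofFinite G
  have hp : p.Prime := Fact.out
  have hMm : M.IsMaximal := hM.2.1
  have hsub : blkTheta K x (θ : K → ℂ) ⊆ B := by
    intro χ' hχ'
    have h1 := hcc M x K hM h θ χ' hχ'
    have hsb : Cfsg.SameBlock M (χ : G → ℂ) (χ' : G → ℂ) := by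
      intro g
      have h2 := Helper77.memLocalIdeal_sub hMm (hχ g) (h1 g)
      have heq : (Cfsg.centralChar (χ : G → ℂ) g - omTheta p x K (θ : K → ℂ) g)
          - (Cfsg.centralChar (χ' : G → ℂ) g - omTheta p x K (θ : K → ℂ) g)
          = Cfsg.centralChar (χ : G → ℂ) g - Cfsg.centralChar (χ' : G → ℂ) g := by ring
      rwa [heq] at h2
    obtain ⟨χ₀, rfl⟩ := hB
    exact Helper16.sameBlock_trans hMm hχB hsb
  apply Set.Subset.antisymm _ hsub
  intro χ' hχ'B
  by_cases hdiv : p ∣ Cfsg.charDegree (χ' : G → ℂ)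
  · exfalso
    obtain ⟨χ₁, hχ₁⟩ := d1_blkTheta_nonempty p x K h θ
    have hχ₁B := hsub hχ₁
    have hsb : Cfsg.SameBlock M (χ' : G → ℂ) (χ₁ : G → ℂ) :=
      Helper16.sameBlock_of_mem hMm hB hχ'B hχ₁B
    have hfac : (Nat.card G).factorization p ≤ 1 := by
      by_contra hgt
      push_neg at hgt
      exact h.hsq ((pow_dvd_pow p hgt).trans (Nat.ordProj_dvd (Nat.card G) p))
    have hdeg : p ^ (Nat.card G).factorization p ∣ Cfsg.charDegree (χ' : G → ℂ) :=
      ((pow_dvd_pow p hfac).trans (by rw [pow_one])).trans hdiv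
    have heq := Helper76.eq_of_sameBlock_of_defect_zero hM χ' hdeg χ₁ hsb
    rw [heq] at hχ₁
    exact Helper55.d1_blk_notdvd p x K h θ χ' hχ₁ hdiv
  · obtain ⟨θ', hθ'⟩ := Helper65.d1_blk_exists p x K h χ' hdiv
    have h1 := hcc M x K hM h θ' χ' hθ'
    have hsb : Cfsg.SameBlock M (χ : G → ℂ) (χ' : G → ℂ) :=
      Helper16.sameBlock_of_mem hMm hB hχB hχ'B
    have h2 : ∀ g : G, Cfsg.MemLocalIdeal M
        (omTheta p x K (θ : K → ℂ) g - omTheta p x K (θ' : K → ℂ) g) := by
      intro g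
      have h3 := Helper77.memLocalIdeal_add hMm
        (Helper77.memLocalIdeal_sub hMm (hsb g) (hχ g)) (h1 g)
      have heq : (Cfsg.centralChar (χ : G → ℂ) g - Cfsg.centralChar (χ' : G → ℂ) g
            - (Cfsg.centralChar (χ : G → ℂ) g - omTheta p x K (θ : K → ℂ) g))
          + (Cfsg.centralChar (χ' : G → ℂ) g - omTheta p x K (θ' : K → ℂ) g)
          = omTheta p x K (θ : K → ℂ) g - omTheta p x K (θ' : K → ℂ) g := by ring
      rwa [heq] at h3
    obtain ⟨n, hn, hconj⟩ := hinj M x K hM h θ θ' h2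
    have h4 := Helper55.d1_blk_conj p x K h θ θ' n hn hconj
    rw [← h4]
    exact hθ'

end Cfsg.Agent.Helper14
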