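import Mathlib
import Cfsg.Prelude.Def_GeometricClasses
import Cfsg.Prelude.Def_LieClassical
import Cfsg.Agent.Helper69.E4Def
import Cfsg.Agent.Helper69.E4UDef
import Cfsg.Agent.Helper97.UForm

set_option autoImplicit false

namespace Cfsg.Agent.Helper14
open Cfsg.Agent.Helper69 Cfsg.Agent.Helper97
open scoped Matrix

/-! ### IOTA -/

theorem e4u_sigma_iota {F : Type*} [Field F] {p : ℕ} (hp4 : p % 4 = 3) (σ : F ≃+* F)
    (hσ : ∀ x : F, σ x = x ^ p) (ι : F) (hι : ι ^ 2 = -1) : σ ι = -ι := by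
  obtain ⟨k, hk⟩ : ∃ k, p = 2 * (2 * k + 1) + 1 := ⟨p / 4, by omega⟩
  rw [hσ, hk, pow_succ, pow_mul, hι, Odd.neg_one_pow ⟨k, rfl⟩, neg_one_mul]

end Cfsg.Agent.Helper14
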