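import Mathlib
import Cfsg.Prelude.Def_GeometricClasses
import Cfsg.Prelude.Def_LieClassical
import Cfsg.Agent.Helper69.E4Def
import Cfsg.Agent.Helper69.E4UDef
import Cfsg.Agent.Helper97.UForm

set_option autoImplicit false

namespace Cfsg.Agent.Helper14
open Cfsg.Agent.Helper69 Cfsg.Agent.Helper97
open scoped Matrix

/-! ### TU -/

theorem e4u_unitary_of_aux {F : Type*} [Field F] (h2 : (2 : F) ≠ 0) (σ : F ≃+* F)
    (M : Matrix (Fin 4) (Fin 4) F)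
    (h : Mᵀ * M.map σ = (4 : F) • (1 : Matrix (Fin 4) (Fin 4) F)) :
    ((2 : F)⁻¹ • M)ᵀ * ((2 : F)⁻¹ • M).map σ = 1 := by
  have hs2 : σ (2 : F)⁻¹ = (2 : F)⁻¹ := by rw [map_inv₀, map_ofNat]
  have hmap : ((2 : F)⁻¹ • M).map σ = (2 : F)⁻¹ • M.map σ := by
    ext i j
    simp [Matrix.map_apply, hs2]
  rw [hmap, Matrix.transpose_smul, Matrix.smul_mul, Matrix.mul_smul, smul_smul, h, smul_smul]
  have h4 : (2 : F)⁻¹ * (2 : F)⁻¹ * 4 = 1 := by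
    field_simp
    norm_num
  rw [h4, one_smul]

theorem e4u_T1_unitary_aux {F : Type*} [Field F] (σ : F ≃+* F) (ι : F) (hι : ι ^ 2 = -1)
    (hσι : σ ι = -ι) :
    (!![-(1 + ι), 0, -(1 + ι), 0; 0, -(1 + ι), 0, -(1 + ι);
      1 - ι, 0, -(1 - ι), 0; 0, 1 - ι, 0, -(1 - ι)] : Matrix (Fin 4) (Fin 4) F)ᵀ *
    (!![-(1 + ι), 0, -(1 + ι), 0; 0, -(1 + ι), 0, -(1 + ι);
      1 - ι, 0, -(1 - ι), 0; 0, 1 - ι, 0, -(1 - ι)] : Matrix (Fin 4) (Fin 4) F).map σ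
      = (4 : F) • (1 : Matrix (Fin 4) (Fin 4) F) := by
  ext i j
  fin_cases i <;> fin_cases j <;>
    simp [Matrix.mul_apply, Fin.sum_univ_four, hσι] <;>
    (try ring_nf) <;> (try simp only [hι]) <;> (try ring)

theorem e4u_T2_unitary_aux {F : Type*} [Field F] (σ : F ≃+* F) (ι : F) (hι : ι ^ 2 = -1)
    (hσι : σ ι = -ι) :
    (!![ι, ι, ι, ι; -1, 1, -1, 1; -1, -1, 1, 1; -ι, ι, ι, -ι] : Matrix (Fin 4) (Fin 4) F)ᵀ *
    (!![ι, ι, ι, ι; -1, 1, -1, 1; -1, -1, 1, 1; -ι, ι, ι, -ι] : Matrix (Fin 4) (Fin 4) F).map σ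
      = (4 : F) • (1 : Matrix (Fin 4) (Fin 4) F) := by
  ext i j
  fin_cases i <;> fin_cases j <;>
    simp [Matrix.mul_apply, Fin.sum_univ_four, hσι] <;>
    (try ring_nf) <;> (try simp only [hι]) <;> (try ring)

theorem e4u_Y5_unitary_aux {F : Type*} [Field F] (σ : F ≃+* F) (ι : F) (hι : ι ^ 2 = -1)
    (hσι : σ ι = -ι) :
    (!![-ι, -ι, 1, -1; -ι, ι, 1, 1; -ι, -ι, -1, 1; -ι, ι, -1, -1] :
        Matrix (Fin 4) (Fin 4) F)ᵀ *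
    (!![-ι, -ι, 1, -1; -ι, ι, 1, 1; -ι, -ι, -1, 1; -ι, ι, -1, -1] :
        Matrix (Fin 4) (Fin 4) F).map σ
      = (4 : F) • (1 : Matrix (Fin 4) (Fin 4) F) := by
  ext i j
  fin_cases i <;> fin_cases j <;>
    simp [Matrix.mul_apply, Fin.sum_univ_four, hσι] <;>
    (try ring_nf) <;> (try simp only [hι]) <;> (try ring)

theorem e4u_T1_unitary {F : Type*} [Field F] (h2 : (2 : F) ≠ 0) (σ : F ≃+* F) (ι : F)
    (hι : ι ^ 2 = -1) (hσι : σ ι = -ι) : (e4T1 ι)ᵀ * (e4T1 ι).map σ = 1 := by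
  unfold e4T1
  exact e4u_unitary_of_aux h2 σ _ (e4u_T1_unitary_aux σ ι hι hσι)

theorem e4u_T2_unitary {F : Type*} [Field F] (h2 : (2 : F) ≠ 0) (σ : F ≃+* F) (ι : F)
    (hι : ι ^ 2 = -1) (hσι : σ ι = -ι) : (e4T2 ι)ᵀ * (e4T2 ι).map σ = 1 := by
  unfold e4T2
  exact e4u_unitary_of_aux h2 σ _ (e4u_T2_unitary_aux σ ι hι hσι)

theorem e4u_Y5_unitary {F : Type*} [Field F] (h2 : (2 : F) ≠ 0) (σ : F ≃+* F) (ι : F)
    (hι : ι ^ 2 = -1) (hσι : σ ι = -ι) : (e4Y5 ι)ᵀ * (e4Y5 ι).map σ = 1 := by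
  unfold e4Y5
  exact e4u_unitary_of_aux h2 σ _ (e4u_Y5_unitary_aux σ ι hι hσι)

end Cfsg.Agent.Helper14
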