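import Mathlib
import Cfsg.Prelude.Def_GeometricClasses
import Cfsg.Prelude.Def_LieClassical
import Cfsg.Agent.Helper69.E4Def
import Cfsg.Agent.Helper69.E5Def

/-!
# CALL S6002, piece TR3A (helper14): an element of order 3 of the normaliser of `2^{1+4}_-`
centralises a non-scalar element of the group
-/

set_option autoImplicit false

namespace Cfsg.Agent.Helper14
open Cfsg.Agent.Helper69
open scoped Matrix

open scoped IsMulCommutative in
/-- KLEIN, at the level of groups: in a group of minus type with a central involution `m`, two commuting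
involutions outside `{1, m}` differ by an element of `{1, m}`. -/
theorem e5_klein_core {G : Type*} [Group G] (R : Subgroup G) (hRm : Cfsg.Geo.IsOfMinusType 2 R)
    (m t t' : G) (hm : m ∈ R) (ht : t ∈ R) (ht' : t' ∈ R) (hmc : ∀ g, m * g = g * m)
    (hm2 : m * m = 1) (hm1 : m ≠ 1) (ht2 : t * t = 1) (ht'2 : t' * t' = 1) (hc : t * t' = t' * t)
    (ht1 : t ≠ 1) (htm : t ≠ m) (ht'1 : t' ≠ 1) (ht'm : t' ≠ m) : t' = t ∨ t' = m * t := by
  by_contra hcon
  push_neg at hcon
  obtain ⟨hne1, hne2⟩ := hcon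
  let k : Set R := {⟨m, hm⟩, ⟨t, ht⟩, ⟨t', ht'⟩}
  have hkcomm : ∀ x ∈ k, ∀ y ∈ k, x * y = y * x := by
    rintro x (rfl | rfl | rfl) y (rfl | rfl | rfl) <;> apply Subtype.ext <;>
      first
        | rfl
        | exact hmc _
        | exact (hmc _).symm
        | exact hc
        | exact hc.symm
  haveI hA : IsMulCommutative (Subgroup.closure k) := Subgroup.isMulCommutative_closure hkcomm
  have hexp : ∀ x ∈ Subgroup.closure k, x * x = 1 := by
    intro x hx
    induction hx using Subgroup.closure_induction with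
    | mem x hx =>
      rcases hx with rfl | rfl | rfl <;> apply Subtype.ext <;>
        first
          | exact hm2
          | exact ht2
          | exact ht'2
    | one => simp
    | mul a b ha hb iha ihb =>
      have hab : a * b = b * a := by
        have := congrArg Subtype.val (mul_comm' (⟨a, ha⟩ : Subgroup.closure k) ⟨b, hb⟩)
        simpa using this
      calc a * b * (a * b) = a * (b * a) * b := by group
        _ = a * (a * b) * b := by rw [hab]
        _ = (a * a) * (b * b) := by group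
        _ = 1 := by rw [iha, ihb, one_mul]
    | inv a ha iha => rw [← mul_inv_rev, iha, inv_one]
  haveI hkfin : Finite k :=
    show Finite (({⟨m, hm⟩, ⟨t, ht⟩, ⟨t', ht'⟩} : Set R)) from inferInstance
  haveI : Group.FG (Subgroup.closure k) := Group.closure_finite_fg k
  haveI : Finite (Subgroup.closure k) :=
    CommGroup.finite_of_fg_isMulTorsion _ (fun g => isOfFinOrder_iff_pow_eq_one.2
      ⟨2, by norm_num, by rw [pow_two]; exact Subtype.ext (hexp g g.2)⟩)
  have hp2 : IsPGroup 2 (Subgroup.closure k) :=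
    fun g => ⟨1, by rw [pow_one, pow_two]; exact Subtype.ext (hexp g g.2)⟩
  obtain ⟨n, hn⟩ := hp2.exists_card_eq
  have hlt := hRm (Subgroup.closure k) hA hexp
  -- five distinct elements
  let g : Fin 5 → G := ![1, m, t, m * t, t']
  have hmem : ∀ i, ∃ x : Subgroup.closure k, ((x : R) : G) = g i := by
    have hmk : (⟨m, hm⟩ : R) ∈ Subgroup.closure k := Subgroup.subset_closure (by simp [k])
    have htk : (⟨t, ht⟩ : R) ∈ Subgroup.closure k := Subgroup.subset_closure (by simp [k])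
    have ht'k : (⟨t', ht'⟩ : R) ∈ Subgroup.closure k := Subgroup.subset_closure (by simp [k])
    intro i
    fin_cases i
    · exact ⟨1, rfl⟩
    · exact ⟨⟨_, hmk⟩, rfl⟩
    · exact ⟨⟨_, htk⟩, rfl⟩
    · exact ⟨⟨_, Subgroup.mul_mem _ hmk htk⟩, rfl⟩
    · exact ⟨⟨_, ht'k⟩, rfl⟩
  choose f hf using hmem
  have d12 : (1 : G) ≠ m := fun h => hm1 h.symm
  have d13 : (1 : G) ≠ t := fun h => ht1 h.symm
  have d14 : (1 : G) ≠ m * t := fun h => htm (by
    have : m * (m * t) = m := by rw [← h, mul_one]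
    rwa [← mul_assoc, hm2, one_mul] at this)
  have d15 : (1 : G) ≠ t' := fun h => ht'1 h.symm
  have d23 : m ≠ t := fun h => htm h.symm
  have d24 : m ≠ m * t := fun h => ht1 (by
    have : m * 1 = m * t := by rw [mul_one]; exact h
    exact (mul_left_cancel this).symm)
  have d25 : m ≠ t' := fun h => ht'm h.symm
  have d34 : t ≠ m * t := fun h => hm1 (by
    have : 1 * t = m * t := by rw [one_mul]; exact h
    exact (mul_right_cancel this).symm)
  have d35 : t ≠ t' := fun h => hne1 h.symm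
  have d45 : m * t ≠ t' := fun h => hne2 h.symm
  have hginj : Function.Injective g := by
    intro i j h
    fin_cases i <;> fin_cases j <;>
      first
        | rfl
        | exact absurd h d12 | exact absurd h.symm d12
        | exact absurd h d13 | exact absurd h.symm d13
        | exact absurd h d14 | exact absurd h.symm d14
        | exact absurd h d15 | exact absurd h.symm d15
        | exact absurd h d23 | exact absurd h.symm d23
        | exact absurd h d24 | exact absurd h.symm d24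
        | exact absurd h d25 | exact absurd h.symm d25
        | exact absurd h d34 | exact absurd h.symm d34
        | exact absurd h d35 | exact absurd h.symm d35
        | exact absurd h d45 | exact absurd h.symm d45
  have hfinj : Function.Injective f := by
    intro i j h
    apply hginj
    rw [← hf i, ← hf j, h]
  have h5 : 5 ≤ Nat.card (Subgroup.closure k) := by
    have := Nat.card_le_card_of_injective f hfinj
    simpa using this
  rw [hn] at h5 hlt
  have hn3 : n < 3 := by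
    by_contra hh
    push_neg at hh
    have := Nat.pow_le_pow_right (show 0 < 2 by norm_num) hh
    omega
  interval_cases n <;> omega

/-- the group-theoretic core of TR3A -/
theorem e5_tr3_core {G : Type*} [Group G] (m s y s1 s2 : G) (hmc : ∀ g, m * g = g * m)
    (hm2 : m * m = 1) (hm1 : m ≠ 1) (hss : s * s = 1) (hy3 : y ^ 3 = 1)
    (hs1 : y * s * y⁻¹ = s1) (hs2 : y * s1 * y⁻¹ = s2) :
    s1 ≠ m * s ∧
    (s * s1 = m * (s1 * s) →
      y * (s * s1 * s2) = (s * s1 * s2) * y ∧ s * s1 * s2 ≠ 1 ∧ s * s1 * s2 ≠ m) := by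
  have hφ3 : ∀ g, y * (y * (y * g * y⁻¹) * y⁻¹) * y⁻¹ = g := by
    intro g
    have e : y * (y * (y * g * y⁻¹) * y⁻¹) * y⁻¹ = y ^ 3 * g * (y ^ 3)⁻¹ := by
      simp only [pow_succ, pow_zero, one_mul, mul_inv_rev, mul_assoc]
    rw [e, hy3]; simp
  have hφm : y * m * y⁻¹ = m := by rw [← hmc y, mul_assoc, mul_inv_cancel, mul_one]
  have hml : ∀ a b, a * (m * b) = m * (a * b) := fun a b => by
    rw [← mul_assoc, ← hmc a, mul_assoc]
  have conj_mul : ∀ a b, y * (a * b) * y⁻¹ = (y * a * y⁻¹) * (y * b * y⁻¹) := by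
    intro a b; group
  have h3 : y * s2 * y⁻¹ = s := by rw [← hs2, ← hs1]; exact hφ3 s
  have h11 : s1 * s1 = 1 := by
    rw [← hs1, ← conj_mul, hss]; group
  have h22 : s2 * s2 = 1 := by
    rw [← hs2, ← conj_mul, h11]; group
  refine ⟨fun h => ?_, fun h => ?_⟩
  · have e2 : s2 = s := by
      rw [← hs2, h, conj_mul, hφm, hs1, h, ← mul_assoc, hm2, one_mul]
    have e3 : s1 = s := by rw [← hs1]; rw [e2] at h3; exact h3
    rw [e3] at h
    exact hm1 (mul_right_cancel (b := s) (by rw [one_mul]; exact h.symm))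
  · have h1 : s1 * s2 = m * (s2 * s1) := by
      have := congrArg (fun g => y * g * y⁻¹) h
      simp only [conj_mul, hφm, hs1, hs2] at this
      exact this
    have h2 : s2 * s = m * (s * s2) := by
      have := congrArg (fun g => y * g * y⁻¹) h1
      simp only [conj_mul, hφm, hs2, h3] at this
      exact this
    have h' : s1 * s = m * (s * s1) := by rw [h, ← mul_assoc, hm2, one_mul]
    have hw : y * (s * s1 * s2) * y⁻¹ = s * s1 * s2 := by
      rw [conj_mul, conj_mul, h3, hs1, hs2]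
      rw [mul_assoc s1 s2 s, h2, hml, ← mul_assoc s1 s s2, h', mul_assoc m (s * s1) s2,
        ← mul_assoc m m, hm2, one_mul]
    have hne : ∀ e, (∀ g, e * g = g * e) → e * e = 1 → s * s1 * s2 ≠ e := by
      intro e hec hee hwe
      have e1 : s2 = s1 * s * e := by
        rw [← hwe]
        calc s2 = s1 * s1 * s2 := by rw [h11, one_mul]
          _ = s1 * (s * s) * s1 * s2 := by rw [hss, mul_one]
          _ = s1 * s * (s * s1 * s2) := by simp only [mul_assoc]
      have e2 : s2 * s2 = m := by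
        rw [e1]
        calc s1 * s * e * (s1 * s * e) = s1 * s * (s1 * s) * (e * e) := by
              rw [mul_assoc (s1 * s) e, ← mul_assoc e (s1 * s) e, hec (s1 * s),
                mul_assoc (s1 * s) e e, ← mul_assoc (s1 * s) (s1 * s)]
          _ = s1 * (s * s1) * s := by rw [hee, mul_one]; simp only [mul_assoc]
          _ = m := by rw [h, hml, ← mul_assoc s1 s1, h11, one_mul, mul_assoc, hss, mul_one]
      exact hm1 (by rw [← e2, h22])
    exact ⟨mul_inv_eq_iff_eq_mul.1 hw, hne 1 (by simp) (by simp), hne m hmc hm2⟩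

theorem e5_order_three_fixed {F : Type*} [Field F] (h2 : (2 : F) ≠ 0)
    (R : Subgroup (GL (Fin 2 ⊕ Fin 2) F))
    (hsq : ∀ g ∈ R, (g : Matrix (Fin 2 ⊕ Fin 2) (Fin 2 ⊕ Fin 2) F) ^ 2 = 1 ∨
      (g : Matrix (Fin 2 ⊕ Fin 2) (Fin 2 ⊕ Fin 2) F) ^ 2 = -1)
    (hcomm : ∀ g ∈ R, ∀ h ∈ R,
      (g : Matrix (Fin 2 ⊕ Fin 2) (Fin 2 ⊕ Fin 2) F) * (h : Matrix (Fin 2 ⊕ Fin 2) (Fin 2 ⊕ Fin 2) F) =
        (h : Matrix (Fin 2 ⊕ Fin 2) (Fin 2 ⊕ Fin 2) F) * (g : Matrix (Fin 2 ⊕ Fin 2) (Fin 2 ⊕ Fin 2) F) ∨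
      (g : Matrix (Fin 2 ⊕ Fin 2) (Fin 2 ⊕ Fin 2) F) * (h : Matrix (Fin 2 ⊕ Fin 2) (Fin 2 ⊕ Fin 2) F) =
        -((h : Matrix (Fin 2 ⊕ Fin 2) (Fin 2 ⊕ Fin 2) F) * (g : Matrix (Fin 2 ⊕ Fin 2) (Fin 2 ⊕ Fin 2) F)))
    (hsc : ∀ g ∈ R, (∃ c : F, (g : Matrix (Fin 2 ⊕ Fin 2) (Fin 2 ⊕ Fin 2) F) = c • 1) →
      (g : Matrix (Fin 2 ⊕ Fin 2) (Fin 2 ⊕ Fin 2) F) = 1 ∨
        (g : Matrix (Fin 2 ⊕ Fin 2) (Fin 2 ⊕ Fin 2) F) = -1)
    (hm1 : ∃ g ∈ R, (g : Matrix (Fin 2 ⊕ Fin 2) (Fin 2 ⊕ Fin 2) F) = -1)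
    (hRm : Cfsg.Geo.IsOfMinusType 2 R)
    (s : GL (Fin 2 ⊕ Fin 2) F) (hs : s ∈ R)
    (hs2 : (s : Matrix (Fin 2 ⊕ Fin 2) (Fin 2 ⊕ Fin 2) F) ^ 2 = 1)
    (hsns : ∀ c : F, (s : Matrix (Fin 2 ⊕ Fin 2) (Fin 2 ⊕ Fin 2) F) ≠ c • 1)
    (y : GL (Fin 2 ⊕ Fin 2) F) (hy : y ∈ Cfsg.Geo.subgroupNormalizer R) (hy3 : y ^ 3 = 1) :
    ∃ w ∈ R, (∀ c : F, (w : Matrix (Fin 2 ⊕ Fin 2) (Fin 2 ⊕ Fin 2) F) ≠ c • 1) ∧ y * w = w * y := by
  obtain ⟨m, hmR, hmv⟩ := hm1
  have hmc : ∀ g : GL (Fin 2 ⊕ Fin 2) F, m * g = g * m := fun g => Units.ext (by simp [hmv])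
  have hm2 : m * m = 1 := Units.ext (by simp [hmv])
  have hmne : m ≠ 1 := by
    intro h
    have h' := congrArg (fun g : GL (Fin 2 ⊕ Fin 2) F =>
      (g : Matrix (Fin 2 ⊕ Fin 2) (Fin 2 ⊕ Fin 2) F) (Sum.inl 0) (Sum.inl 0)) h
    simp only [hmv] at h'
    simp at h'
    exact h2 (by linear_combination -h')
  have hss : s * s = 1 := Units.ext (by simpa [pow_two] using hs2)
  have hs_ne1 : s ≠ 1 := fun h => hsns 1 (by rw [h]; simp)
  have hs_nem : s ≠ m := fun h => hsns (-1) (by rw [h, hmv]; simp)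
  have hyn := Subgroup.mem_normalizer_iff.1 hy
  have hs1R : y * s * y⁻¹ ∈ R := (hyn s).1 hs
  have hs2R : y * (y * s * y⁻¹) * y⁻¹ ∈ R := (hyn _).1 hs1R
  obtain ⟨hA, hB⟩ := e5_tr3_core m s y (y * s * y⁻¹) (y * (y * s * y⁻¹) * y⁻¹) hmc hm2 hmne hss hy3 rfl rfl
  have hcen : ∀ e : GL (Fin 2 ⊕ Fin 2) F, (∀ g, e * g = g * e) → y * s * y⁻¹ = e → s = e := by
    intro e hec h
    have h1 : y * s = e * y := mul_inv_eq_iff_eq_mul.1 h
    rw [hec y] at h1
    exact mul_left_cancel h1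
  have hs1_ne1 : y * s * y⁻¹ ≠ 1 := fun h => hs_ne1 (hcen 1 (by simp) h)
  have hs1_nem : y * s * y⁻¹ ≠ m := fun h => hs_nem (hcen m hmc h)
  have hs11 : y * s * y⁻¹ * (y * s * y⁻¹) = 1 := by
    calc y * s * y⁻¹ * (y * s * y⁻¹) = y * (s * s) * y⁻¹ := by group
      _ = 1 := by rw [hss]; group
  rcases hcomm s hs _ hs1R with h | h
  · have hc : s * (y * s * y⁻¹) = y * s * y⁻¹ * s := Units.ext h
    rcases e5_klein_core R hRm m s (y * s * y⁻¹) hmR hs hs1R hmc hm2 hmne hss hs11 hc hs_ne1 hs_nem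
      hs1_ne1 hs1_nem with h' | h'
    · exact ⟨s, hs, hsns, mul_inv_eq_iff_eq_mul.1 h'⟩
    · exact absurd h' hA
  · have ha : s * (y * s * y⁻¹) = m * (y * s * y⁻¹ * s) := by
      apply Units.ext
      rw [Units.val_mul m, hmv, neg_one_mul]
      exact h
    obtain ⟨hw1, hw2, hw3⟩ := hB ha
    have hwR := R.mul_mem (R.mul_mem hs hs1R) hs2R
    refine ⟨_, hwR, fun c hc => ?_, hw1⟩
    rcases hsc _ hwR ⟨c, hc⟩ with h' | h'
    · exact hw2 (Units.ext h')
    · exact hw3 (Units.ext (by rw [hmv]; exact h'))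

end Cfsg.Agent.Helper14
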