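import Mathlib
import Cfsg.Prelude.Def_GeometricClasses
import Cfsg.Prelude.Def_LieClassical
import Cfsg.Agent.Helper69.E4Def
import Cfsg.Agent.Helper69.E5Def
import Cfsg.Agent.Helper37.E5WORDS

/-!
# CALL S6002, piece Y5 (helper14): the element `e5Y a b` of order 5 normalising the signed words
-/

set_option autoImplicit false

namespace Cfsg.Agent.Helper14
open Cfsg.Agent.Helper69
open scoped Matrix

/-- `-2 • e5Y a b` -/
def e5yM {F : Type*} [Field F] (a b : F) : Matrix (Fin 4) (Fin 4) F :=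
  !![a - b, -1, a + b, 1; a - b, 1, a + b, -1; a + b, -1, b - a, -1; a + b, 1, b - a, 1]

/-- the square of `e5yM a b` -/
def e5yN {F : Type*} [Field F] (a b : F) : Matrix (Fin 4) (Fin 4) F :=
  !![-2 + 2 * b, -2 * a, -2 * a, 2 - 2 * b; -2 - 2 * b, -2 * a, 2 * a, -2 - 2 * b;
    -2 * a, -2 - 2 * b, -2 - 2 * b, 2 * a; 2 * a, 2 - 2 * b, -2 + 2 * b, 2 * a]

theorem e5Y_eq_smul {F : Type*} [Field F] (a b : F) : e5Y a b = (-2 : F)⁻¹ • e5yM a b := rfl

theorem e5yM_sq {F : Type*} [Field F] (a b : F) (hab : a ^ 2 + b ^ 2 = -1) :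
    e5yM a b * e5yM a b = e5yN a b := by
  have ha2 : a ^ 2 = -1 - b ^ 2 := by linear_combination hab
  ext i j
  fin_cases i <;> fin_cases j <;>
    simp [e5yM, e5yN, Matrix.mul_apply, Fin.sum_univ_four] <;>
    (try ring_nf) <;> (try simp only [ha2]) <;> (try ring)

/-- the cube of `e5yM a b` -/
def e5yN3 {F : Type*} [Field F] (a b : F) : Matrix (Fin 4) (Fin 4) F :=
  !![4 + 4 * b, 4 - 4 * b, -4 * a, 4 * a; -4 * a, -4 * a, 4 - 4 * b, -4 - 4 * b;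
    -4 * a, 4 * a, 4 - 4 * b, 4 + 4 * b; -4 - 4 * b, 4 - 4 * b, 4 * a, 4 * a]

/-- the fourth power of `e5yM a b` -/
def e5yN4 {F : Type*} [Field F] (a b : F) : Matrix (Fin 4) (Fin 4) F :=
  !![-8 * b + 8 * a, -8 * b + 8 * a, 8 * b + 8 * a, 8 * b + 8 * a; 8, -8, 8, -8;
    8 * b + 8 * a, 8 * b + 8 * a, 8 * b - 8 * a, 8 * b - 8 * a; -8, 8, 8, -8]

theorem e5yN_mul_M {F : Type*} [Field F] (a b : F) (hab : a ^ 2 + b ^ 2 = -1) :
    e5yN a b * e5yM a b = e5yN3 a b := by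
  have ha2 : a ^ 2 = -1 - b ^ 2 := by linear_combination hab
  ext i j
  fin_cases i <;> fin_cases j <;>
    simp [e5yM, e5yN, e5yN3, Matrix.mul_apply, Fin.sum_univ_four] <;>
    (try ring_nf) <;> (try simp only [ha2]) <;> (try ring)

theorem e5yN_mul_N {F : Type*} [Field F] (a b : F) (hab : a ^ 2 + b ^ 2 = -1) :
    e5yN a b * e5yN a b = e5yN4 a b := by
  have ha2 : a ^ 2 = -1 - b ^ 2 := by linear_combination hab
  ext i j
  fin_cases i <;> fin_cases j <;>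
    simp [e5yN, e5yN4, Matrix.mul_apply, Fin.sum_univ_four] <;>
    (try ring_nf) <;> (try simp only [ha2]) <;> (try ring)

theorem e5yM_cyclo {F : Type*} [Field F] (a b : F) (hab : a ^ 2 + b ^ 2 = -1) :
    e5yN a b * e5yN a b - (2 : F) • (e5yN a b * e5yM a b) + (4 : F) • e5yN a b
      - (8 : F) • e5yM a b + (16 : F) • (1 : Matrix (Fin 4) (Fin 4) F) = 0 := by
  rw [e5yN_mul_N a b hab, e5yN_mul_M a b hab]
  ext i j
  fin_cases i <;> fin_cases j <;>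
    simp [e5yM, e5yN, e5yN3, e5yN4] <;> ring

theorem e5Y_cyclo {F : Type*} [Field F] (h2 : (2 : F) ≠ 0) (a b : F) (hab : a ^ 2 + b ^ 2 = -1) :
    e5Y a b ^ 4 + e5Y a b ^ 3 + e5Y a b ^ 2 + e5Y a b + 1 = 0 := by
  have hM : e5yM a b = (-2 : F) • e5Y a b := by
    rw [e5Y_eq_smul, smul_smul, mul_inv_cancel₀ (neg_ne_zero.2 h2), one_smul]
  have h1 := e5yM_cyclo a b hab
  rw [← e5yM_sq a b hab, hM] at h1
  have h16 : (16 : F) • (e5Y a b ^ 4 + e5Y a b ^ 3 + e5Y a b ^ 2 + e5Y a b + 1) = 0 := by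
    rw [← h1]
    simp only [Matrix.smul_mul, Matrix.mul_smul, smul_smul, pow_succ, pow_zero, one_mul, mul_assoc]
    module
  have h16' : (16 : F) ≠ 0 := by
    have : (16 : F) = 2 ^ 4 := by norm_num
    rw [this]; exact pow_ne_zero 4 h2
  exact (smul_eq_zero.1 h16).resolve_left h16'

theorem e5Y_pow {F : Type*} [Field F] (h2 : (2 : F) ≠ 0) (a b : F) (hab : a ^ 2 + b ^ 2 = -1) :
    e5Y a b ^ 5 = 1 := by
  have h := e5Y_cyclo h2 a b hab
  have e : e5Y a b ^ 5 - 1 = (e5Y a b - 1) * (e5Y a b ^ 4 + e5Y a b ^ 3 + e5Y a b ^ 2 + e5Y a b + 1) := by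
    noncomm_ring
  rw [h, mul_zero] at e
  exact sub_eq_zero.1 e

theorem e5Y_ne {F : Type*} [Field F] (h2 : (2 : F) ≠ 0) (a b : F) (c : F) :
    e5Y a b ≠ c • (1 : Matrix (Fin 4) (Fin 4) F) := by
  intro h
  have h01 := congrFun (congrFun h 0) 1
  simp [e5Y] at h01
  exact h2 h01

/-! ### `e5Y` and the signed words -/

theorem e5yM_I {F : Type*} [Field F] (a b : F) :
    e5yM a b * e5I F = -(e5I F * e4X2 F) * e5yM a b := by
  ext i j
  fin_cases i <;> fin_cases j <;>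
    simp [e5yM, e5I, e4X2, Matrix.mul_apply, Fin.sum_univ_four] <;> (try ring)

theorem e5yM_J {F : Type*} [Field F] (a b : F) (hab : a ^ 2 + b ^ 2 = -1) :
    e5yM a b * e5J a b = (e5I F * e5J a b) * e5yM a b := by
  have ha2 : a ^ 2 = -1 - b ^ 2 := by linear_combination hab
  ext i j
  fin_cases i <;> fin_cases j <;>
    simp [e5yM, e5I, e5J, Matrix.mul_apply, Fin.sum_univ_four] <;>
    (try ring_nf) <;> (try simp only [ha2]) <;> (try ring)

theorem e5yM_X {F : Type*} [Field F] (a b : F) (hab : a ^ 2 + b ^ 2 = -1) :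
    e5yM a b * e4X2 F = -(e5I F * e5J a b * e4X2 F * e4Z2 F) * e5yM a b := by
  have ha2 : a ^ 2 = -1 - b ^ 2 := by linear_combination hab
  ext i j
  fin_cases i <;> fin_cases j <;>
    simp [e5yM, e5I, e5J, e4X2, e4Z2, Matrix.mul_apply, Fin.sum_univ_four] <;>
    (try ring_nf) <;> (try simp only [ha2]) <;> (try ring)

theorem e5yM_Z {F : Type*} [Field F] (a b : F) :
    e5yM a b * e4Z2 F = e4X2 F * e5yM a b := by
  ext i j
  fin_cases i <;> fin_cases j <;>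
    simp [e5yM, e4X2, e4Z2, Matrix.mul_apply, Fin.sum_univ_four]

theorem e5Y_semi {F : Type*} [Field F] (a b : F) {A C : Matrix (Fin 4) (Fin 4) F}
    (h : e5yM a b * A = C * e5yM a b) : SemiconjBy (e5Y a b) A C := by
  show e5Y a b * A = C * e5Y a b
  rw [e5Y_eq_smul, Matrix.smul_mul, h, Matrix.mul_smul]

/-- signed words -/
def e5SW {F : Type*} [Field F] (a b : F) (M : Matrix (Fin 4) (Fin 4) F) : Prop :=
  ∃ s α β γ δ : ℕ, M = (-1 : F) ^ s • e5W a b α β γ δ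

theorem e5SW_one {F : Type*} [Field F] (a b : F) : e5SW a b 1 :=
  ⟨0, 0, 0, 0, 0, by simp [e5W]⟩

theorem e5SW_mul {F : Type*} [Field F] (a b : F) (hab : a ^ 2 + b ^ 2 = -1)
    {M N : Matrix (Fin 4) (Fin 4) F} (hM : e5SW a b M) (hN : e5SW a b N) : e5SW a b (M * N) := by
  obtain ⟨s, α, β, γ, δ, rfl⟩ := hM
  obtain ⟨s', α', β', γ', δ', rfl⟩ := hN
  obtain ⟨k, hk⟩ := Cfsg.Agent.Helper37.e5_word_mul a b hab α β γ δ α' β' γ' δ'
  refine ⟨s + s' + k, α + α', β + β', γ + γ', δ + δ', ?_⟩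
  rw [Matrix.smul_mul, Matrix.mul_smul, hk, smul_smul, smul_smul, ← pow_add, ← pow_add]

theorem e5SW_pow {F : Type*} [Field F] (a b : F) (hab : a ^ 2 + b ^ 2 = -1)
    {M : Matrix (Fin 4) (Fin 4) F} (hM : e5SW a b M) (n : ℕ) : e5SW a b (M ^ n) := by
  induction n with
  | zero => rw [pow_zero]; exact e5SW_one a b
  | succ n ih => rw [pow_succ]; exact e5SW_mul a b hab ih hM

/-- `e5Y` normalises the set of signed words -/
theorem e5Y_word {F : Type*} [Field F] (h2 : (2 : F) ≠ 0) (a b : F) (hab : a ^ 2 + b ^ 2 = -1)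
    (s α β γ δ : ℕ) :
    ∃ s' α' β' γ' δ' : ℕ, e5Y a b * ((-1 : F) ^ s • e5W a b α β γ δ) =
      ((-1 : F) ^ s' • e5W a b α' β' γ' δ') * e5Y a b := by
  have hsc := ((((e5Y_semi a b (e5yM_I a b)).pow_right α).mul_right
    ((e5Y_semi a b (e5yM_J a b hab)).pow_right β)).mul_right
    ((e5Y_semi a b (e5yM_X a b hab)).pow_right γ)).mul_right
    ((e5Y_semi a b (e5yM_Z a b)).pow_right δ)
  have hI : e5SW a b (-(e5I F * e4X2 F)) := ⟨1, 1, 0, 1, 0, by simp [e5W]⟩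
  have hJ : e5SW a b (e5I F * e5J a b) := ⟨0, 1, 1, 0, 0, by simp [e5W]⟩
  have hX : e5SW a b (-(e5I F * e5J a b * e4X2 F * e4Z2 F)) := ⟨1, 1, 1, 1, 1, by simp [e5W]⟩
  have hZ : e5SW a b (e4X2 F) := ⟨0, 0, 0, 1, 0, by simp [e5W]⟩
  obtain ⟨s₁, α', β', γ', δ', h⟩ := e5SW_mul a b hab (e5SW_mul a b hab (e5SW_mul a b hab
    (e5SW_pow a b hab hI α) (e5SW_pow a b hab hJ β)) (e5SW_pow a b hab hX γ)) (e5SW_pow a b hab hZ δ)
  refine ⟨s + s₁, α', β', γ', δ', ?_⟩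
  have e := hsc.eq
  rw [h] at e
  rw [Matrix.mul_smul]
  show (-1 : F) ^ s • (e5Y a b * (e5I F ^ α * e5J a b ^ β * e4X2 F ^ γ * e4Z2 F ^ δ)) = _
  rw [e, Matrix.smul_mul, Matrix.smul_mul, smul_smul, ← pow_add]

end Cfsg.Agent.Helper14
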