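-- helper14: piece NE1 of CALL S2701 (helper30): `1 + E` is a symmetric involution with zero
-- diagonal and a transvection (even dimension, characteristic 2).
import Mathlib
import Cfsg.Agent.Helper30.GA2Defs

set_option autoImplicit false

namespace Cfsg.Agent.Helper14

open Matrix Cfsg.Agent.Helper30.GA2

/-- the all-ones matrix squares to zero in even dimension and characteristic 2 -/
theorem ga2_ones_mul_ones {F : Type*} [Field F] [CharP F 2] {ι : Type*} [Fintype ι]
    (hι : Even (Fintype.card ι)) :
    (Matrix.of fun _ _ => (1 : F) : Matrix ι ι F) * (Matrix.of fun _ _ => (1 : F)) = 0 := by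
  ext i j
  simp only [Matrix.mul_apply, Matrix.of_apply, mul_one, Finset.sum_const, Finset.card_univ,
    nsmul_eq_mul, Matrix.zero_apply]
  obtain ⟨k, hk⟩ := hι
  rw [hk]
  push_cast
  exact CharTwo.add_self_eq_zero _

/-- `nE * nE = 1` -/
theorem ga2_nE_mul_self {F : Type*} [Field F] [CharP F 2] {ι : Type*} [Fintype ι]
    [DecidableEq ι] (hι : Even (Fintype.card ι)) : nE ι F * nE ι F = 1 := by
  have hE : nE ι F = 1 + Matrix.of fun _ _ => (1 : F) := rfl
  have h2 : (Matrix.of fun _ _ => (1 : F) : Matrix ι ι F) + (Matrix.of fun _ _ => (1 : F)) = 0 := by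
    ext i j
    simp only [Matrix.add_apply, Matrix.of_apply, Matrix.zero_apply]
    exact CharTwo.add_self_eq_zero _
  rw [hE, add_mul, mul_add, mul_add, one_mul, mul_one, one_mul, ga2_ones_mul_ones hι, add_zero,
    add_assoc, h2, add_zero]

/-- NE1: `1 + E` is a symmetric involution with zero diagonal, and a transvection. -/
theorem nE_props {F : Type*} [Field F] [CharP F 2] {ι : Type*} [Fintype ι] [DecidableEq ι]
    [Nonempty ι] (hι : Even (Fintype.card ι)) :
    (nE ι F)ᵀ = nE ι F ∧ (∀ i, nE ι F i i = 0) ∧ nE ι F * nE ι F = 1 ∧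
      (nE ι F - 1).rank = 1 ∧ (nE ι F - 1) * (nE ι F - 1) = 0 := by
  refine ⟨?_, ?_, ga2_nE_mul_self hι, ?_, ?_⟩
  · ext i j
    simp only [Matrix.transpose_apply, nE_apply]
    rw [Matrix.one_apply, Matrix.one_apply]
    simp only [eq_comm]
  · intro i
    rw [nE_apply, Matrix.one_apply_eq]
    exact CharTwo.add_self_eq_zero _
  · rw [nE_sub_one]
    apply le_antisymm
    · have h1 : (Matrix.of fun _ _ => (1 : F) : Matrix ι ι F)
          = Matrix.vecMulVec (fun _ => (1 : F)) (fun _ => (1 : F)) := by
        ext i j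
        simp [Matrix.vecMulVec_apply]
      rw [h1]
      exact Matrix.rank_vecMulVec_le _ _
    · rw [Nat.one_le_iff_ne_zero]
      intro h
      unfold Matrix.rank at h
      rw [Submodule.finrank_eq_zero, LinearMap.range_eq_bot] at h
      obtain ⟨i⟩ := ‹Nonempty ι›
      have h2 := congrFun (LinearMap.congr_fun h (Pi.single i 1)) i
      simp at h2
  · rw [nE_sub_one]
    exact ga2_ones_mul_ones hι

end Cfsg.Agent.Helper14
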