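-- helper14: piece NE2 of CALL S2701 (helper30): in characteristic 2 and even dimension the
-- orthogonal matrices are the `1 + E`-symplectic matrices commuting with `1 + E`.
import Mathlib
import Cfsg.Agent.Helper30.GA2Defs
import Cfsg.Agent.Helper14.GA2NE1

set_option autoImplicit false

namespace Cfsg.Agent.Helper14

open Matrix Cfsg.Agent.Helper30.GA2

/-- in characteristic 2, a sum whose squares sum to one is one -/
theorem ga2_sum_eq_one {F : Type*} [Field F] [CharP F 2] {ι : Type*} [Fintype ι]
    (f : ι → F) (h : ∑ j, f j * f j = 1) : ∑ j, f j = 1 := by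
  have h2 : (∑ j, f j) * (∑ j, f j) = 1 := by
    rw [CharTwo.sum_mul_self]
    exact h
  rcases mul_self_eq_one_iff.mp h2 with h3 | h3
  · exact h3
  · rw [h3, CharTwo.neg_eq]

/-- NE2: in characteristic 2 and even dimension, the orthogonal matrices are the symplectic
matrices for `1 + E` commuting with `1 + E`. -/
theorem nE_orth_iff {F : Type*} [Field F] [CharP F 2] {ι : Type*} [Fintype ι] [DecidableEq ι]
    (hι : Even (Fintype.card ι)) (g : Matrix ι ι F) :
    gᵀ * g = 1 ↔ (gᵀ * nE ι F * g = nE ι F ∧ g * nE ι F = nE ι F * g) := by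
  obtain ⟨E, hEdef⟩ : ∃ E : Matrix ι ι F, E = Matrix.of fun _ _ => (1 : F) := ⟨_, rfl⟩
  have hE : ∀ i j, E i j = 1 := fun i j => by rw [hEdef]; rfl
  have hN : nE ι F = 1 + E := by rw [hEdef]; rfl
  have hNN : nE ι F * nE ι F = 1 := ga2_nE_mul_self hι
  constructor
  · intro h
    have h' : g * gᵀ = 1 := mul_eq_one_comm.mp h
    have hrow : ∀ i, ∑ j, g i j = 1 := by
      intro i
      apply ga2_sum_eq_one
      have h1 := congrFun (congrFun h' i) i
      rw [Matrix.mul_apply, Matrix.one_apply_eq] at h1
      simpa only [Matrix.transpose_apply] using h1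
    have hcol : ∀ j, ∑ i, g i j = 1 := by
      intro j
      apply ga2_sum_eq_one
      have h1 := congrFun (congrFun h j) j
      rw [Matrix.mul_apply, Matrix.one_apply_eq] at h1
      simpa only [Matrix.transpose_apply] using h1
    have hgE : g * E = E := by
      ext i j
      rw [Matrix.mul_apply, hE]
      simp only [hE, mul_one]
      exact hrow i
    have hEg : E * g = E := by
      ext i j
      rw [Matrix.mul_apply, hE]
      simp only [hE, one_mul]
      exact hcol j
    have hgtE : gᵀ * E = E := by
      ext i j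
      rw [Matrix.mul_apply, hE]
      simp only [hE, mul_one, Matrix.transpose_apply]
      exact hcol i
    refine ⟨?_, ?_⟩
    · rw [hN, mul_add, add_mul, mul_one, h, hgtE, hEg]
    · rw [hN, mul_add, add_mul, mul_one, one_mul, hgE, hEg]
  · rintro ⟨h1, h2⟩
    calc gᵀ * g = gᵀ * g * (nE ι F * nE ι F) := by rw [hNN, mul_one]
      _ = gᵀ * (g * nE ι F) * nE ι F := by simp only [mul_assoc]
      _ = gᵀ * nE ι F * g * nE ι F := by rw [h2]; simp only [mul_assoc]
      _ = 1 := by rw [h1, hNN]

end Cfsg.Agent.Helper14
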