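-- helper14 library: core of piece B of helper77's CALL S4648 (Kuelshammer: a local symmetric algebra
-- whose centre has dimension at most 4 is commutative), proved from the instance-level statements
-- of pieces A, B1, B2, B3.
import Mathlib
import Cfsg.Agent.Helper52.K2B2b2

set_option autoImplicit false

universe u v

namespace Cfsg.Agent.Helper14

variable {k : Type v} [Field k] {A : Type u} [Ring A] [Algebra k A]

theorem kulB_span_one [FiniteDimensional k A] (W V : Submodule k A) (hWV : W ≤ V)
    (hfr : Module.finrank k V ≤ Module.finrank k W + 1) :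
    ∃ x ∈ V, V ≤ Submodule.span k {x} ⊔ W := by
  by_cases h : V ≤ W
  · exact ⟨0, V.zero_mem, h.trans le_sup_right⟩
  · obtain ⟨x, hxV, hxW⟩ := SetLike.not_le_iff_exists.mp h
    refine ⟨x, hxV, ?_⟩
    have hle : Submodule.span k {x} ⊔ W ≤ V :=
      sup_le ((Submodule.span_singleton_le_iff_mem x V).mpr hxV) hWV
    have hlt : W < Submodule.span k {x} ⊔ W := by
      refine lt_of_le_of_ne le_sup_right ?_
      intro heq
      apply hxW
      rw [heq]
      exact (le_sup_left : Submodule.span k {x} ≤ _) (Submodule.mem_span_singleton_self x)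
    have h1 := Submodule.finrank_lt_finrank_of_lt hlt
    have h2 : Submodule.span k {x} ⊔ W = V := Submodule.eq_of_le_of_finrank_le hle (by omega)
    rw [h2]

theorem kulB_span_two [FiniteDimensional k A] (W V : Submodule k A) (hWV : W ≤ V)
    (hfr : Module.finrank k V ≤ Module.finrank k W + 2) :
    ∃ x ∈ V, ∃ y ∈ V, V ≤ Submodule.span k {x, y} ⊔ W := by
  by_cases h : V ≤ W
  · exact ⟨0, V.zero_mem, 0, V.zero_mem, h.trans le_sup_right⟩
  · obtain ⟨x, hxV, hxW⟩ := SetLike.not_le_iff_exists.mp h
    have hle : Submodule.span k {x} ⊔ W ≤ V :=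
      sup_le ((Submodule.span_singleton_le_iff_mem x V).mpr hxV) hWV
    have hlt : W < Submodule.span k {x} ⊔ W := by
      refine lt_of_le_of_ne le_sup_right ?_
      intro heq
      apply hxW
      rw [heq]
      exact (le_sup_left : Submodule.span k {x} ≤ _) (Submodule.mem_span_singleton_self x)
    have h1 := Submodule.finrank_lt_finrank_of_lt hlt
    obtain ⟨y, hyV, hy⟩ := kulB_span_one (Submodule.span k {x} ⊔ W) V hle (by omega)
    refine ⟨x, hxV, y, hyV, hy.trans ?_⟩
    rw [Submodule.span_insert]
    apply sup_le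
    · exact le_sup_of_le_left le_sup_right
    · exact sup_le (le_sup_of_le_left le_sup_left) le_sup_right

theorem kulB_nilp (J M : Submodule k A) (N : ℕ) (hN : J ^ N = ⊥) (h : M ≤ M * J) : M = ⊥ := by
  have hn : ∀ n : ℕ, M ≤ M * J ^ n := by
    intro n
    induction n with
    | zero => simp
    | succ n ih =>
      calc M ≤ M * J := h
        _ ≤ (M * J ^ n) * J := mul_le_mul' ih le_rfl
        _ = M * J ^ (n + 1) := by rw [mul_assoc, ← pow_succ]
  have h1 := hn N
  rw [hN, Submodule.mul_bot] at h1
  exact le_bot_iff.mp h1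

theorem kulB_socle_mem (J : Submodule k A) (hJJ : J * J ≤ J) (N : ℕ) (hN : J ^ N = ⊥) (s : A)
    (huniq : ∀ s' : A, (∀ j ∈ J, s' * j = 0) → ∃ c : k, s' = c • s) :
    ∀ d n : ℕ, 1 ≤ n → n + d = N → J ^ n ≠ ⊥ → s ∈ J ^ n := by
  intro d
  induction d with
  | zero =>
    intro n _ hn h
    exfalso
    apply h
    rw [← hN, ← hn, add_zero]
  | succ d ih =>
    intro n hn1 hn h
    by_cases h1 : J ^ (n + 1) = ⊥
    · obtain ⟨t, ht, ht0⟩ := Submodule.exists_mem_ne_zero_of_ne_bot h
      obtain ⟨c, hc⟩ := huniq t (fun j hj => by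
        have h2 : t * j ∈ J ^ (n + 1) := by
          rw [pow_succ]
          exact Submodule.mul_mem_mul ht hj
        rw [h1] at h2
        exact (Submodule.mem_bot k).mp h2)
      have hc0 : c ≠ 0 := by
        rintro rfl
        apply ht0
        rw [hc, zero_smul]
      have h3 : s = c⁻¹ • t := by rw [hc, smul_smul, inv_mul_cancel₀ hc0, one_smul]
      rw [h3]
      exact Submodule.smul_mem _ _ ht
    · have h2 := ih (n + 1) (by omega) (by omega) h1
      have hle : J ^ (n + 1) ≤ J ^ n := by
        obtain ⟨m, rfl⟩ : ∃ m, n = m + 1 := ⟨n - 1, by omega⟩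
        rw [pow_succ J (m + 1), pow_succ J m, mul_assoc]
        exact mul_le_mul' le_rfl hJJ
      exact hle h2

theorem kul_local_comm_core [FiniteDimensional k A] (lam : A →ₗ[k] k)
    (hsym : ∀ x y, lam (x * y) = lam (y * x))
    (hnd : ∀ x, (∀ y, lam (x * y) = 0) → x = 0)
    (π : A →ₐ[k] k) (N : ℕ)
    (hN : ∀ l : List A, l.length = N → (∀ x ∈ l, π x = 0) → l.prod = 0)
    (hPA : ∀ (J : Submodule k A) (x y c : A), x ∈ J → y ∈ J → c = x * y - y * x →
        J ≤ Submodule.span k {x, y} ⊔ J * J → J * J ≤ Submodule.span k {c} ⊔ J * J * J →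
        c ∉ J * J * J → J * J * J ≤ J * J * J * J)
    (hPB1 : ∀ x : Fin 5 → A, ∃ c : Fin 5 → k, c ≠ 0 ∧
        ∑ i, c i • x i ∈ Submodule.span k {w : A | ∃ s t : A, w = s * t - t * s})
    (hPB2 : ∀ (J : Submodule k A), J * J ≤ J → (∀ a : A, ∃ c : k, a - algebraMap k A c ∈ J) →
        ∀ (N : ℕ), J ^ N = ⊥ → ∀ x : A, x ∈ J → J ≤ Submodule.span k {x} ⊔ J * J →
        ∀ a b : A, a * b = b * a)
    (hPB3 : ∃ s : A, lam s ≠ 0 ∧ (∀ j, π j = 0 → s * j = 0) ∧
        ∀ s' : A, (∀ j, π j = 0 → s' * j = 0) → ∃ c : k, s' = c • s) :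
    ∀ a b : A, a * b = b * a := by
  classical
  obtain ⟨J, hJdef⟩ : ∃ J : Submodule k A, J = LinearMap.ker π.toLinearMap := ⟨_, rfl⟩
  have hJmem : ∀ x, x ∈ J ↔ π x = 0 := by
    intro x
    rw [hJdef, LinearMap.mem_ker]
    rfl
  have hJJ : J * J ≤ J := by
    rw [Submodule.mul_le]
    intro m hm n hn
    rw [hJmem] at hm hn ⊢
    rw [map_mul, hm, zero_mul]
  have hJr : ∀ a j, j ∈ J → j * a ∈ J := by
    intro a j hj
    rw [hJmem] at hj ⊢
    rw [map_mul, hj, zero_mul]
  have hdec : ∀ a : A, a - algebraMap k A (π a) ∈ J := by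
    intro a
    rw [hJmem, map_sub, AlgHom.commutes]
    simp
  have hA : ∀ a : A, ∃ c : k, a - algebraMap k A c ∈ J := fun a => ⟨π a, hdec a⟩
  have hJN : J ^ N = ⊥ := Cfsg.Agent.Helper52.k2_pow_eq_bot J N
    (fun l hl hmem => hN l hl (fun x hx => (hJmem x).mp (hmem x hx)))
  obtain ⟨K, hKdef⟩ : ∃ K : Submodule k A,
      K = Submodule.span k {w : A | ∃ s t : A, w = s * t - t * s} := ⟨_, rfl⟩
  have hcomm_of_K : K = ⊥ → ∀ a b : A, a * b = b * a := by
    intro hK a b
    have h1 : a * b - b * a ∈ K := by
      rw [hKdef]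
      exact Submodule.subset_span ⟨a, b, rfl⟩
    rw [hK, Submodule.mem_bot] at h1
    exact sub_eq_zero.mp h1
  have hlamK : ∀ w ∈ K, lam w = 0 := by
    intro w hw
    rw [hKdef] at hw
    induction hw using Submodule.span_induction with
    | mem w hw =>
      obtain ⟨s, t, rfl⟩ := hw
      rw [map_sub, hsym, sub_self]
    | zero => simp
    | add x y _ _ hx hy => rw [map_add, hx, hy, add_zero]
    | smul c x _ hx => rw [map_smul, hx, smul_zero]
  have hcommid : ∀ a b : A, a * b - b * a = (a - algebraMap k A (π a)) * (b - algebraMap k A (π b))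
      - (b - algebraMap k A (π b)) * (a - algebraMap k A (π a)) := by
    intro a b
    simp only [Algebra.algebraMap_eq_smul_one, sub_mul, mul_sub, smul_mul_assoc, mul_smul_comm,
      one_mul, mul_one]
    module
  have hKJJ : K ≤ J * J := by
    rw [hKdef, Submodule.span_le]
    rintro w ⟨a, b, rfl⟩
    have h1 := hdec a
    have h2 := hdec b
    show a * b - b * a ∈ J * J
    rw [hcommid a b]
    exact Submodule.sub_mem _ (Submodule.mul_mem_mul h1 h2) (Submodule.mul_mem_mul h2 h1)
  have hD1 : Module.finrank k A = Module.finrank k J + 1 := by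
    have h := LinearMap.finrank_range_add_finrank_ker π.toLinearMap
    have hr : LinearMap.range π.toLinearMap = ⊤ := by
      rw [LinearMap.range_eq_top]
      intro c
      exact ⟨algebraMap k A c, by simp⟩
    rw [hr, finrank_top, Module.finrank_self, ← hJdef] at h
    omega
  have hD2 : Module.finrank k A ≤ Module.finrank k K + 4 := by
    by_contra hcon
    push Not at hcon
    have hq := Submodule.finrank_quotient_add_finrank K
    have h5 : 5 ≤ Module.finrank k (A ⧸ K) := by omega
    obtain ⟨f, hf⟩ := exists_linearIndependent_of_le_finrank h5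
    choose x hx using fun i => Submodule.mkQ_surjective K (f i)
    obtain ⟨c, hc0, hc⟩ := hPB1 x
    rw [← hKdef] at hc
    apply hc0
    have h0 : ∑ i, c i • f i = 0 := by
      have h1 : K.mkQ (∑ i, c i • x i) = 0 := by
        rw [Submodule.mkQ_apply]
        exact (Submodule.Quotient.mk_eq_zero K).mpr hc
      rw [map_sum] at h1
      simpa [hx] using h1
    funext i
    exact Fintype.linearIndependent_iff.mp hf c h0 i
  have hfr1 : Module.finrank k K ≤ Module.finrank k (J * J : Submodule k A) :=
    Submodule.finrank_mono hKJJ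
  have hfr2 : Module.finrank k (J * J : Submodule k A) ≤ Module.finrank k J :=
    Submodule.finrank_mono hJJ
  by_cases hc2 : Module.finrank k (J * J : Submodule k A) ≤ Module.finrank k K
  · have hKeq : K = J * J := Submodule.eq_of_le_of_finrank_le hKJJ hc2
    have hJJ0 : J * J = ⊥ := by
      rw [Submodule.eq_bot_iff]
      intro z hz
      apply hnd
      intro a
      apply hlamK
      rw [hKeq]
      refine Submodule.mul_induction_on hz ?_ ?_
      · intro m hm n hn
        rw [mul_assoc]
        exact Submodule.mul_mem_mul hm (hJr a n hn)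
      · intro x y hx hy
        rw [add_mul]
        exact Submodule.add_mem _ hx hy
    exact hcomm_of_K (by rw [hKeq, hJJ0])
  · push Not at hc2
    by_cases hc1 : Module.finrank k J ≤ Module.finrank k (J * J : Submodule k A) + 1
    · obtain ⟨x, hxJ, hx⟩ := kulB_span_one (J * J) J hJJ hc1
      exact hPB2 J hJJ hA N hJN x hxJ hx
    · push Not at hc1
      have hd2 : Module.finrank k (J * J : Submodule k A) = Module.finrank k K + 1 := by omega
      obtain ⟨x, hxJ, y, hyJ, hxy⟩ := kulB_span_two (J * J) J hJJ (by omega)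
      obtain ⟨s, hs0, hsJ, hsuniq⟩ := hPB3
      have hsK : s ∉ K := fun h => hs0 (hlamK s h)
      by_cases h3 : J * J * J = ⊥
      · apply hcomm_of_K
        rw [Submodule.eq_bot_iff]
        intro w hw
        obtain ⟨c, hc⟩ := hsuniq w (fun j hj => by
          have h4 : w * j ∈ J * J * J := Submodule.mul_mem_mul (hKJJ hw) ((hJmem j).mpr hj)
          rw [h3] at h4
          exact (Submodule.mem_bot k).mp h4)
        have h0 := hlamK w hw
        rw [hc, map_smul, smul_eq_mul] at h0
        rcases mul_eq_zero.mp h0 with h | h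
        · rw [hc, h, zero_smul]
        · exact absurd h hs0
      · exfalso
        have e3 : J ^ 3 = J * J * J := by
          rw [show (3 : ℕ) = 2 + 1 from rfl, pow_succ, pow_two]
        have hs3 : s ∈ J * J * J := by
          have h3' : J ^ 3 ≠ ⊥ := by rw [e3]; exact h3
          have hN3 : 3 ≤ N := by
            by_contra hlt
            push Not at hlt
            apply h3'
            have h4 : J ^ 3 = J ^ N * J ^ (3 - N) := by
              rw [← pow_add]
              congr 1
              omega
            rw [h4, hJN, Submodule.bot_mul]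
          have h5 := kulB_socle_mem J hJJ N hJN s
            (fun s' hs' => hsuniq s' (fun j hj => hs' j ((hJmem j).mpr hj)))
            (N - 3) 3 (by norm_num) (by omega) h3'
          rwa [e3] at h5
        have hs2 : s ∈ J * J := (mul_le_mul' hJJ le_rfl : J * J * J ≤ J * J) hs3
        have hKs : K ⊔ Submodule.span k {s} = J * J := by
          apply Submodule.eq_of_le_of_finrank_le
            (sup_le hKJJ ((Submodule.span_singleton_le_iff_mem s _).mpr hs2))
          have hlt : K < K ⊔ Submodule.span k {s} := by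
            refine lt_of_le_of_ne le_sup_left ?_
            intro heq
            apply hsK
            rw [heq]
            exact (le_sup_right : Submodule.span k {s} ≤ _) (Submodule.mem_span_singleton_self s)
          have h6 := Submodule.finrank_lt_finrank_of_lt hlt
          omega
        obtain ⟨c, hcdef⟩ : ∃ c : A, c = x * y - y * x := ⟨_, rfl⟩
        have hKc : K ≤ Submodule.span k {c} ⊔ J * J * J := by
          rw [hKdef, Submodule.span_le]
          rintro w ⟨a, b, rfl⟩
          show a * b - b * a ∈ Submodule.span k {c} ⊔ J * J * J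
          have ha' := hdec a
          have hb' := hdec b
          obtain ⟨p, hp, j, hj, hpj⟩ := Submodule.mem_sup.mp (hxy ha')
          obtain ⟨q, hq, j', hj', hqj⟩ := Submodule.mem_sup.mp (hxy hb')
          obtain ⟨α1, α2, rfl⟩ := Submodule.mem_span_pair.mp hp
          obtain ⟨β1, β2, rfl⟩ := Submodule.mem_span_pair.mp hq
          have hpJ : α1 • x + α2 • y ∈ J := J.add_mem (J.smul_mem _ hxJ) (J.smul_mem _ hyJ)
          have hb'J : β1 • x + β2 • y + j' ∈ J := by rw [hqj]; exact hb'
          have e1 : a * b - b * a = (α1 * β2 - α2 * β1) • c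
              + (((α1 • x + α2 • y) * j' - j' * (α1 • x + α2 • y))
                + (j * (β1 • x + β2 • y + j') - (β1 • x + β2 • y + j') * j)) := by
            rw [hcommid a b, ← hpj, ← hqj, hcdef]
            simp only [add_mul, mul_add, smul_mul_assoc, mul_smul_comm, smul_add, smul_smul]
            module
          rw [e1]
          refine Submodule.add_mem _ (Submodule.smul_mem _ _
            (Submodule.mem_sup_left (Submodule.mem_span_singleton_self c)))
            (Submodule.mem_sup_right ?_)
          refine Submodule.add_mem _ (Submodule.sub_mem _ ?_ ?_) (Submodule.sub_mem _ ?_ ?_)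
          · have h7 : (α1 • x + α2 • y) * j' ∈ J * (J * J) := Submodule.mul_mem_mul hpJ hj'
            rwa [← mul_assoc] at h7
          · exact Submodule.mul_mem_mul hj' hpJ
          · exact Submodule.mul_mem_mul hj hb'J
          · have h7 : (β1 • x + β2 • y + j') * j ∈ J * (J * J) := Submodule.mul_mem_mul hb'J hj
            rwa [← mul_assoc] at h7
        have hJ2 : J * J ≤ Submodule.span k {c} ⊔ J * J * J := by
          have h9 : K ⊔ Submodule.span k {s} ≤ Submodule.span k {c} ⊔ J * J * J :=
            sup_le hKc ((Submodule.span_singleton_le_iff_mem s _).mpr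
              (Submodule.mem_sup_right hs3))
          exact hKs.symm.le.trans h9
        have hc3 : c ∉ J * J * J := by
          intro hc
          have h8 : J * J ≤ J * J * J :=
            hJ2.trans (sup_le ((Submodule.span_singleton_le_iff_mem c _).mpr hc) le_rfl)
          have h0 := kulB_nilp J (J * J) N hJN h8
          apply h3
          rw [h0, Submodule.bot_mul]
        have h4 := hPA J x y c hxJ hyJ hcdef hxy hJ2 hc3
        exact h3 (kulB_nilp J (J * J * J) N hJN h4)

end Cfsg.Agent.Helper14
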