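-- helper14 library: piece B of helper77's CALL S4648 (Kuelshammer: a local symmetric algebra whose
-- centre has dimension at most 4 is commutative), assembled from pieces A, B1, B2, B3.
import Mathlib
import Cfsg.Agent.Helper14.KulBcore
import Cfsg.Agent.Helper69.KulA
import Cfsg.Agent.Helper67.KulB1
import Cfsg.Agent.Helper20.KulB2
import Cfsg.Agent.Helper73.KulB3

set_option autoImplicit false

universe u v w

namespace Cfsg.Agent.Helper14

variable {k : Type v} [Field k] {A : Type u} [Ring A] [Algebra k A]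

theorem kul_local_comm [FiniteDimensional k A] (lam : A →ₗ[k] k)
    (hsym : ∀ x y, lam (x * y) = lam (y * x))
    (hnd : ∀ x, (∀ y, lam (x * y) = 0) → x = 0)
    (π : A →ₐ[k] k) (N : ℕ)
    (hN : ∀ l : List A, l.length = N → (∀ x ∈ l, π x = 0) → l.prod = 0)
    (hZ : ∀ v : Fin 5 → A, (∀ i a, v i * a = a * v i) → ¬ LinearIndependent k v) :
    ∀ a b : A, a * b = b * a :=
  kul_local_comm_core lam hsym hnd π N hN
    (fun J x y c hx hy hc hJ hJ2 hc3 => Cfsg.Agent.Helper69.kul_cube J x y c hx hy hc hJ hJ2 hc3)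
    (fun x => Cfsg.Agent.Helper67.kul_codim lam hsym hnd hZ x)
    (fun J hJJ hA N hN x hx hJ => Cfsg.Agent.Helper20.kul_gen_one J hJJ hA N hN x hx hJ)
    (Cfsg.Agent.Helper73.kul_socle lam hsym hnd π)

end Cfsg.Agent.Helper14
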