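-- helper14 library: piece T1 of helper95's CALL S5874 (two orthogonal isometric nondegenerate
-- even-dimensional subspaces contain a totally singular subspace of full dimension in their sum).
import Mathlib
import Cfsg.Prelude.Def_GeometricClasses

set_option autoImplicit false
open Cfsg Cfsg.Geo Matrix

namespace Cfsg.Agent.Helper14

variable {ι : Type} [Fintype ι] [DecidableEq ι] {F : Type*} [Field F]

theorem q14_add (Q : (ι → F) → F) (x y : ι → F) :
    Q (x + y) = Q x + Q y + QuadraticMap.polar Q x y := by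
  unfold QuadraticMap.polar
  ring

/-- The coordinate map on `Fin r ⊕ Fin r → F` multiplying the form `∑ a i * c i ^ 2` by `-1`. -/
theorem negsim_coord14 {r : ℕ} (a : Fin r ⊕ Fin r → F) (ha : ∀ i, a i ≠ 0)
    (x y : Fin r → F)
    (hxy : ∀ j, a (Sum.inl j) * x j ^ 2 + a (Sum.inl j) + a (Sum.inr j) * y j ^ 2 = 0) :
    ∃ T : (Fin r ⊕ Fin r → F) →ₗ[F] (Fin r ⊕ Fin r → F),
      ∀ c, ∑ i, a i * (T c i * T c i) = - ∑ i, a i * (c i * c i) := by
  refine ⟨{ toFun := fun c => Sum.elim
              (fun j => x j * c (Sum.inl j) - (a (Sum.inr j) * y j / a (Sum.inl j)) * c (Sum.inr j))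
              (fun j => y j * c (Sum.inl j) + x j * c (Sum.inr j))
            map_add' := ?_
            map_smul' := ?_ }, ?_⟩
  · intro c d
    funext i
    rcases i with j | j
    · simp only [Sum.elim_inl, Pi.add_apply]; ring
    · simp only [Sum.elim_inr, Pi.add_apply]; ring
  · intro m c
    funext i
    rcases i with j | j
    · simp only [Sum.elim_inl, Pi.smul_apply, smul_eq_mul, RingHom.id_apply]; ring
    · simp only [Sum.elim_inr, Pi.smul_apply, smul_eq_mul, RingHom.id_apply]; ring
  · intro c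
    simp only [LinearMap.coe_mk, AddHom.coe_mk, Fintype.sum_sum_type, Sum.elim_inl, Sum.elim_inr]
    rw [← Finset.sum_add_distrib, ← Finset.sum_add_distrib, ← Finset.sum_neg_distrib]
    refine Finset.sum_congr rfl fun j _ => ?_
    have h1 := ha (Sum.inl j)
    have h := hxy j
    field_simp
    linear_combination (a (Sum.inl j) * c (Sum.inl j) ^ 2 + a (Sum.inr j) * c (Sum.inr j) ^ 2) * h

theorem o12_negsim14 [Fintype F] (Q : (ι → F) → F) (hQ : IsNondegenerateQuadraticForm Q)
    (W : Submodule F (ι → F)) (hnd : IsNondegenerateOn (QuadraticMap.polar Q) W)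
    (heven : Even (Module.finrank F W)) :
    ∃ T : W →ₗ[F] W, ∀ x : W, Q ((T x : W) : ι → F) = - Q (x : ι → F) := by
  classical
  by_cases h2 : (2 : F) = 0
  · refine ⟨LinearMap.id, fun x => ?_⟩
    simp only [LinearMap.id_coe, id_eq]
    linear_combination (Q (x : ι → F)) * h2
  · have hinv : Invertible (2 : F) := invertibleOfNonzero h2
    obtain ⟨Qm, hQm⟩ : ∃ Qm : QuadraticForm F W, ∀ x : W, Qm x = Q (x : ι → F) := by
      refine ⟨QuadraticMap.ofPolar (fun x : W => Q (x : ι → F)) ?_ ?_ ?_, fun x => rfl⟩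
      · intro a x
        show Q ((a • x : W) : ι → F) = (a * a) • Q (x : ι → F)
        rw [Submodule.coe_smul, hQ.smul, smul_eq_mul, pow_two]
      · intro x x' y
        have h := hQ.polar_bilinear.add_left (x : ι → F) x' y
        simp only [QuadraticMap.polar] at h ⊢
        simp only [Submodule.coe_add]
        exact h
      · intro a x y
        have h := hQ.polar_bilinear.smul_left a (x : ι → F) y
        simp only [QuadraticMap.polar] at h ⊢
        simp only [Submodule.coe_add, Submodule.coe_smul, smul_eq_mul]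
        exact h
    have hsep : (QuadraticMap.associated (R := F) Qm).SeparatingLeft := by
      intro x hx
      by_contra hne
      have hne' : (x : ι → F) ≠ 0 := fun h => hne (Subtype.ext h)
      obtain ⟨z, hz, hz2⟩ := (hnd (x : ι → F) x.2 hne').2
      apply hz2
      have h := hx ⟨z, hz⟩
      have h3 : QuadraticMap.polar Qm x ⟨z, hz⟩ = 0 := by
        have h4 := congrArg (fun B => B x ⟨z, hz⟩) (QuadraticMap.two_nsmul_associated F Qm)
        simp only [LinearMap.smul_apply, QuadraticMap.polarBilin_apply_apply] at h4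
        rw [← h4, h]; simp
      simp only [QuadraticMap.polar, hQm, Submodule.coe_add] at h3
      exact h3
    obtain ⟨w, ⟨iso⟩⟩ := QuadraticForm.equivalent_weightedSumSquares_units_of_nondegenerate' Qm hsep
    obtain ⟨r, hr⟩ := heven
    obtain ⟨σ⟩ : Nonempty (Fin (Module.finrank F W) ≃ Fin r ⊕ Fin r) := by
      refine ⟨Fintype.equivOfCardEq ?_⟩
      simp [hr]
    -- coefficients
    obtain ⟨a, ha⟩ : ∃ a : Fin r ⊕ Fin r → F, a = fun i => ((w (σ.symm i) : Fˣ) : F) := ⟨_, rfl⟩
    have ha0 : ∀ i, a i ≠ 0 := fun i => by rw [ha]; exact Units.ne_zero _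
    have hcard : Fintype.card F % 2 = 1 := by
      apply FiniteField.odd_card_of_char_ne_two
      intro h
      apply h2
      have h5 := CharP.cast_eq_zero F (ringChar F)
      rw [h] at h5
      exact_mod_cast h5
    have hex : ∀ j : Fin r, ∃ xy : F × F,
        a (Sum.inl j) * xy.1 ^ 2 + a (Sum.inl j) + a (Sum.inr j) * xy.2 ^ 2 = 0 := by
      intro j
      have hf : (Polynomial.C (a (Sum.inl j)) * Polynomial.X ^ 2 + Polynomial.C (a (Sum.inl j)) :
          Polynomial F).degree = 2 := by
        rw [Polynomial.degree_add_C]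
        · exact Polynomial.degree_C_mul_X_pow 2 (ha0 _)
        · rw [Polynomial.degree_C_mul_X_pow 2 (ha0 _)]; norm_num
      have hg : (Polynomial.C (a (Sum.inr j)) * Polynomial.X ^ 2 : Polynomial F).degree = 2 :=
        Polynomial.degree_C_mul_X_pow 2 (ha0 _)
      obtain ⟨x, y, hxy⟩ := FiniteField.exists_root_sum_quadratic hf hg hcard
      refine ⟨(x, y), ?_⟩
      simpa using hxy
    choose xy hxy using hex
    obtain ⟨T', hT'⟩ := negsim_coord14 a ha0 (fun j => (xy j).1) (fun j => (xy j).2) hxy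
    -- transport to Fin n → F
    let L : (Fin (Module.finrank F W) → F) ≃ₗ[F] (Fin r ⊕ Fin r → F) :=
      LinearEquiv.funCongrLeft F F σ.symm
    have hL : ∀ (c : Fin (Module.finrank F W) → F) (i : Fin r ⊕ Fin r), L c i = c (σ.symm i) :=
      fun c i => rfl
    have hws : ∀ c : Fin (Module.finrank F W) → F,
        QuadraticMap.weightedSumSquares F w c = ∑ i, a i * (L c i * L c i) := by
      intro c
      rw [QuadraticMap.weightedSumSquares_apply]
      rw [← Equiv.sum_comp σ.symm]
      refine Finset.sum_congr rfl fun i _ => ?_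
      rw [ha, hL, Units.smul_def, smul_eq_mul]
    refine ⟨(iso.toLinearEquiv.symm.toLinearMap).comp ((L.symm.toLinearMap.comp
      (T'.comp L.toLinearMap)).comp iso.toLinearEquiv.toLinearMap), fun x => ?_⟩
    rw [← hQm, ← hQm, ← iso.map_app, ← iso.map_app x, hws, hws, ← hT']
    simp

/-- Graph construction: a linear map `e : W₁ → W₂` between orthogonal subspaces with
`Q (e w) = - Q w` gives the totally singular subspace `{w + e w}`. -/
theorem o12_graph14 (Q : (ι → F) → F)
    (W₁ W₂ : Submodule F (ι → F)) (hnd : IsNondegenerateOn (QuadraticMap.polar Q) W₁)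
    (horth : AreOrthogonalFor (QuadraticMap.polar Q) W₁ W₂)
    (e : W₁ →ₗ[F] W₂) (he : ∀ w : W₁, Q ((e w : W₂) : ι → F) = - Q (w : ι → F)) :
    ∃ U : Submodule F (ι → F), U ≤ W₁ ⊔ W₂ ∧ IsTotallySingularQuad Q U ∧
      Module.finrank F U = Module.finrank F W₁ := by
  obtain ⟨g, hg⟩ : ∃ g : W₁ →ₗ[F] (ι → F), ∀ x : W₁, g x = (x : ι → F) + (e x : ι → F) :=
    ⟨W₁.subtype + W₂.subtype.comp e, fun x => rfl⟩
  have hinj : Function.Injective g := by
    rw [← LinearMap.ker_eq_bot, LinearMap.ker_eq_bot']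
    intro x hx
    by_contra hne
    have hne' : (x : ι → F) ≠ 0 := fun h => hne (Subtype.ext h)
    obtain ⟨z, hz, hz2⟩ := (hnd (x : ι → F) x.2 hne').1
    apply hz2
    have hx2 : (x : ι → F) = -(e x : ι → F) := by
      rw [hg] at hx
      exact eq_neg_of_add_eq_zero_left hx
    have hmem : (x : ι → F) ∈ W₂ := by
      rw [hx2]
      exact W₂.neg_mem (e x).2
    exact horth z hz _ hmem
  refine ⟨LinearMap.range g, ?_, ?_, ?_⟩
  · rintro _ ⟨x, rfl⟩
    rw [hg]
    exact Submodule.add_mem_sup x.2 (e x).2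
  · rintro _ ⟨x, rfl⟩
    rw [hg, q14_add Q, he, horth _ x.2 _ (e x).2]
    ring
  · exact LinearMap.finrank_range_of_inj hinj

theorem o12_iso_pair [Fintype F] (Q : (ι → F) → F) (hQ : IsNondegenerateQuadraticForm Q)
    (W₁ W₂ : Submodule F (ι → F)) (hnd : IsNondegenerateOn (QuadraticMap.polar Q) W₁)
    (horth : AreOrthogonalFor (QuadraticMap.polar Q) W₁ W₂) (hiso : AreIsometricFor Q W₁ W₂)
    (heven : Even (Module.finrank F W₁)) :
    ∃ U : Submodule F (ι → F), U ≤ W₁ ⊔ W₂ ∧ IsTotallySingularQuad Q U ∧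
      Module.finrank F U = Module.finrank F W₁ := by
  obtain ⟨e, he⟩ := hiso
  obtain ⟨T, hT⟩ := o12_negsim14 Q hQ W₁ hnd heven
  exact o12_graph14 Q W₁ W₂ hnd horth (e.toLinearMap.comp T) (fun w => by
    simp only [LinearMap.coe_comp, LinearEquiv.coe_coe, Function.comp_apply]
    rw [he, hT])

end Cfsg.Agent.Helper14
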