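-- helper14 library: piece T2 of helper95's CALL S5874 (an orthogonal decomposition into an even
-- number t of isometric blocks with t/2 * k even makes the whole space of plus type).
import Mathlib
import Cfsg.Prelude.Def_GeometricClasses
import Cfsg.Agent.Helper14.O12T3
import Cfsg.Agent.Helper14.O12T1

set_option autoImplicit false
open Cfsg Cfsg.Geo Matrix

namespace Cfsg.Agent.Helper14

variable {ι : Type} [Fintype ι] [DecidableEq ι] {F : Type*} [Field F]

theorem q14_smul_add (Q : (ι → F) → F) (hQ : IsNondegenerateQuadraticForm Q) (c d : F)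
    (p q : ι → F) :
    Q (c • p + d • q) = c ^ 2 * Q p + d ^ 2 * Q q + c * d * QuadraticMap.polar Q p q := by
  rw [q14_add Q, hQ.smul, hQ.smul, hQ.polar_bilinear.smul_left, hQ.polar_bilinear.smul_right]
  ring

theorem q14_zero (Q : (ι → F) → F) (hQ : IsNondegenerateQuadraticForm Q) : Q 0 = 0 := by
  have h := hQ.smul 0 0
  rw [zero_smul] at h
  rw [h]; ring

theorem q14_sum_orth (Q : (ι → F) → F) (hQ : IsNondegenerateQuadraticForm Q) {κ : Type*}
    [DecidableEq κ] (w : κ → ι → F) (S : Finset κ)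
    (h : ∀ i ∈ S, ∀ j ∈ S, i ≠ j → QuadraticMap.polar Q (w i) (w j) = 0) :
    Q (∑ i ∈ S, w i) = ∑ i ∈ S, Q (w i) := by
  induction S using Finset.induction_on with
  | empty => simp [q14_zero Q hQ]
  | insert a S ha ih =>
    rw [Finset.sum_insert ha, Finset.sum_insert ha, q14_add Q,
      ih (fun i hi j hj => h i (Finset.mem_insert_of_mem hi) j (Finset.mem_insert_of_mem hj))]
    have hmem : ∑ i ∈ S, w i ∈ polarPerp14 Q hQ (w a) :=
      Submodule.sum_mem _ (fun i hi => h a (Finset.mem_insert_self a S) i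
        (Finset.mem_insert_of_mem hi) (by rintro rfl; exact ha hi))
    have h0 : QuadraticMap.polar Q (w a) (∑ i ∈ S, w i) = 0 := hmem
    rw [h0]; ring

/-- Core of T2: a linear map `Θ` on `s`-tuples of vectors of one block multiplying the sum of the
`Q`-values by `-1` produces a totally singular subspace of half the dimension. -/
theorem o12_theta_plus14 (Q : (ι → F) → F) (hQ : IsNondegenerateQuadraticForm Q)
    {t k s : ℕ} (D : Fin t → Submodule F (ι → F)) (hD : IsOrthogonalMDecomposition Q k D)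
    (hts : t = s + s) (i₀ : Fin t) (Θ : (Fin s → D i₀) →ₗ[F] (Fin s → D i₀))
    (hΘ : ∀ x, ∑ j, Q ((Θ x j : D i₀) : ι → F) = - ∑ j, Q ((x j : D i₀) : ι → F)) :
    IsPlusTypeOn Q ⊤ := by
  classical
  choose φ hφ using fun i => hD.isometric i₀ i
  obtain ⟨τ⟩ : Nonempty (Fin s ⊕ Fin s ≃ Fin t) := ⟨finSumFinEquiv.trans (finCongr hts.symm)⟩
  obtain ⟨w, hw⟩ : ∃ w : (Fin s → D i₀) → Fin s ⊕ Fin s → (ι → F), w = fun x i =>
      Sum.elim (fun j => ((φ (τ (Sum.inl j)) (x j) : D (τ (Sum.inl j))) : ι → F))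
        (fun j => ((φ (τ (Sum.inr j)) (Θ x j) : D (τ (Sum.inr j))) : ι → F)) i := ⟨_, rfl⟩
  have hwl : ∀ x j, w x (Sum.inl j) = ((φ (τ (Sum.inl j)) (x j) : D (τ (Sum.inl j))) : ι → F) := by
    intro x j; rw [hw]; rfl
  have hwr : ∀ x j, w x (Sum.inr j) = ((φ (τ (Sum.inr j)) (Θ x j) : D (τ (Sum.inr j))) : ι → F) := by
    intro x j; rw [hw]; rfl
  have hwmem : ∀ x i, w x i ∈ D (τ i) := by
    intro x i
    rcases i with j | j
    · rw [hwl]; exact Subtype.property _
    · rw [hwr]; exact Subtype.property _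
  have hworth : ∀ x i i', i ≠ i' → QuadraticMap.polar Q (w x i) (w x i') = 0 :=
    fun x i i' h => hD.decomp.orthogonal (τ i) (τ i') (τ.injective.ne h) _ (hwmem x i) _
      (hwmem x i')
  obtain ⟨Ψ, hΨ⟩ : ∃ Ψ : (Fin s → D i₀) →ₗ[F] (ι → F), ∀ x, Ψ x = ∑ i, w x i := by
    refine ⟨∑ j, ((D (τ (Sum.inl j))).subtype.comp
        ((φ (τ (Sum.inl j))).toLinearMap.comp (LinearMap.proj j))
      + (D (τ (Sum.inr j))).subtype.comp
        ((φ (τ (Sum.inr j))).toLinearMap.comp ((LinearMap.proj j).comp Θ))), fun x => ?_⟩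
    rw [Fintype.sum_sum_type, ← Finset.sum_add_distrib, LinearMap.sum_apply]
    refine Finset.sum_congr rfl fun j _ => ?_
    rw [hwl, hwr]
    rfl
  have hQΨ : ∀ x, Q (Ψ x) = 0 := by
    intro x
    rw [hΨ, q14_sum_orth Q hQ (w x) Finset.univ (fun i _ j _ h => hworth x i j h),
      Fintype.sum_sum_type]
    simp only [hwl, hwr, hφ]
    rw [hΘ]; ring
  have hinj : Function.Injective Ψ := by
    rw [← LinearMap.ker_eq_bot, LinearMap.ker_eq_bot']
    intro x hx
    funext j
    by_contra hne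
    have hv : w x (Sum.inl j) ≠ 0 := by
      intro h0
      apply hne
      rw [hwl] at h0
      have h1 : φ (τ (Sum.inl j)) (x j) = 0 := Subtype.ext h0
      exact (φ (τ (Sum.inl j))).map_eq_zero_iff.mp h1
    obtain ⟨z, hz, hz2⟩ :=
      (hD.decomp.nondegenerate (τ (Sum.inl j)) (w x (Sum.inl j)) (hwmem x _) hv).1
    apply hz2
    have hsum : w x (Sum.inl j) + ∑ i ∈ Finset.univ.erase (Sum.inl j), w x i = 0 := by
      rw [Finset.add_sum_erase _ _ (Finset.mem_univ _), ← hΨ, hx]
    have hR : ∑ i ∈ Finset.univ.erase (Sum.inl j), w x i ∈ polarPerp14 Q hQ z :=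
      Submodule.sum_mem _ (fun i hi => hD.decomp.orthogonal (τ (Sum.inl j)) (τ i)
        (τ.injective.ne (Finset.ne_of_mem_erase hi).symm) z hz _ (hwmem x i))
    have hR' : QuadraticMap.polar Q z (∑ i ∈ Finset.univ.erase (Sum.inl j), w x i) = 0 := hR
    have h0 : QuadraticMap.polar Q z (0 : ι → F) = 0 := (polarPerp14 Q hQ z).zero_mem
    rw [← hsum, hQ.polar_bilinear.add_right, hR', add_zero] at h0
    exact h0
  refine ⟨LinearMap.range Ψ, le_top, ?_, ?_⟩
  · rintro _ ⟨x, rfl⟩
    exact hQΨ x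
  · rw [LinearMap.finrank_range_of_inj hinj, Module.finrank_pi_fintype]
    have h1 := finrank_iSup_of_iSupIndep14 D hD.decomp.decomp.indep
    rw [hD.decomp.decomp.iSup_eq_top] at h1
    rw [h1]
    simp only [hD.decomp.decomp.finrank_eq, Finset.sum_const, Finset.card_univ, Fintype.card_fin,
      smul_eq_mul]
    rw [hts]; ring

theorem o12_decomp_plus [Fintype F] (Q : (ι → F) → F) (hQ : IsNondegenerateQuadraticForm Q)
    {t k : ℕ} (D : Fin t → Submodule F (ι → F)) (hD : IsOrthogonalMDecomposition Q k D)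
    (ht : Even t) (hk : Even (t / 2 * k)) : IsPlusTypeOn Q ⊤ := by
  classical
  obtain ⟨s, hts⟩ := ht
  have hs2 : t / 2 = s := by omega
  rw [hs2] at hk
  have ht2 := hD.decomp.decomp.two_le
  obtain ⟨i₀⟩ : Nonempty (Fin t) := ⟨⟨0, by omega⟩⟩
  by_cases h2 : (2 : F) = 0
  · refine o12_theta_plus14 Q hQ D hD hts i₀ LinearMap.id (fun x => ?_)
    simp only [LinearMap.id_coe, id_eq]
    linear_combination (∑ j, Q ((x j : D i₀) : ι → F)) * h2
  · rcases Nat.even_mul.mp hk with hs | hke
    · obtain ⟨m, hm⟩ := hs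
      have hcard : Fintype.card F % 2 = 1 := by
        apply FiniteField.odd_card_of_char_ne_two
        intro h
        apply h2
        have h5 := CharP.cast_eq_zero F (ringChar F)
        rw [h] at h5
        exact_mod_cast h5
      obtain ⟨a, b, hab⟩ : ∃ a b : F, a ^ 2 + b ^ 2 + 1 = 0 := by
        have hf : (Polynomial.X ^ 2 : Polynomial F).degree = 2 := Polynomial.degree_X_pow 2
        have hg : (Polynomial.X ^ 2 + Polynomial.C 1 : Polynomial F).degree = 2 :=
          Polynomial.degree_X_pow_add_C (by norm_num) 1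
        obtain ⟨a, b, h⟩ := FiniteField.exists_root_sum_quadratic hf hg hcard
        exact ⟨a, b, by simpa [add_assoc] using h⟩
      obtain ⟨ρ⟩ : Nonempty (Fin m ⊕ Fin m ≃ Fin s) := ⟨finSumFinEquiv.trans (finCongr hm.symm)⟩
      obtain ⟨Θ, hΘl, hΘr⟩ : ∃ Θ : (Fin s → D i₀) →ₗ[F] (Fin s → D i₀),
          (∀ x j, Θ x (ρ (Sum.inl j)) = a • x (ρ (Sum.inl j)) - b • x (ρ (Sum.inr j))) ∧
          (∀ x j, Θ x (ρ (Sum.inr j)) = b • x (ρ (Sum.inl j)) + a • x (ρ (Sum.inr j))) := by
        refine ⟨{ toFun := fun x i => Sum.elim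
                    (fun j => a • x (ρ (Sum.inl j)) - b • x (ρ (Sum.inr j)))
                    (fun j => b • x (ρ (Sum.inl j)) + a • x (ρ (Sum.inr j))) (ρ.symm i)
                  map_add' := ?_
                  map_smul' := ?_ }, ?_, ?_⟩
        · intro x y
          funext i
          rcases h : ρ.symm i with j | j
          · simp only [h, Sum.elim_inl, Pi.add_apply, smul_add]; abel
          · simp only [h, Sum.elim_inr, Pi.add_apply, smul_add]; abel
        · intro c x
          funext i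
          rcases h : ρ.symm i with j | j
          · simp only [h, Sum.elim_inl, Pi.smul_apply, RingHom.id_apply, smul_sub, smul_comm c]
          · simp only [h, Sum.elim_inr, Pi.smul_apply, RingHom.id_apply, smul_add, smul_comm c]
        · intro x j
          simp
        · intro x j
          simp
      refine o12_theta_plus14 Q hQ D hD hts i₀ Θ (fun x => ?_)
      have key : ∀ j : Fin m, Q ((Θ x (ρ (Sum.inl j)) : D i₀) : ι → F)
          + Q ((Θ x (ρ (Sum.inr j)) : D i₀) : ι → F)
          = -(Q ((x (ρ (Sum.inl j)) : D i₀) : ι → F) + Q ((x (ρ (Sum.inr j)) : D i₀) : ι → F)) := by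
        intro j
        rw [hΘl, hΘr]
        have c1 : ((a • x (ρ (Sum.inl j)) - b • x (ρ (Sum.inr j)) : D i₀) : ι → F)
            = a • (x (ρ (Sum.inl j)) : ι → F) + (-b) • (x (ρ (Sum.inr j)) : ι → F) := by
          rw [Submodule.coe_sub, Submodule.coe_smul, Submodule.coe_smul, neg_smul, sub_eq_add_neg]
        have c2 : ((b • x (ρ (Sum.inl j)) + a • x (ρ (Sum.inr j)) : D i₀) : ι → F)
            = b • (x (ρ (Sum.inl j)) : ι → F) + a • (x (ρ (Sum.inr j)) : ι → F) := by
          rw [Submodule.coe_add, Submodule.coe_smul, Submodule.coe_smul]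
        rw [c1, c2, q14_smul_add Q hQ, q14_smul_add Q hQ]
        linear_combination (Q ((x (ρ (Sum.inl j)) : D i₀) : ι → F)
          + Q ((x (ρ (Sum.inr j)) : D i₀) : ι → F)) * hab
      calc ∑ j, Q ((Θ x j : D i₀) : ι → F)
          = ∑ i', Q ((Θ x (ρ i') : D i₀) : ι → F) :=
            (Equiv.sum_comp ρ (fun j => Q ((Θ x j : D i₀) : ι → F))).symm
        _ = ∑ j, (Q ((Θ x (ρ (Sum.inl j)) : D i₀) : ι → F)
              + Q ((Θ x (ρ (Sum.inr j)) : D i₀) : ι → F)) := by
            rw [Fintype.sum_sum_type, Finset.sum_add_distrib]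
        _ = ∑ j, -(Q ((x (ρ (Sum.inl j)) : D i₀) : ι → F)
              + Q ((x (ρ (Sum.inr j)) : D i₀) : ι → F)) :=
            Finset.sum_congr rfl (fun j _ => key j)
        _ = - ∑ i', Q ((x (ρ i') : D i₀) : ι → F) := by
            rw [Fintype.sum_sum_type, Finset.sum_neg_distrib, Finset.sum_add_distrib]
        _ = - ∑ j, Q ((x j : D i₀) : ι → F) := by
            rw [Equiv.sum_comp ρ (fun j => Q ((x j : D i₀) : ι → F))]
    · have hfr := hD.decomp.decomp.finrank_eq i₀
      obtain ⟨T, hT⟩ := o12_negsim14 Q hQ (D i₀) (hD.decomp.nondegenerate i₀)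
        (by rw [hfr]; exact hke)
      refine o12_theta_plus14 Q hQ D hD hts i₀
        (LinearMap.pi (fun j => T.comp (LinearMap.proj j))) (fun x => ?_)
      simp only [LinearMap.pi_apply, LinearMap.comp_apply, LinearMap.proj_apply, hT,
        Finset.sum_neg_distrib]

end Cfsg.Agent.Helper14
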