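import Mathlib
import Cfsg.Agent.Helper96.OHDefs
import Cfsg.Agent.Helper14.Forms2
import Cfsg.Agent.Helper33.ODisc
import Cfsg.Agent.Helper33.OTwo

set_option autoImplicit false
set_option linter.unusedSectionVars false
set_option linter.unusedVariables false

/-!
# S5993 piece EISO (helper14): nondegenerate subspaces of the same even dimension and the same
type are isometric (odd characteristic, finite field).
-/

namespace Cfsg.Agent.Helper14.OE5993

open Module Polynomial Cfsg Cfsg.Geo
open Cfsg.Agent.Helper13.TIu Cfsg.Agent.Helper96.OH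

variable {ι : Type} [Fintype ι] [DecidableEq ι] {F : Type*} [Field F] (Q : (ι → F) → F)

/-- normal orthogonal basis of a nondegenerate subspace. -/
theorem oe_iso_basis [Fintype F] (hQ : IsNondegenerateQuadraticForm Q) (h2 : (2 : F) ≠ 0)
    (W : Submodule F (ι → F)) (hW : ONd Q W) (d : ℕ) (hdim : finrank F W = d + 1) :
    ∃ e : Basis (Fin (d + 1)) F W,
      (∀ i j, i ≠ j → QuadraticMap.polar Q (e i : ι → F) (e j : ι → F) = 0) ∧
      (∀ i, i ≠ Fin.last d → QuadraticMap.polar Q (e i : ι → F) (e i : ι → F) = 1) ∧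
      QuadraticMap.polar Q (e (Fin.last d) : ι → F) (e (Fin.last d) : ι → F) ≠ 0 := by
  have hnd0 := Cfsg.Agent.Helper33.OType.polarNondeg_restr Q hQ W hW
  let B : LinearMap.BilinForm F W :=
    QuadraticMap.polarBilin (Cfsg.Agent.Helper33.OType.restr Q hQ W)
  have hB : ∀ v w : W, B v w = QuadraticMap.polar Q (v : ι → F) (w : ι → F) := fun v w => rfl
  have hsymm : B.IsSymm := ⟨fun v w => by
    show B v w = B w v
    rw [hB, hB, QuadraticMap.polar_comm]⟩
  have hl : ∀ u : W, (∀ v, B u v = 0) → u = 0 := fun u hu => hnd0 u (fun w => hu w)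
  have hnd : B.Nondegenerate :=
    ⟨hl, fun v hv => hl v (fun u => by rw [hsymm.eq v u]; exact hv u)⟩
  obtain ⟨e, ho, h1, hlast⟩ := Cfsg.Agent.Helper14.exists_normal_basis h2 d W B hnd hsymm hdim
  exact ⟨e, fun i j hij => ho i j hij, fun i hi => h1 i hi, hlast⟩

/-- Gram determinant of a normal orthogonal basis. -/
theorem oe_iso_det (W : Submodule F (ι → F)) (d : ℕ) (e : Basis (Fin (d + 1)) F W)
    (ho : ∀ i j, i ≠ j → QuadraticMap.polar Q (e i : ι → F) (e j : ι → F) = 0)
    (h1 : ∀ i, i ≠ Fin.last d → QuadraticMap.polar Q (e i : ι → F) (e i : ι → F) = 1) :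
    (Matrix.of fun i j => QuadraticMap.polar Q (e i : ι → F) (e j : ι → F)).det =
      QuadraticMap.polar Q (e (Fin.last d) : ι → F) (e (Fin.last d) : ι → F) := by
  have hM : (Matrix.of fun i j => QuadraticMap.polar Q (e i : ι → F) (e j : ι → F)) =
      Matrix.diagonal (fun i => QuadraticMap.polar Q (e i : ι → F) (e i : ι → F)) := by
    ext i j
    by_cases hij : i = j
    · subst hij
      simp
    · rw [Matrix.of_apply, Matrix.diagonal_apply_ne _ hij]
      exact ho i j hij
  rw [hM, Matrix.det_diagonal]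
  rw [Finset.prod_eq_single (Fin.last d)]
  · intro i _ hi
    exact h1 i hi
  · intro h
    exact absurd (Finset.mem_univ _) h

/-- two nonzero elements of a finite field with the same square class differ by a square. -/
theorem oe_iso_sq [Fintype F] (ε δ δ' : F) (hε : ε * ε = 1) (hδ : δ ≠ 0) (hδ' : δ' ≠ 0)
    (h : IsSquare (ε * δ) ↔ IsSquare (ε * δ')) : ∃ s : F, s ≠ 0 ∧ δ' = s ^ 2 * δ := by
  classical
  have hε0 : ε ≠ 0 := by
    intro h0
    rw [h0, mul_zero] at hε
    exact zero_ne_one hε
  have ha : ε * δ ≠ 0 := mul_ne_zero hε0 hδ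
  have ha' : ε * δ' ≠ 0 := mul_ne_zero hε0 hδ'
  have hχ : quadraticChar F (ε * δ) = quadraticChar F (ε * δ') := by
    by_cases h' : IsSquare (ε * δ)
    · rw [(quadraticChar_one_iff_isSquare ha).mpr h',
        (quadraticChar_one_iff_isSquare ha').mpr (h.mp h')]
    · rw [quadraticChar_neg_one_iff_not_isSquare.mpr h',
        quadraticChar_neg_one_iff_not_isSquare.mpr (fun h'' => h' (h.mpr h''))]
  have hq : quadraticChar F ((ε * δ) * (ε * δ')) = 1 := by
    rw [map_mul, ← hχ, ← pow_two]
    exact quadraticChar_sq_one ha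
  obtain ⟨t, ht⟩ := (quadraticChar_one_iff_isSquare (mul_ne_zero ha ha')).mp hq
  have ht2 : δ * δ' = t * t := by
    rw [← ht]
    calc δ * δ' = (ε * ε) * (δ * δ') := by rw [hε, one_mul]
      _ = (ε * δ) * (ε * δ') := by ring
  refine ⟨t / δ, ?_, ?_⟩
  · intro h0
    have ht0 : t = 0 := by
      rcases div_eq_zero_iff.mp h0 with h1 | h1
      · exact h1
      · exact absurd h1 hδ
    rw [ht0, mul_zero] at ht2
    exact (mul_ne_zero hδ hδ') ht2
  · have h3 : (t / δ) ^ 2 * δ = t * t / δ := by
      field_simp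
    rw [h3, ← ht2]
    field_simp

/-- EISO: two nondegenerate subspaces of the same even dimension and the same type are
isometric. -/
theorem oe_iso [Fintype F] (hQ : IsNondegenerateQuadraticForm Q) (h2 : (2 : F) ≠ 0)
    (W W' : Submodule F (ι → F)) (hW : ONd Q W) (hW' : ONd Q W')
    (hdim : finrank F W = finrank F W') (hev : Even (finrank F W))
    (hty : OPl Q W ↔ OPl Q W') : AreIsometricFor Q W W' := by
  classical
  obtain ⟨m, hm⟩ := hev
  rcases Nat.eq_zero_or_pos m with hm0 | hmpos
  · have h0 : finrank F W = 0 := by omega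
    refine ⟨LinearEquiv.ofFinrankEq W W' hdim, fun w => ?_⟩
    have hw : w = 0 := by
      haveI : Subsingleton W := Module.finrank_zero_iff.mp h0
      exact Subsingleton.elim _ _
    rw [hw, map_zero]
    rfl
  · obtain ⟨d, hd⟩ : ∃ d, 2 * m = d + 1 := ⟨2 * m - 1, by omega⟩
    have hdimW : finrank F W = d + 1 := by omega
    have hdimW' : finrank F W' = d + 1 := by omega
    obtain ⟨e, heo, he1, hel⟩ := oe_iso_basis Q hQ h2 W hW d hdimW
    obtain ⟨e', heo', he1', hel'⟩ := oe_iso_basis Q hQ h2 W' hW' d hdimW'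
    have hpl := Cfsg.Agent.Helper33.o_plus_iff_disc_on h2 Q hQ W hW hmpos
      (by omega : finrank F W = 2 * m) e
    have hpl' := Cfsg.Agent.Helper33.o_plus_iff_disc_on h2 Q hQ W' hW' hmpos
      (by omega : finrank F W' = 2 * m) e'
    rw [oe_iso_det Q W d e heo he1] at hpl
    rw [oe_iso_det Q W' d e' heo' he1'] at hpl'
    have hε2 : ((-1 : F) ^ m) * ((-1 : F) ^ m) = 1 := by
      rw [← pow_add, ← two_mul, pow_mul]
      simp
    obtain ⟨s, hs0, hs⟩ := oe_iso_sq ((-1 : F) ^ m) _ _ hε2 hel hel'
      (by rw [← hpl, ← hpl']; exact hty)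
    let c : Fin (d + 1) → F := fun j => if j = Fin.last d then s⁻¹ else 1
    have hpolar_smul : ∀ (a b : F) (x y : ι → F),
        QuadraticMap.polar Q (a • x) (b • y) = a * b * QuadraticMap.polar Q x y := by
      intro a b x y
      rw [← pB_apply Q hQ, ← pB_apply Q hQ]
      simp only [map_smul, LinearMap.smul_apply, smul_eq_mul]
      ring
    have hQpolar : ∀ x : ι → F, QuadraticMap.polar Q x x = 2 * Q x := fun x => by
      rw [← pB_apply Q hQ, pB_self]
    refine Cfsg.Agent.Helper33.OTwo.iso_of_families h2 Q hQ (by omega : 1 ≤ d + 1) W W'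
      hdimW hdimW' (fun j => e j) (fun j => c j • e' j) heo ?_ ?_ ?_
    · intro i j hij
      show QuadraticMap.polar Q (((c i • e' i : W') : ι → F)) ((c j • e' j : W') : ι → F) = 0
      rw [Submodule.coe_smul, Submodule.coe_smul, hpolar_smul, heo' i j hij, mul_zero]
    · intro j h0
      have h := hQpolar (e j : ι → F)
      rw [h0, mul_zero] at h
      by_cases hj : j = Fin.last d
      · rw [hj] at h
        exact hel h
      · rw [he1 j hj] at h
        exact one_ne_zero h
    · intro j
      show Q ((c j • e' j : W') : ι → F) = Q (e j : ι → F)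
      apply mul_left_cancel₀ h2
      rw [← hQpolar, ← hQpolar, Submodule.coe_smul, hpolar_smul]
      by_cases hj : j = Fin.last d
      · have hc : c j = s⁻¹ := by simp only [c, hj, if_true]
        rw [hc, hj, hs]
        field_simp
      · have hc : c j = 1 := by simp only [c, hj, if_false]
        rw [hc, he1 j hj, he1' j hj]
        ring

end Cfsg.Agent.Helper14.OE5993
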