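import Mathlib
import Cfsg.Agent.Helper8.S4504Defs

/-!
# helper14: definitions for piece BOUND of CALL S4504 (helper8, Brauer 1942)

`bset p = {1, …, p - 1}`; `kap χ x b = ±1` according to `χ (x ^ b) = χ x` or not;
`HasCC ξ μ`: the class function `ξ` has central character `μ`; `lam χ`: the central character of
`χ`; `term p x g w ξ = ξ(x) (∑_{b ∈ bset p} w(b) ξ(x^b)) conj ξ(g) / ξ(1)`, the contribution of
`ξ` to the weighted class-algebra count.
-/

set_option autoImplicit false
open Cfsg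
open scoped ComplexConjugate

universe u

namespace Cfsg.Agent.Helper14.S4504B

/-- the index set `{1, …, p - 1}` -/
def bset (p : ℕ) : Finset ℕ := (Finset.range p).filter (fun b => b ≠ 0)

/-- the sign `κ_b`: `1` if `χ (x ^ b) = χ x`, else `-1`. -/
noncomputable def kap {H : Type u} [Group H] (χ : H → ℂ) (x : H) (b : ℕ) : ℂ :=
  if χ (x ^ b) = χ x then 1 else -1

/-- `ξ` has central character `μ`. -/
def HasCC {H : Type u} [Group H] (ξ : H → ℂ) (μ : Subgroup.center H → ℂ) : Prop :=
  ∀ z : Subgroup.center H, ξ (z : H) = μ z * ξ 1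

/-- the central character of `χ`. -/
noncomputable def lam {H : Type u} [Group H] (χ : H → ℂ) : Subgroup.center H → ℂ :=
  fun z => χ (z : H) / χ 1

/-- the contribution of the class function `ξ` to the weighted class-algebra count. -/
noncomputable def term {H : Type u} [Group H] (p : ℕ) (x g : H) (w : ℕ → ℂ) (ξ : H → ℂ) : ℂ :=
  ξ x * (∑ b ∈ bset p, w b * ξ (x ^ b)) * conj (ξ g) / ξ 1

theorem mem_bset {p b : ℕ} : b ∈ bset p ↔ b < p ∧ b ≠ 0 := by
  simp [bset]

theorem not_dvd_of_mem_bset {p b : ℕ} (hb : b ∈ bset p) : ¬ p ∣ b := by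
  obtain ⟨h1, h2⟩ := mem_bset.1 hb
  intro hdvd
  exact absurd (Nat.le_of_dvd (Nat.pos_of_ne_zero h2) hdvd) (not_le.2 h1)

theorem card_bset (p : ℕ) (hp : 0 < p) : (bset p).card = p - 1 := by
  have h : bset p = (Finset.range p).erase 0 := by
    ext b
    simp [bset, and_comm]
  rw [h, Finset.card_erase_of_mem (Finset.mem_range.2 hp), Finset.card_range]

theorem kap_pos {H : Type u} [Group H] {χ : H → ℂ} {x : H} {b : ℕ} (h : χ (x ^ b) = χ x) :
    kap χ x b = 1 := by
  unfold kap
  rw [if_pos h]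

theorem kap_neg {H : Type u} [Group H] {χ : H → ℂ} {x : H} {b : ℕ} (h : χ (x ^ b) ≠ χ x) :
    kap χ x b = -1 := by
  unfold kap
  rw [if_neg h]

theorem norm_kap {H : Type u} [Group H] (χ : H → ℂ) (x : H) (b : ℕ) : ‖kap χ x b‖ = 1 := by
  unfold kap
  split_ifs <;> simp

end Cfsg.Agent.Helper14.S4504B
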