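import Mathlib
import Cfsg.Agent.Helper8.S4504Defs
import Cfsg.Agent.Helper14.S4504BDefs
import Cfsg.Agent.Helper76.CentralChar

/-!
# helper14: piece LAM of sub-call S4504B (piece BOUND of CALL S4504): the central character of an
irreducible character is multiplicative, of absolute value one, and `χ (g z) = λ(z) χ(g)`.
-/

set_option autoImplicit false
open Cfsg Cfsg.Agent.Helper8 Cfsg.Agent.Helper14.S4504B
open scoped ComplexConjugate

universe u

namespace Cfsg.Agent.Helper14.S4504BLAM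

theorem s4504b_lam {H : Type u} [Group H] [Finite H] (χ : Cfsg.IrrCharacter H) :
    (∀ z w : Subgroup.center H,
      lam (χ : H → ℂ) (z * w) = lam (χ : H → ℂ) z * lam (χ : H → ℂ) w) ∧
    (∀ z : Subgroup.center H, lam (χ : H → ℂ) z * conj (lam (χ : H → ℂ) z) = 1) ∧
    (∀ z : Subgroup.center H, ‖lam (χ : H → ℂ) z‖ = 1) ∧
    (∀ (z : Subgroup.center H) (g : H),
      (χ : H → ℂ) (g * (z : H)) = lam (χ : H → ℂ) z * (χ : H → ℂ) g) := by
  have h1 : (χ : H → ℂ) 1 ≠ 0 := Cfsg.Agent.Helper76.irr_one_ne_zero χ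
  obtain ⟨c, hc⟩ := Cfsg.Agent.Helper76.exists_central_scalar (Subgroup.center H).subtype
    (fun z => z.2) χ
  have hc' : ∀ (z : Subgroup.center H) (g : H),
      (χ : H → ℂ) (g * (z : H)) = c z * (χ : H → ℂ) g := fun z g => hc z g
  have hlam : ∀ z : Subgroup.center H, lam (χ : H → ℂ) z = c z := by
    intro z
    unfold lam
    have h2 := hc' z 1
    rw [one_mul] at h2
    rw [h2, mul_div_assoc, div_self h1, mul_one]
  obtain ⟨hc1, hcmul⟩ := Cfsg.Agent.Helper76.scalar_mul (Subgroup.center H).subtype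
    (χ : H → ℂ) h1 c hc
  have hnorm := Cfsg.Agent.Helper76.scalar_norm c hc1 hcmul
  refine ⟨fun z w => by rw [hlam, hlam, hlam, hcmul], fun z => by rw [hlam]; exact hnorm z,
    fun z => ?_, fun z g => by rw [hlam]; exact hc' z g⟩
  have h2 := hnorm z
  rw [Complex.mul_conj'] at h2
  rw [hlam]
  have h3 : ‖c z‖ ^ 2 = 1 := by exact_mod_cast h2
  have h4 : 0 ≤ ‖c z‖ := norm_nonneg _
  nlinarith [h3, h4]

end Cfsg.Agent.Helper14.S4504BLAM
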