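import Mathlib
import Cfsg.Agent.Helper8.S4504Defs
import Cfsg.Agent.Helper14.S4504BDefs
import Cfsg.Agent.Helper81.CharBasic
import Cfsg.Agent.Helper81.Blocks

/-!
# helper14: piece RHSA of sub-call S4504B (piece BOUND of CALL S4504): the irreducible characters
that are trivial on the centre and do not vanish at `x` are `1`, `X1`, `X2`, `ψ₁`, `ψ₂`.
-/

set_option autoImplicit false
open Cfsg Cfsg.Agent.Helper8 Cfsg.Agent.Helper14.S4504B
open scoped ComplexConjugate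

universe u

namespace Cfsg.Agent.Helper14.S4504BRHSA

theorem s4504b_rhsa {H : Type u} [Group H] [Finite H] (p : ℕ) [Fact p.Prime] (x : H)
    (χ : H → ℂ) (h : S4504Hyp p x χ) (d : ℕ) (hd : Cfsg.charDegree χ = d) (hd2 : 2 ≤ d)
    (T : S4504Tab p d x χ)
    (hcp : ∀ z ∈ Subgroup.center H, ¬ p ∣ orderOf z)
    (S : Finset (Cfsg.IrrCharacter H))
    (hS : ∀ ξ : Cfsg.IrrCharacter H, ξ ∈ S ↔ HasCC (ξ : H → ℂ) (fun _ => 1))
    (f : (H → ℂ) → ℂ) (hf : ∀ ξ : Cfsg.IrrCharacter H, (ξ : H → ℂ) x = 0 → f (ξ : H → ℂ) = 0) :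
    ∑ ξ ∈ S, f (ξ : H → ℂ)
      = f (fun _ => 1) + ∑ ξ ∈ T.X1, f (ξ : H → ℂ) + ∑ ξ ∈ T.X2, f (ξ : H → ℂ)
        + f (T.ψ₁ : H → ℂ) + f (T.ψ₂ : H → ℂ) := by
  classical
  have hp : p = 2 * d + 1 := by rw [← hd]; exact h.hdeg.symm
  have hp1 : ¬ p ∣ 1 := fun h1 => (Fact.out : p.Prime).one_lt.ne' (Nat.dvd_one.1 h1)
  set t : Cfsg.IrrCharacter H := Cfsg.Agent.Helper81.trivIrr H with ht
  have htfun : (t : H → ℂ) = fun _ => 1 := rfl
  -- degrees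
  have hdegt : Cfsg.charDegree (t : H → ℂ) = 1 := by
    have h1 := Cfsg.Agent.Helper81.irr_one_eq_charDegree t
    have h2 : (t : H → ℂ) 1 = 1 := rfl
    rw [h2] at h1
    exact_mod_cast h1.symm
  have hψ21 : (T.ψ₂ : H → ℂ) 1 = (T.ψ₁ : H → ℂ) 1 :=
    T.hψreg 1 (by rw [orderOf_one]; exact hp1)
  have hdegψ2 : Cfsg.charDegree (T.ψ₂ : H → ℂ) = Cfsg.charDegree (T.ψ₁ : H → ℂ) := by
    have h1 := Cfsg.Agent.Helper81.irr_one_eq_charDegree T.ψ₂
    have h2 := Cfsg.Agent.Helper81.irr_one_eq_charDegree T.ψ₁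
    rw [hψ21, h2] at h1
    exact_mod_cast h1.symm
  have hdegψ : Cfsg.charDegree (T.ψ₁ : H → ℂ) = d + 1 ∨ Cfsg.charDegree (T.ψ₁ : H → ℂ) = d := by
    rw [T.hψdeg]
    split_ifs
    · exact Or.inl rfl
    · exact Or.inr rfl
  have hdegX1 : ∀ ξ ∈ T.X1, Cfsg.charDegree (ξ : H → ℂ) = 2 * d + 2 := fun ξ hξ => by
    rw [T.hX1deg ξ hξ, hp]
  have hdegX2 : ∀ ξ ∈ T.X2, Cfsg.charDegree (ξ : H → ℂ) = 2 * d := fun ξ hξ => by
    rw [T.hX2deg ξ hξ, hp]; simp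
  -- membership in `S`
  have htS : t ∈ S := (hS t).2 (fun z => by rw [htfun, one_mul])
  have hX1S : ∀ ξ ∈ T.X1, ξ ∈ S := fun ξ hξ =>
    (hS ξ).2 (fun z => by rw [one_mul]; exact T.hX1Z ξ hξ z z.2)
  have hX2S : ∀ ξ ∈ T.X2, ξ ∈ S := fun ξ hξ =>
    (hS ξ).2 (fun z => by rw [one_mul]; exact T.hX2Z ξ hξ z z.2)
  have hψ1S : T.ψ₁ ∈ S := (hS _).2 (fun z => by rw [one_mul]; exact T.hψZ z z.2)
  have hψ2S : T.ψ₂ ∈ S := (hS _).2 (fun z => by
    rw [one_mul, T.hψreg z (hcp z z.2), T.hψZ z z.2, hψ21])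
  -- distinctness, by degrees
  have ht1 : t ∉ T.X1 := fun hm => by have := hdegX1 t hm; omega
  have ht2 : t ∉ T.X2 := fun hm => by have := hdegX2 t hm; omega
  have htψ1 : t ≠ T.ψ₁ := fun he => by rw [← he] at hdegψ; omega
  have htψ2 : t ≠ T.ψ₂ := fun he => by rw [← hdegψ2, ← he] at hdegψ; omega
  have hX1X2 : ∀ ξ ∈ T.X1, ξ ∉ T.X2 := fun ξ h1 h2 => by
    have a := hdegX1 ξ h1
    have b := hdegX2 ξ h2
    omega
  have hX1ψ1 : T.ψ₁ ∉ T.X1 := fun hm => by have := hdegX1 _ hm; omega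
  have hX1ψ2 : T.ψ₂ ∉ T.X1 := fun hm => by have := hdegX1 _ hm; omega
  have hX2ψ1 : T.ψ₁ ∉ T.X2 := fun hm => by have := hdegX2 _ hm; omega
  have hX2ψ2 : T.ψ₂ ∉ T.X2 := fun hm => by have := hdegX2 _ hm; omega
  -- the sum
  set U : Finset (Cfsg.IrrCharacter H) :=
    insert t (T.X1 ∪ (T.X2 ∪ {T.ψ₁, T.ψ₂})) with hU
  have hUS : U ⊆ S := by
    intro ξ hξ
    rw [hU] at hξ
    simp only [Finset.mem_insert, Finset.mem_union, Finset.mem_singleton] at hξ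
    rcases hξ with rfl | hξ | hξ | rfl | rfl
    · exact htS
    · exact hX1S ξ hξ
    · exact hX2S ξ hξ
    · exact hψ1S
    · exact hψ2S
  have hzero : ∀ ξ ∈ S, ξ ∉ U → f (ξ : H → ℂ) = 0 := by
    intro ξ hξS hξU
    rw [hU] at hξU
    simp only [Finset.mem_insert, Finset.mem_union, Finset.mem_singleton, not_or] at hξU
    obtain ⟨h1, h2, h3, h4, h5⟩ := hξU
    apply hf
    refine T.hcomplete ξ (fun z hz => ?_) (fun he => h1 (Subtype.ext he)) h2 h3 h4 h5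
    have := (hS ξ).1 hξS ⟨z, hz⟩
    rw [one_mul] at this
    exact this
  rw [← Finset.sum_subset hUS hzero, hU, Finset.sum_insert, Finset.sum_union, Finset.sum_union,
    Finset.sum_pair T.hψne, htfun]
  · ring
  · rw [Finset.disjoint_left]
    intro ξ h2 hm
    simp only [Finset.mem_insert, Finset.mem_singleton] at hm
    rcases hm with rfl | rfl
    · exact hX2ψ1 h2
    · exact hX2ψ2 h2
  · rw [Finset.disjoint_left]
    intro ξ h1 hm
    simp only [Finset.mem_union, Finset.mem_insert, Finset.mem_singleton] at hm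
    rcases hm with hm | rfl | rfl
    · exact hX1X2 ξ h1 hm
    · exact hX1ψ1 h1
    · exact hX1ψ2 h1
  · simp only [Finset.mem_union, Finset.mem_insert, Finset.mem_singleton, not_or]
    exact ⟨ht1, ht2, htψ1, htψ2⟩

end Cfsg.Agent.Helper14.S4504BRHSA
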