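import Mathlib
import Cfsg.Agent.Helper8.S4504Defs
import Cfsg.Agent.Helper14.S4504BDefs
import Cfsg.Agent.Helper81.CharBasic

/-!
# helper14: piece RHSB of sub-call S4504B (piece BOUND of CALL S4504): evaluation of the
right-hand side of the class-algebra inequality.
-/

set_option autoImplicit false
open Cfsg Cfsg.Agent.Helper8 Cfsg.Agent.Helper14.S4504B
open scoped ComplexConjugate

universe u

namespace Cfsg.Agent.Helper14.S4504BRHSB

theorem s4504b_rhsb {H : Type u} [Group H] [Finite H] (p : ℕ) [Fact p.Prime] (x : H)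
    (χ : H → ℂ) (h : S4504Hyp p x χ) (d : ℕ) (hd : Cfsg.charDegree χ = d) (hd2 : 2 ≤ d)
    (T : S4504Tab p d x χ) (g : H) (hg : ¬ p ∣ orderOf g) :
    term p x g (fun _ => 1) (fun _ => 1) + ∑ ξ ∈ T.X1, term p x g (fun _ => 1) (ξ : H → ℂ)
      + ∑ ξ ∈ T.X2, term p x g (fun _ => 1) (ξ : H → ℂ)
      + term p x g (fun _ => 1) (T.ψ₁ : H → ℂ) + term p x g (fun _ => 1) (T.ψ₂ : H → ℂ)
      = (((2 * (d : ℝ) + 1) * ((d : ℝ) + ‖χ g‖ ^ 2) / ((d : ℝ) + 1) : ℝ) : ℂ) := by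
  have hp : p = 2 * d + 1 := by rw [← hd]; exact h.hdeg.symm
  have hp0 : 0 < p := (Fact.out : p.Prime).pos
  have hp1 : ¬ p ∣ 1 := fun h1 => (Fact.out : p.Prime).one_lt.ne' (Nat.dvd_one.1 h1)
  have hcard : ((bset p).card : ℂ) = 2 * (d : ℂ) := by
    rw [card_bset p hp0, hp]
    simp
  have hd1 : (d : ℂ) + 1 ≠ 0 := by exact_mod_cast (Nat.succ_ne_zero d)
  have hd22 : 2 * (d : ℂ) + 2 ≠ 0 := by
    have : (2 * (d : ℂ) + 2) = 2 * ((d : ℂ) + 1) := by ring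
    rw [this]; exact mul_ne_zero two_ne_zero hd1
  have hd0 : (d : ℂ) ≠ 0 := by exact_mod_cast (by omega : d ≠ 0)
  have hpc : (p : ℂ) = 2 * (d : ℂ) + 1 := by rw [hp]; push_cast; ring
  -- the trivial character
  have ht1 : term p x g (fun _ => 1) (fun _ => (1 : ℂ)) = 2 * (d : ℂ) := by
    unfold term
    simp [hcard]
  -- the characters of `X1`
  have hX1 : ∀ ξ ∈ T.X1, term p x g (fun _ => 1) (ξ : H → ℂ)
      = (2 * (d : ℂ)) / (2 * d + 2) * conj ((ξ : H → ℂ) g) := by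
    intro ξ hξ
    have h1 : (ξ : H → ℂ) x = 1 := by simpa using T.hX1val ξ hξ 1 hp1
    have hb : ∀ b ∈ bset p, (1 : ℂ) * (ξ : H → ℂ) (x ^ b) = 1 := fun b hb => by
      rw [T.hX1val ξ hξ b (not_dvd_of_mem_bset hb), one_mul]
    have hdeg : (ξ : H → ℂ) 1 = 2 * (d : ℂ) + 2 := by
      rw [Cfsg.Agent.Helper81.irr_one_eq_charDegree, T.hX1deg ξ hξ, hp]; push_cast; ring
    unfold term
    rw [h1, Finset.sum_congr rfl hb, Finset.sum_const, nsmul_eq_mul, hcard, hdeg]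
    ring
  -- the characters of `X2`
  have hX2 : ∀ ξ ∈ T.X2, term p x g (fun _ => 1) (ξ : H → ℂ) = conj ((ξ : H → ℂ) g) := by
    intro ξ hξ
    have h1 : (ξ : H → ℂ) x = -1 := by simpa using T.hX2val ξ hξ 1 hp1
    have hb : ∀ b ∈ bset p, (1 : ℂ) * (ξ : H → ℂ) (x ^ b) = -1 := fun b hb => by
      rw [T.hX2val ξ hξ b (not_dvd_of_mem_bset hb), one_mul]
    have hdeg : (ξ : H → ℂ) 1 = 2 * (d : ℂ) := by
      rw [Cfsg.Agent.Helper81.irr_one_eq_charDegree, T.hX2deg ξ hξ, hp]; simp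
    unfold term
    rw [h1, Finset.sum_congr rfl hb, Finset.sum_const, nsmul_eq_mul, hcard, hdeg]
    field_simp
  -- the exceptional characters
  have hψ1 : (T.ψ₁ : H → ℂ) 1 = if Even d then (d : ℂ) + 1 else d := by
    rw [Cfsg.Agent.Helper81.irr_one_eq_charDegree, T.hψdeg]
    split_ifs <;> push_cast <;> rfl
  have hψ21 : (T.ψ₂ : H → ℂ) 1 = (T.ψ₁ : H → ℂ) 1 :=
    T.hψreg 1 (by rw [orderOf_one]; exact hp1)
  have hψ2g : (T.ψ₂ : H → ℂ) g = (T.ψ₁ : H → ℂ) g := T.hψreg g hg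
  have hsumb : ∀ f : ℕ → ℂ, ∑ b ∈ bset p, (1 : ℂ) * f b = (∑ b ∈ Finset.range p, f b) - f 0 := by
    intro f
    have hb : bset p = (Finset.range p).erase 0 := by
      ext b
      simp [bset, and_comm]
    rw [hb, Finset.sum_erase_eq_sub (Finset.mem_range.2 hp0)]
    simp
  have hs1 : ∑ b ∈ bset p, (1 : ℂ) * (T.ψ₁ : H → ℂ) (x ^ b)
      = (if Even d then (p : ℂ) else 0) - (T.ψ₁ : H → ℂ) 1 := by
    rw [hsumb (fun b => (T.ψ₁ : H → ℂ) (x ^ b)), T.hψsum₁, pow_zero]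
  have hs2 : ∑ b ∈ bset p, (1 : ℂ) * (T.ψ₂ : H → ℂ) (x ^ b)
      = (if Even d then (p : ℂ) else 0) - (T.ψ₁ : H → ℂ) 1 := by
    rw [hsumb (fun b => (T.ψ₂ : H → ℂ) (x ^ b)), T.hψsum₂, pow_zero, hψ21]
  have htψ : term p x g (fun _ => 1) (T.ψ₁ : H → ℂ) + term p x g (fun _ => 1) (T.ψ₂ : H → ℂ)
      = (-1) ^ d * ((if Even d then (p : ℂ) else 0) - (T.ψ₁ : H → ℂ) 1)
          * conj ((T.ψ₁ : H → ℂ) g) / (T.ψ₁ : H → ℂ) 1 := by
    unfold term
    rw [hs1, hs2, hψ2g, hψ21, ← T.hψx]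
    ring
  rw [ht1, Finset.sum_congr rfl hX1, Finset.sum_congr rfl hX2, ← Finset.mul_sum,
    add_assoc _ (term p x g (fun _ => 1) (T.ψ₁ : H → ℂ)), htψ]
  have hU : conj (χ g) * χ g = ((‖χ g‖ : ℝ) : ℂ) ^ 2 := by
    rw [mul_comm]; exact Complex.mul_conj' _
  rcases Nat.even_or_odd d with he | ho
  · have e1 := congrArg conj (T.hdec₁ g)
    have e2 := congrArg conj (T.hdec₂ g hg)
    rw [if_pos he] at e1 e2
    simp only [map_add, map_sum, map_mul, map_one, Complex.conj_conj, add_zero] at e1 e2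
    rw [hU] at e1 e2
    have e1' : ∑ ξ ∈ T.X1, conj ((ξ : H → ℂ) g)
        = ((‖χ g‖ : ℝ) : ℂ) ^ 2 - 1 - conj ((T.ψ₁ : H → ℂ) g) := by rw [e1]; ring
    rw [hψ1, if_pos he, if_pos he, he.neg_one_pow, hpc, e1', ← e2]
    push_cast
    field_simp
    ring
  · have hne : ¬ Even d := Nat.not_even_iff_odd.2 ho
    have e1 := congrArg conj (T.hdec₁ g)
    have e2 := congrArg conj (T.hdec₂ g hg)
    rw [if_neg hne] at e1 e2
    simp only [map_add, map_sum, map_mul, map_one, Complex.conj_conj, add_zero] at e1 e2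
    rw [hU] at e1 e2
    have e1' : ∑ ξ ∈ T.X1, conj ((ξ : H → ℂ) g) = ((‖χ g‖ : ℝ) : ℂ) ^ 2 - 1 := by rw [e1]; ring
    have e2' : ∑ ξ ∈ T.X2, conj ((ξ : H → ℂ) g)
        = ((‖χ g‖ : ℝ) : ℂ) ^ 2 - conj ((T.ψ₁ : H → ℂ) g) := by rw [e2]; ring
    rw [hψ1, if_neg hne, if_neg hne, ho.neg_one_pow, e1', e2']
    push_cast
    field_simp
    ring

end Cfsg.Agent.Helper14.S4504BRHSB
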