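import Mathlib
import Cfsg.Agent.Helper8.S4504Defs
import Cfsg.Agent.Helper14.S4504BDefs
import Cfsg.Agent.Helper14.S4504BRHSA
import Cfsg.Agent.Helper14.S4504BRHSB
import Cfsg.Agent.Helper10.S4504D2
import Cfsg.Agent.Helper27.S4504SYL
import Cfsg.Agent.Helper14.S4504BLAM
import Cfsg.Agent.Helper75.S4504BKAPPA
import Cfsg.Agent.Helper9.S4504BFOUR
import Cfsg.Agent.Helper27.S4504BLHS

/-!
# helper14: piece BOUND of CALL S4504 (helper8, Brauer 1942)

For a `p`-regular element `g`: `|χ(g)| (d + 1) ≤ d + |χ(g)|²`.  Twisted class-algebra positivity: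
the counts `N(b, c) = #{(a, a') : a x a⁻¹ a' x^b a'⁻¹ = g c}` are non-negative, so
`|∑_c ∑_b λ(c) κ_b N(b, c)| ≤ ∑_c ∑_b N(b, c)`; both sides are evaluated by the class-algebra
formula and Fourier inversion on the centre (sub-call S4504B).
-/

set_option autoImplicit false
open Cfsg Cfsg.Agent.Helper8 Cfsg.Agent.Helper14.S4504B
open scoped ComplexConjugate

universe u

namespace Cfsg.Agent.Helper14

/-- BOUND -/
theorem s4504_bound {H : Type u} [Group H] [Fintype H] (p : ℕ) [Fact p.Prime] (x : H)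
    (χ : H → ℂ) (h : S4504Hyp p x χ) (d : ℕ) (hd : Cfsg.charDegree χ = d)
    (T : S4504Tab p d x χ) (g : H) (hg : ¬ p ∣ orderOf g) :
    ‖χ g‖ * ((d : ℝ) + 1) ≤ (d : ℝ) + ‖χ g‖ ^ 2 := by
  classical
  haveI : Fintype (Cfsg.IrrCharacter H) := Fintype.ofFinite _
  have hd2 : 2 ≤ d := by rw [← hd]; exact Cfsg.Agent.Helper10.s4504_two_le p x χ h
  have hcp := (Cfsg.Agent.Helper27.s4504_sylow p x h.grp).2.2
  have hp : p = 2 * d + 1 := by rw [← hd]; exact h.hdeg.symm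
  obtain ⟨hlmul, hlnorm, hlabs, -⟩ := Cfsg.Agent.Helper14.S4504BLAM.s4504b_lam (⟨χ, h.hχ⟩ : Cfsg.IrrCharacter H)
  obtain ⟨hk0, hk1, hk2⟩ := Cfsg.Agent.Helper75.S4504BKAPPA.s4504b_kappa p x χ d hp T
  -- the counts
  set Nc : ℕ → Subgroup.center H → ℕ := fun b c =>
    Nat.card {gh : H × H // gh.1 * x * gh.1⁻¹ * (gh.2 * x ^ b * gh.2⁻¹) = g * (c : H)} with hNc
  -- left-hand side
  set S1 : Finset (Cfsg.IrrCharacter H) :=
    Finset.univ.filter (fun ξ => HasCC (ξ : H → ℂ) (lam χ)) with hS1def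
  have hS1 : ∀ ξ : Cfsg.IrrCharacter H, ξ ∈ S1 ↔ HasCC (ξ : H → ℂ) (lam χ) := by
    intro ξ; simp [hS1def]
  have hA : ∑ c : Subgroup.center H, ∑ b ∈ bset p, lam χ c * kap χ x b * (Nc b c : ℂ)
      = (Nat.card H : ℂ) * (Nat.card (Subgroup.center H) : ℂ)
        * ((χ x - (T.χ₂ : H → ℂ) x) ^ 2 * conj (χ g)) := by
    rw [← Cfsg.Agent.Helper27.S4504BLHS.s4504b_lhs p x χ h d hd T g hg hcp hk0 hk1 hk2 S1 hS1]
    exact Cfsg.Agent.Helper9.S4504BFOUR.s4504b_four p x g (lam χ) hlmul hlnorm (kap χ x) S1 hS1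
  -- right-hand side
  set S2 : Finset (Cfsg.IrrCharacter H) :=
    Finset.univ.filter (fun ξ => HasCC (ξ : H → ℂ) (fun _ => 1)) with hS2def
  have hS2 : ∀ ξ : Cfsg.IrrCharacter H, ξ ∈ S2 ↔ HasCC (ξ : H → ℂ) (fun _ => 1) := by
    intro ξ; simp [hS2def]
  have hR : ∑ c : Subgroup.center H, ∑ b ∈ bset p, (1 : ℂ) * (1 : ℂ) * (Nc b c : ℂ)
      = (Nat.card H : ℂ) * (Nat.card (Subgroup.center H) : ℂ)
        * (((2 * (d : ℝ) + 1) * ((d : ℝ) + ‖χ g‖ ^ 2) / ((d : ℝ) + 1) : ℝ) : ℂ) := by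
    rw [← Cfsg.Agent.Helper14.S4504BRHSB.s4504b_rhsb p x χ h d hd hd2 T g hg,
      ← Cfsg.Agent.Helper14.S4504BRHSA.s4504b_rhsa p x χ h d hd hd2 T hcp S2 hS2 (term p x g (fun _ => 1))
        (fun ξ hξ => by simp [term, hξ])]
    exact Cfsg.Agent.Helper9.S4504BFOUR.s4504b_four p x g (fun _ => 1) (fun _ _ => by simp) (fun _ => by simp) (fun _ => 1)
      S2 hS2
  have hR' : ∑ c : Subgroup.center H, ∑ b ∈ bset p, (Nc b c : ℝ)
      = (Nat.card H : ℝ) * (Nat.card (Subgroup.center H) : ℝ)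
        * ((2 * (d : ℝ) + 1) * ((d : ℝ) + ‖χ g‖ ^ 2) / ((d : ℝ) + 1)) := by
    simp only [one_mul] at hR
    exact_mod_cast hR
  -- the triangle inequality
  have htri : ‖∑ c : Subgroup.center H, ∑ b ∈ bset p, lam χ c * kap χ x b * (Nc b c : ℂ)‖
      ≤ ∑ c : Subgroup.center H, ∑ b ∈ bset p, (Nc b c : ℝ) := by
    refine (norm_sum_le _ _).trans (Finset.sum_le_sum fun c _ => (norm_sum_le _ _).trans
      (Finset.sum_le_sum fun b _ => ?_))
    rw [norm_mul, norm_mul, hlabs c, norm_kap, Complex.norm_natCast, one_mul, one_mul]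
  -- the norm of the left-hand side
  have hdiff := T.hdiff 1 (by
    intro h1
    exact (Fact.out : p.Prime).one_lt.ne' (Nat.dvd_one.1 h1))
  rw [pow_one] at hdiff
  have hnormdiff : ‖(χ x - (T.χ₂ : H → ℂ) x) ^ 2‖ = (p : ℝ) := by
    rw [hdiff, norm_mul, norm_pow, norm_neg, norm_one, one_pow, one_mul, Complex.norm_natCast]
  rw [hA, hR', norm_mul, norm_mul, norm_mul, hnormdiff, Complex.norm_natCast,
    Complex.norm_natCast, RCLike.norm_conj] at htri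
  have hH : (0 : ℝ) < (Nat.card H : ℝ) := by exact_mod_cast Nat.card_pos
  have hZ : (0 : ℝ) < (Nat.card (Subgroup.center H) : ℝ) := by exact_mod_cast Nat.card_pos
  have hpR : (p : ℝ) = 2 * (d : ℝ) + 1 := by rw [hp]; push_cast; ring
  rw [hpR] at htri
  have hd1 : (0 : ℝ) < (d : ℝ) + 1 := by positivity
  have hpp : (0 : ℝ) < 2 * (d : ℝ) + 1 := by positivity
  have h5 : ‖χ g‖ ≤ ((d : ℝ) + ‖χ g‖ ^ 2) / ((d : ℝ) + 1) := by
    have h6 : (Nat.card H : ℝ) * (Nat.card (Subgroup.center H) : ℝ) * ((2 * (d : ℝ) + 1) * ‖χ g‖)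
        ≤ (Nat.card H : ℝ) * (Nat.card (Subgroup.center H) : ℝ)
          * ((2 * (d : ℝ) + 1) * (((d : ℝ) + ‖χ g‖ ^ 2) / ((d : ℝ) + 1))) := by
      rw [mul_div_assoc] at htri
      exact htri
    have h7 := le_of_mul_le_mul_left h6 (mul_pos hH hZ)
    exact le_of_mul_le_mul_left h7 hpp
  rw [le_div_iff₀ hd1] at h5
  exact h5

end Cfsg.Agent.Helper14
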