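import Mathlib
import Cfsg.Agent.Helper8.S4504Defs
import Cfsg.Agent.Helper15.B42Defs
import Cfsg.Agent.Helper15.BergerTools
import Cfsg.Agent.Helper79.Basic
import Cfsg.Agent.Helper81.CharBasic
import Cfsg.Agent.Helper72.B42Core

/-!
# helper14: piece DEC of sub-call S4504S (helper15; STRUCT of CALL S4504, Brauer 1942)

Tight counting of the constituents of a character `α` through the additive invariant
`D(φ) = φ(1) - b42Fix p x φ`.
-/

universe u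
set_option autoImplicit false
open Cfsg Cfsg.Agent.Helper77 Cfsg.Agent.Helper15 Cfsg.Agent.Helper8
open scoped ComplexConjugate

namespace Cfsg.Agent.Helper14

variable {G : Type u} [Group G] [Finite G]

/-- DEC: tight counting of the constituents of `α`. -/
theorem s4504s_dec (p : ℕ) [Fact p.Prime] [Fintype G] (x : G) (hx : orderOf x = p)
    (α : G → ℂ) (hα : Cfsg.IsCharacter G α) (a : ℕ)
    (ha : Cfsg.classInner α (fun _ => (1 : ℂ)) = (a : ℂ))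
    (S : Finset (Cfsg.IrrCharacter G))
    (hS1 : ∀ ζ ∈ S, (ζ : G → ℂ) ≠ fun _ => 1)
    (hS : ∀ ζ ∈ S, Cfsg.classInner α (ζ : G → ℂ) ≠ 0)
    (hμ : ∀ ζ ∈ S, ∃ m : ℕ, 1 ≤ m ∧
      (ζ : G → ℂ) 1 - b42Fix p x (ζ : G → ℂ) = ((m * (p - 1) : ℕ) : ℂ))
    (D r : ℕ) (hD : α 1 - b42Fix p x α = (D : ℂ)) (hDr : D = S.card * (p - 1) + r)
    (hr : r < p - 1)
    (hnt : ∀ ξ : Cfsg.IrrCharacter G, (ξ : G → ℂ) ≠ (fun _ => 1) →
      (ξ : G → ℂ) 1 - b42Fix p x (ξ : G → ℂ) ≠ 0) :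
    (∀ ζ ∈ S, (ζ : G → ℂ) 1 - b42Fix p x (ζ : G → ℂ) = ((p - 1 : ℕ) : ℂ)) ∧
    (r = 0 → ∀ g : G, α g = (a : ℂ) + ∑ ζ ∈ S, (ζ : G → ℂ) g) ∧
    (0 < r → ∀ (q R dmin : ℕ), (∀ ζ ∈ S, (ζ : G → ℂ) 1 = (q : ℂ)) →
      α 1 = ((a + S.card * q + R : ℕ) : ℂ) → R < 2 * dmin →
      (∀ ξ : Cfsg.IrrCharacter G, (ξ : G → ℂ) ≠ (fun _ => 1) →
        dmin ≤ Cfsg.charDegree (ξ : G → ℂ)) →
      ∃ ψ : Cfsg.IrrCharacter G, ψ ∉ S ∧ (ψ : G → ℂ) ≠ (fun _ => 1) ∧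
        (ψ : G → ℂ) 1 = (R : ℂ) ∧
        (ψ : G → ℂ) 1 - b42Fix p x (ψ : G → ℂ) = (r : ℂ) ∧
        ∀ g : G, α g = (a : ℂ) + ∑ ζ ∈ S, (ζ : G → ℂ) g + (ψ : G → ℂ) g) := by
  classical
  have hpp : p.Prime := Fact.out
  have hp : p ≠ 0 := hpp.ne_zero
  have hxp : x ^ p = 1 := by rw [← hx]; exact pow_orderOf_eq_one x
  have := Fintype.ofFinite (Cfsg.IrrCharacter G)
  obtain ⟨m, hm1, hm2⟩ := Cfsg.Agent.Helper15.char_decomp α hα
  have hnat : ∀ φ : Cfsg.IrrCharacter G, ∃ d : ℕ,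
      (φ : G → ℂ) 1 - b42Fix p x (φ : G → ℂ) = (d : ℂ) := fun φ =>
    Cfsg.Agent.Helper72.b42c_diff_nat p hp x hxp (φ : G → ℂ)
      (Cfsg.Agent.Helper79.isCharacter_of_irr φ.2)
  choose d hd using hnat
  have hlin : b42Fix p x α = ∑ φ : Cfsg.IrrCharacter G, (m φ : ℂ) * b42Fix p x (φ : G → ℂ) := by
    conv_lhs => rw [hm2]
    exact Cfsg.Agent.Helper72.b42c_fix_sum p x Finset.univ (fun φ => (m φ : ℂ))
      (fun φ => (φ : G → ℂ))
  have hone : α 1 = ∑ φ : Cfsg.IrrCharacter G, (m φ : ℂ) * (φ : G → ℂ) 1 := by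
    conv_lhs => rw [hm2]
    simp only [Finset.sum_apply, Pi.smul_apply, smul_eq_mul]
  have hsum : D = ∑ φ : Cfsg.IrrCharacter G, m φ * d φ := by
    have : (D : ℂ) = ((∑ φ : Cfsg.IrrCharacter G, m φ * d φ : ℕ) : ℂ) := by
      rw [← hD, hlin, hone, ← Finset.sum_sub_distrib]
      push_cast
      refine Finset.sum_congr rfl (fun φ _ => ?_)
      rw [← hd φ]; ring
    exact_mod_cast this
  -- the trivial character
  set t : Cfsg.IrrCharacter G := Cfsg.Agent.Helper79.trivIrr G with ht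
  have htfun : (t : G → ℂ) = fun _ => 1 := rfl
  have hmt : m t = a := by
    have h1 := hm1 t
    rw [htfun, ha] at h1
    exact_mod_cast h1.symm
  have hdt : d t = 0 := by
    have h1 := hd t
    have h2 : b42Fix p x (t : G → ℂ) = 1 := by
      unfold b42Fix
      rw [htfun]
      simp [hp]
    have h3 : (t : G → ℂ) 1 = 1 := rfl
    rw [h2, h3, sub_self] at h1
    exact_mod_cast h1.symm
  have htS : t ∉ S := fun h => hS1 t h htfun
  -- the characters of `S`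
  have hSdata : ∀ ζ ∈ S, ∃ k : ℕ, 1 ≤ k ∧ m ζ * d ζ = k * (p - 1) ∧
      (k = 1 → m ζ = 1 ∧ d ζ = p - 1) := by
    intro ζ hζ
    have hmζ : m ζ ≠ 0 := by
      intro h; apply hS ζ hζ; rw [hm1 ζ, h]; simp
    obtain ⟨m', hm', hq⟩ := hμ ζ hζ
    have hdζ : d ζ = m' * (p - 1) := by
      have : (d ζ : ℂ) = ((m' * (p - 1) : ℕ) : ℂ) := by rw [← hd ζ, hq]
      exact_mod_cast this
    refine ⟨m ζ * m', ?_, ?_, ?_⟩
    · exact Nat.one_le_iff_ne_zero.2 (Nat.mul_ne_zero hmζ (by omega))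
    · rw [hdζ]; ring
    · intro hk
      have h1 : m ζ = 1 := Nat.eq_one_of_mul_eq_one_right hk
      have h2 : m' = 1 := Nat.eq_one_of_mul_eq_one_left hk
      exact ⟨h1, by rw [hdζ, h2, one_mul]⟩
  -- splitting the sum over all irreducible characters
  set U : Finset (Cfsg.IrrCharacter G) := Finset.univ \ insert t S with hU
  have hUmem : ∀ φ, φ ∈ U ↔ φ ≠ t ∧ φ ∉ S := by
    intro φ; simp [hU, not_or]
  have hsplitN : ∀ f : Cfsg.IrrCharacter G → ℕ,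
      ∑ φ, f φ = f t + ∑ ζ ∈ S, f ζ + ∑ φ ∈ U, f φ := by
    intro f
    rw [hU, ← Finset.sum_sdiff (Finset.subset_univ (insert t S)), Finset.sum_insert htS]
    ring
  have hsplitC : ∀ f : Cfsg.IrrCharacter G → ℂ,
      ∑ φ, f φ = f t + ∑ ζ ∈ S, f ζ + ∑ φ ∈ U, f φ := by
    intro f
    rw [hU, ← Finset.sum_sdiff (Finset.subset_univ (insert t S)), Finset.sum_insert htS]
    ring
  have hD2 : S.card * (p - 1) + r = ∑ ζ ∈ S, m ζ * d ζ + ∑ φ ∈ U, m φ * d φ := by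
    rw [← hDr, hsum, hsplitN (fun φ => m φ * d φ), hdt, mul_zero, zero_add]
  have hexc : ∀ ζ ∈ S, m ζ * d ζ = (p - 1) + (m ζ * d ζ - (p - 1)) := by
    intro ζ hζ
    obtain ⟨k, hk1, hk2, -⟩ := hSdata ζ hζ
    have : p - 1 ≤ m ζ * d ζ := by rw [hk2]; exact Nat.le_mul_of_pos_left _ (by omega)
    omega
  have hsumS : ∑ ζ ∈ S, m ζ * d ζ
      = S.card * (p - 1) + ∑ ζ ∈ S, (m ζ * d ζ - (p - 1)) := by
    conv_lhs => rw [Finset.sum_congr rfl hexc]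
    rw [Finset.sum_add_distrib, Finset.sum_const, smul_eq_mul]
  have hrest : ∑ ζ ∈ S, (m ζ * d ζ - (p - 1)) + ∑ φ ∈ U, m φ * d φ = r := by
    rw [hsumS] at hD2; omega
  have hk1 : ∀ ζ ∈ S, m ζ = 1 ∧ d ζ = p - 1 := by
    intro ζ hζ
    obtain ⟨k, hk1, hk2, hk3⟩ := hSdata ζ hζ
    apply hk3
    by_contra hne
    have hk : 2 ≤ k := by omega
    have h1 : m ζ * d ζ - (p - 1) ≤ ∑ ζ ∈ S, (m ζ * d ζ - (p - 1)) :=
      Finset.single_le_sum (f := fun ζ => m ζ * d ζ - (p - 1)) (fun _ _ => Nat.zero_le _) hζ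
    have h2 : 2 * (p - 1) ≤ m ζ * d ζ := by rw [hk2]; exact Nat.mul_le_mul_right _ hk
    omega
  have hrestU : ∑ φ ∈ U, m φ * d φ = r := by
    have h0 : ∑ ζ ∈ S, (m ζ * d ζ - (p - 1)) = 0 := by
      apply Finset.sum_eq_zero
      intro ζ hζ
      obtain ⟨h1, h2⟩ := hk1 ζ hζ
      rw [h1, h2]; omega
    rw [h0, zero_add] at hrest; exact hrest
  have hdU : ∀ φ ∈ U, d φ ≠ 0 := by
    intro φ hφ h0
    have hne : (φ : G → ℂ) ≠ fun _ => 1 := fun he => ((hUmem φ).1 hφ).1 (Subtype.ext he)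
    apply hnt φ hne
    rw [hd φ, h0]; simp
  have hval : ∀ g : G, α g = (a : ℂ) + ∑ ζ ∈ S, (ζ : G → ℂ) g
      + ∑ φ ∈ U, (m φ : ℂ) * (φ : G → ℂ) g := by
    intro g
    have h1 : α g = ∑ φ : Cfsg.IrrCharacter G, (m φ : ℂ) * (φ : G → ℂ) g := by
      conv_lhs => rw [hm2]
      simp only [Finset.sum_apply, Pi.smul_apply, smul_eq_mul]
    have h2 : ∑ ζ ∈ S, (m ζ : ℂ) * (ζ : G → ℂ) g = ∑ ζ ∈ S, (ζ : G → ℂ) g :=
      Finset.sum_congr rfl (fun ζ hζ => by rw [(hk1 ζ hζ).1]; simp)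
    have h3 : (t : G → ℂ) g = 1 := rfl
    rw [h1, hsplitC (fun φ => (m φ : ℂ) * (φ : G → ℂ) g), h2, hmt, h3, mul_one]
  refine ⟨?_, ?_, ?_⟩
  · intro ζ hζ
    rw [hd ζ, (hk1 ζ hζ).2]
  · intro hr0 g
    rw [hval g]
    have h0 : ∑ φ ∈ U, (m φ : ℂ) * (φ : G → ℂ) g = 0 := by
      apply Finset.sum_eq_zero
      intro φ hφ
      have h1 : m φ * d φ = 0 := Finset.sum_eq_zero_iff.1 (hrestU.trans hr0) φ hφ
      rcases Nat.mul_eq_zero.1 h1 with h | h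
      · rw [h]; simp
      · exact absurd h (hdU φ hφ)
    rw [h0, add_zero]
  · intro hr0 q R dmin hq hα1 hR hmin
    have hdeg : ∀ φ : Cfsg.IrrCharacter G,
        (φ : G → ℂ) 1 = (Cfsg.charDegree (φ : G → ℂ) : ℂ) :=
      fun φ => Cfsg.Agent.Helper81.irr_one_eq_charDegree φ
    have hRsum : ∑ φ ∈ U, m φ * Cfsg.charDegree (φ : G → ℂ) = R := by
      have h1 := hval 1
      rw [hα1, Finset.sum_congr rfl (fun ζ hζ => hq ζ hζ), Finset.sum_const, nsmul_eq_mul] at h1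
      have h2 : ∑ φ ∈ U, (m φ : ℂ) * (φ : G → ℂ) 1
          = ((∑ φ ∈ U, m φ * Cfsg.charDegree (φ : G → ℂ) : ℕ) : ℂ) := by
        push_cast
        exact Finset.sum_congr rfl (fun φ _ => by rw [hdeg φ])
      rw [h2] at h1
      have h3 : ((a + S.card * q + R : ℕ) : ℂ)
          = ((a + S.card * q + ∑ φ ∈ U, m φ * Cfsg.charDegree (φ : G → ℂ) : ℕ) : ℂ) := by
        rw [h1]; push_cast; ring
      have h4 := Nat.cast_injective (R := ℂ) h3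
      omega
    obtain ⟨ψ, hψU, hψne⟩ : ∃ ψ ∈ U, m ψ * d ψ ≠ 0 := by
      by_contra hcon
      push_neg at hcon
      have : ∑ φ ∈ U, m φ * d φ = 0 := Finset.sum_eq_zero hcon
      omega
    have hmψ : 1 ≤ m ψ := Nat.one_le_iff_ne_zero.2 (fun h => hψne (by rw [h, zero_mul]))
    have hψnt : (ψ : G → ℂ) ≠ fun _ => 1 := fun he => ((hUmem ψ).1 hψU).1 (Subtype.ext he)
    have hdmin : ∀ φ ∈ U, dmin ≤ Cfsg.charDegree (φ : G → ℂ) := fun φ hφ =>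
      hmin φ (fun he => ((hUmem φ).1 hφ).1 (Subtype.ext he))
    have hsplitψ : ∑ φ ∈ U, m φ * Cfsg.charDegree (φ : G → ℂ)
        = m ψ * Cfsg.charDegree (ψ : G → ℂ)
          + ∑ φ ∈ U.erase ψ, m φ * Cfsg.charDegree (φ : G → ℂ) :=
      (Finset.add_sum_erase U (fun φ => m φ * Cfsg.charDegree (φ : G → ℂ)) hψU).symm
    have hψdeg : dmin ≤ m ψ * Cfsg.charDegree (ψ : G → ℂ) :=
      le_trans (hdmin ψ hψU) (Nat.le_mul_of_pos_left _ hmψ)
    have hothers : ∀ φ ∈ U.erase ψ, m φ = 0 := by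
      intro φ hφ
      by_contra hne
      have hφU : φ ∈ U := Finset.mem_of_mem_erase hφ
      have h1 : m φ * Cfsg.charDegree (φ : G → ℂ)
          ≤ ∑ φ ∈ U.erase ψ, m φ * Cfsg.charDegree (φ : G → ℂ) :=
        Finset.single_le_sum (f := fun φ => m φ * Cfsg.charDegree (φ : G → ℂ))
          (fun _ _ => Nat.zero_le _) hφ
      have h3 : dmin ≤ m φ * Cfsg.charDegree (φ : G → ℂ) :=
        le_trans (hdmin φ hφU) (Nat.le_mul_of_pos_left _ (Nat.pos_of_ne_zero hne))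
      omega
    have hmψ1 : m ψ = 1 := by
      by_contra hne
      have h2 : 2 ≤ m ψ := by omega
      have h4 : 2 * dmin ≤ m ψ * Cfsg.charDegree (ψ : G → ℂ) :=
        Nat.mul_le_mul h2 (hdmin ψ hψU)
      omega
    have hz1 : ∑ φ ∈ U.erase ψ, m φ * Cfsg.charDegree (φ : G → ℂ) = 0 :=
      Finset.sum_eq_zero (fun φ hφ => by rw [hothers φ hφ, zero_mul])
    have hz2 : ∑ φ ∈ U.erase ψ, m φ * d φ = 0 :=
      Finset.sum_eq_zero (fun φ hφ => by rw [hothers φ hφ, zero_mul])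
    refine ⟨ψ, ((hUmem ψ).1 hψU).2, hψnt, ?_, ?_, ?_⟩
    · rw [hz1, add_zero, hmψ1, one_mul, hRsum] at hsplitψ
      rw [hdeg ψ, ← hsplitψ]
    · have h3 : ∑ φ ∈ U, m φ * d φ = m ψ * d ψ + ∑ φ ∈ U.erase ψ, m φ * d φ :=
        (Finset.add_sum_erase U (fun φ => m φ * d φ) hψU).symm
      rw [hz2, add_zero, hmψ1, one_mul, hrestU] at h3
      rw [hd ψ, h3]
    · intro g
      rw [hval g]
      congr 1
      rw [← Finset.add_sum_erase U (fun φ => (m φ : ℂ) * (φ : G → ℂ) g) hψU, hmψ1]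
      have h5 : ∑ φ ∈ U.erase ψ, (m φ : ℂ) * (φ : G → ℂ) g = 0 :=
        Finset.sum_eq_zero (fun φ hφ => by rw [hothers φ hφ]; simp)
      rw [h5]; simp

end Cfsg.Agent.Helper14
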