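import Mathlib

/-!
# A determinant form of the integrality condition for strongly regular graphs (helper14)

* `srg_isSquare`: for a triangle-free strongly regular graph with odd `k` and `μ`, the number
  `μ² + 4(k - μ)` is a perfect square.
* `three_pow_square`: if `(3^i)² + 4(3^j - 3^i)` is a square and `i < j`, then `j = 1`.
-/

set_option autoImplicit false

namespace Cfsg.Agent.Helper14.Srg

open Finset

theorem srg_isSquare {ι : Type*} [Fintype ι] [Nonempty ι] (adj : ι → ι → Prop)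
    (k μ : ℕ)
    (hirr : ∀ a, ¬ adj a a)
    (hk : ∀ a, {c | adj a c}.ncard = k)
    (hkk : ∀ a, {c | adj a c ∧ adj c a}.ncard = k)
    (h0 : ∀ a b, adj a b → {c | adj a c ∧ adj c b}.ncard = 0)
    (hμ : ∀ a b, a ≠ b → ¬ adj a b → {c | adj a c ∧ adj c b}.ncard = μ)
    (hko : Odd k) (hμo : Odd μ) (hμk : μ ≤ k) : IsSquare (μ ^ 2 + 4 * (k - μ)) := by
  classical
  have hcard : ∀ p : ι → Prop, {c | p c}.ncard = (univ.filter p).card := by
    intro p
    rw [Set.ncard_eq_toFinset_card', Set.toFinset_ofPred]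
  obtain ⟨A, hA⟩ : ∃ A : Matrix ι ι ℚ,
      A = Matrix.of (fun a b => if adj a b then (1 : ℚ) else 0) := ⟨_, rfl⟩
  have hAapp : ∀ a b, A a b = if adj a b then 1 else 0 := by intro a b; rw [hA]; rfl
  have hAA : ∀ a b, (A * A) a b = (({c | adj a c ∧ adj c b}.ncard : ℕ) : ℚ) := by
    intro a b
    rw [Matrix.mul_apply, hcard, Finset.card_filter]
    push_cast
    apply Finset.sum_congr rfl
    intro c _
    rw [hAapp, hAapp]
    by_cases h1 : adj a c <;> by_cases h2 : adj c b <;> simp [h1, h2]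
  have hrow : ∀ a, ∑ b, A a b = (k : ℚ) := by
    intro a
    rw [← hk a, hcard, Finset.card_filter]
    push_cast
    apply Finset.sum_congr rfl
    intro c _
    rw [hAapp]
  obtain ⟨Δ, hΔ⟩ : ∃ Δ : ℚ, Δ = (μ : ℚ) ^ 2 + 4 * ((k : ℚ) - μ) := ⟨_, rfl⟩
  obtain ⟨M, hM⟩ : ∃ M : Matrix ι ι ℚ, M = (2 : ℚ) • A + (μ : ℚ) • (1 : Matrix ι ι ℚ) :=
    ⟨_, rfl⟩
  have hMM : ∀ a b, (M * M) a b = (if a = b then Δ else 0) + 4 * μ := by
    intro a b
    have e1 : M * M = (4 : ℚ) • (A * A) + (4 * (μ : ℚ)) • A +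
        ((μ : ℚ) ^ 2) • (1 : Matrix ι ι ℚ) := by
      rw [hM]
      simp only [Matrix.add_mul, Matrix.mul_add, Matrix.smul_mul, Matrix.mul_smul,
        Matrix.one_mul, Matrix.mul_one, smul_smul, smul_add]
      module
    rw [e1]
    simp only [Matrix.add_apply, Matrix.smul_apply, smul_eq_mul, Matrix.one_apply]
    rw [hAA, hAapp]
    by_cases hab : a = b
    · subst hab
      rw [hkk a, if_neg (hirr a), if_pos rfl, if_pos rfl, hΔ]
      ring
    · rw [if_neg hab, if_neg hab]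
      by_cases hadj : adj a b
      · rw [h0 a b hadj, if_pos hadj]; simp
      · rw [hμ a b hab hadj, if_neg hadj]; ring
  have hMrow : ∀ a, ∑ b, M a b = 2 * (k : ℚ) + μ := by
    intro a
    rw [hM]
    simp only [Matrix.add_apply, Matrix.smul_apply, smul_eq_mul, Matrix.one_apply]
    rw [Finset.sum_add_distrib, ← Finset.mul_sum, hrow a]
    simp
  obtain ⟨v, hv⟩ : ∃ v : ℕ, v = Fintype.card ι := ⟨_, rfl⟩
  have hv0 : 0 < v := by rw [hv]; exact Fintype.card_pos
  have hc2 : (2 * (k : ℚ) + μ) ^ 2 = Δ + 4 * μ * v := by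
    obtain ⟨a⟩ := ‹Nonempty ι›
    have h1 : ∑ b, (M * M) a b = (2 * (k : ℚ) + μ) ^ 2 := by
      simp only [Matrix.mul_apply]
      rw [Finset.sum_comm]
      simp only [← Finset.mul_sum, hMrow]
      rw [← Finset.sum_mul, hMrow]; ring
    have h2 : ∑ b, (M * M) a b = Δ + 4 * μ * v := by
      simp only [hMM]
      rw [Finset.sum_add_distrib, Finset.sum_ite_eq, if_pos (Finset.mem_univ a)]
      simp [hv]; ring
    rw [← h1, h2]
  have hveven : Even v := by
    have hnat : μ * v + k = k * k + k * μ + μ := by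
      have : ((μ * v + k : ℕ) : ℚ) = ((k * k + k * μ + μ : ℕ) : ℚ) := by
        push_cast
        rw [hΔ] at hc2
        linarith [hc2]
      exact_mod_cast this
    by_contra hodd
    rw [Nat.not_even_iff_odd] at hodd
    obtain ⟨a, rfl⟩ := hko
    obtain ⟨m, rfl⟩ := hμo
    obtain ⟨w, hw⟩ := hodd
    rw [hw] at hnat
    have e1 : (2 * m + 1) * (2 * w + 1) + (2 * a + 1) = 2 * (2 * m * w + m + w + a + 1) := by
      ring
    have e2 : (2 * a + 1) * (2 * a + 1) + (2 * a + 1) * (2 * m + 1) + (2 * m + 1) =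
        2 * (2 * a * a + 2 * a + 2 * a * m + a + 2 * m + 1) + 1 := by ring
    omega
  by_cases hΔ0 : Δ = 0
  · have : μ ^ 2 + 4 * (k - μ) = 0 := by
      have : ((μ ^ 2 + 4 * (k - μ) : ℕ) : ℚ) = 0 := by
        push_cast [Nat.cast_sub hμk]; rw [← hΔ]; exact hΔ0
      exact_mod_cast this
    rw [this]; exact ⟨0, rfl⟩
  · have hMMmat : M * M = Δ • (1 + Matrix.replicateCol Unit (fun _ : ι => 4 * (μ : ℚ) / Δ) *
        Matrix.replicateRow Unit (fun _ : ι => (1 : ℚ))) := by
      ext a b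
      rw [hMM]
      simp only [Matrix.smul_apply, Matrix.add_apply, Matrix.one_apply, Matrix.mul_apply,
        Matrix.replicateCol_apply, Matrix.replicateRow_apply, smul_eq_mul, Finset.univ_unique,
        Finset.sum_singleton]
      by_cases hab : a = b
      · rw [if_pos hab, if_pos hab]; field_simp
      · rw [if_neg hab, if_neg hab]; field_simp; ring
    have hdet : (M.det) ^ 2 = Δ ^ v * (1 + (v : ℚ) * (4 * μ / Δ)) := by
      rw [pow_two, ← Matrix.det_mul, hMMmat, Matrix.det_smul,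
        Matrix.det_one_add_replicateCol_mul_replicateRow, ← hv]
      congr 2
      simp [dotProduct, hv]
    obtain ⟨w, hw⟩ : ∃ w, v = 2 * w + 2 := by
      obtain ⟨r, hr⟩ := hveven
      exact ⟨r - 1, by omega⟩
    have hk0 : (0 : ℚ) ≤ k := Nat.cast_nonneg k
    have hμ0 : (0 : ℚ) ≤ μ := Nat.cast_nonneg μ
    have hc0 : (2 * (k : ℚ) + μ) ≠ 0 := by
      intro h
      have hk1 : (k : ℚ) = 0 := by linarith
      have hμ1 : (μ : ℚ) = 0 := by linarith
      apply hΔ0; rw [hΔ, hk1, hμ1]; ring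
    have hsq : Δ = (M.det / (Δ ^ w * (2 * (k : ℚ) + μ))) ^ 2 := by
      rw [div_pow, hdet, hw]
      have e3 : Δ ^ (2 * w + 2) * (1 + ((2 * w + 2 : ℕ) : ℚ) * (4 * μ / Δ)) =
          Δ ^ (2 * w + 1) * (Δ + 4 * μ * ((2 * w + 2 : ℕ) : ℚ)) := by
        field_simp
        ring
      rw [e3, ← hw, ← hc2]
      field_simp
      ring
    have hsq' : IsSquare Δ := ⟨_, by rw [← pow_two]; exact hsq⟩
    have hcast : Δ = ((μ ^ 2 + 4 * (k - μ) : ℕ) : ℚ) := by
      rw [hΔ]; push_cast [Nat.cast_sub hμk]; ring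
    rw [hcast] at hsq'
    exact Rat.isSquare_natCast_iff.mp hsq'

theorem sq_ne_three_pow_mul : ∀ (i m t : ℕ), m % 3 = 2 → t * t ≠ 3 ^ i * m := by
  intro i
  induction i using Nat.strong_induction_on with
  | _ i ih =>
    intro m t hm h
    rcases i with _ | _ | i
    · rw [pow_zero, one_mul] at h
      have h3 : t * t % 3 ≠ 2 := by
        rw [Nat.mul_mod]
        have := Nat.mod_lt t (by norm_num : 3 > 0)
        interval_cases (t % 3) <;> omega
      omega
    · rw [zero_add, pow_one] at h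
      have h3 : 3 ∣ t := by
        have : 3 ∣ t * t := ⟨m, h⟩
        exact ((Nat.Prime.dvd_mul Nat.prime_three).mp this).elim id id
      obtain ⟨s, rfl⟩ := h3
      have : 3 * (s * s) = m := by nlinarith
      omega
    · have h3 : 3 ∣ t := by
        have : 3 ∣ t * t := ⟨3 ^ (i + 1) * m, by rw [h]; ring⟩
        exact ((Nat.Prime.dvd_mul Nat.prime_three).mp this).elim id id
      obtain ⟨s, rfl⟩ := h3
      have h9 : 9 * (s * s) = 9 * (3 ^ i * m) := by
        have e1 : 3 ^ (i + 1 + 1) * m = 9 * (3 ^ i * m) := by ring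
        rw [← e1, ← h]; ring
      have : s * s = 3 ^ i * m := by omega
      exact ih i (by omega) m s hm this

theorem three_pow_square {i j : ℕ} (hij : i < j)
    (h : IsSquare ((3 ^ i) ^ 2 + 4 * (3 ^ j - 3 ^ i))) : j = 1 := by
  obtain ⟨t, ht⟩ := h
  have hle : 3 ^ i ≤ 3 ^ j := Nat.pow_le_pow_right (by norm_num) hij.le
  have ht' : t * t + 4 * 3 ^ i = (3 ^ i) ^ 2 + 4 * 3 ^ j := by omega
  rcases Nat.eq_zero_or_pos i with rfl | hi
  · by_contra hj
    have hj2 : 2 ≤ j := by omega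
    obtain ⟨e, rfl⟩ := Nat.exists_eq_add_of_le hj2
    have h9 : 3 ^ (2 + e) = 9 * 3 ^ e := by rw [pow_add]; norm_num
    rw [h9] at ht'
    have hpos : 0 < 3 ^ e := by positivity
    have h6 : t * t % 9 ≠ 6 := by
      rw [Nat.mul_mod]
      have := Nat.mod_lt t (by norm_num : 9 > 0)
      interval_cases (t % 9) <;> omega
    simp only [pow_zero, one_pow, mul_one] at ht'
    omega
  · exfalso
    obtain ⟨e, rfl⟩ := Nat.exists_eq_add_of_lt hij
    obtain ⟨i', rfl⟩ := Nat.exists_eq_succ_of_ne_zero hi.ne'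
    obtain ⟨a, ha⟩ : ∃ a : ℕ, a = 3 ^ i' := ⟨_, rfl⟩
    obtain ⟨c, hc⟩ : ∃ c : ℕ, c = 3 ^ e := ⟨_, rfl⟩
    have ha0 : 0 < a := by rw [ha]; positivity
    have hc0 : 0 < c := by rw [hc]; positivity
    have h3i : 3 ^ (i' + 1) = 3 * a := by rw [pow_succ, ha]; ring
    have hp : 3 ^ (i' + 1 + e + 1) = 3 * a * (3 * c) := by
      rw [pow_add, pow_add, h3i, hc]; ring
    have hm : (3 * a + 12 * c - 4) % 3 = 2 := by omega
    have hm' : 3 * a + 12 * c - 4 + 4 = 3 * a + 12 * c := by omega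
    apply sq_ne_three_pow_mul (i' + 1) (3 * a + 12 * c - 4) t hm
    rw [h3i]
    rw [h3i, hp] at ht'
    have key : t * t + 12 * a = 3 * a * (3 * a + 12 * c - 4) + 12 * a := by
      have e1 : 3 * a * (3 * a + 12 * c - 4) + 12 * a = 3 * a * (3 * a + 12 * c - 4 + 4) := by
        ring
      rw [e1, hm']
      nlinarith [ht']
    exact Nat.add_right_cancel key

end Cfsg.Agent.Helper14.Srg
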