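import Mathlib
import Cfsg.Prelude.Def_Classical
import Cfsg.Agent.Helper37.Symp
import Cfsg.Agent.Helper5.SympCenter

set_option autoImplicit false

/-!
The 2-rank of `PSp_{2n}(F)` (`n ≥ 3`, `2 ≠ 0`) is less than `2n`.
-/

namespace Cfsg.Agent.Helper14

open scoped Matrix

section abstract

variable {E : Type*} [Group E]

theorem ncard_le_two_mul [Finite E] (A B : Set E) (x : E) (h : ∀ a ∈ A, a ∈ B ∨ x * a ∈ B) :
    A.ncard ≤ 2 * B.ncard := by
  have hsub : A ⊆ B ∪ (fun b => x⁻¹ * b) '' B := by
    intro a ha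
    rcases h a ha with h1 | h1
    · exact Or.inl h1
    · exact Or.inr ⟨x * a, h1, by group⟩
  calc A.ncard ≤ (B ∪ (fun b => x⁻¹ * b) '' B).ncard := Set.ncard_le_ncard hsub (Set.toFinite _)
    _ ≤ B.ncard + ((fun b => x⁻¹ * b) '' B).ncard := Set.ncard_union_le _ _
    _ ≤ B.ncard + B.ncard := by
        have := Set.ncard_image_le (f := fun b => x⁻¹ * b) (Set.toFinite B)
        omega
    _ = 2 * B.ncard := by ring

/-- elementary abelian 2-subgroups -/
def ElemAb (T : Subgroup E) : Prop :=
  (∀ a ∈ T, ∀ b ∈ T, a * b = b * a) ∧ ∀ a ∈ T, a * a = 1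

theorem elemAb_closure (T : Subgroup E) (hT : ElemAb T) (g : E) (hg : g * g = 1)
    (hgT : ∀ t ∈ T, g * t = t * g) : ElemAb (Subgroup.closure ((T : Set E) ∪ {g})) := by
  have hgen : ∀ a ∈ (T : Set E) ∪ {g}, ∀ b ∈ (T : Set E) ∪ {g}, a * b = b * a := by
    rintro a (ha | ha) b (hb | hb)
    · exact hT.1 a ha b hb
    · rw [Set.mem_singleton_iff] at hb
      rw [hb]; exact (hgT a ha).symm
    · rw [Set.mem_singleton_iff] at ha
      rw [ha]; exact hgT b hb
    · rw [Set.mem_singleton_iff] at ha hb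
      rw [ha, hb]
  have hcomm : ∀ a ∈ Subgroup.closure ((T : Set E) ∪ {g}),
      ∀ b ∈ Subgroup.closure ((T : Set E) ∪ {g}), a * b = b * a := by
    intro a ha b hb
    have h1 : Subgroup.closure ((T : Set E) ∪ {g}) ≤
        Subgroup.centralizer ((T : Set E) ∪ {g}) := by
      rw [Subgroup.closure_le]
      intro x hx
      rw [SetLike.mem_coe, Subgroup.mem_centralizer_iff]
      intro y hy
      exact hgen y hy x hx
    have h3 : Subgroup.closure ((T : Set E) ∪ {g}) ≤
        Subgroup.centralizer (Subgroup.closure ((T : Set E) ∪ {g}) : Set E) := by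
      rw [Subgroup.centralizer_closure]
      exact h1
    have h4 := h3 ha
    rw [Subgroup.mem_centralizer_iff] at h4
    exact (h4 b hb).symm
  refine ⟨hcomm, ?_⟩
  intro a ha
  induction ha using Subgroup.closure_induction with
  | mem x hx =>
    rcases hx with hx | hx
    · exact hT.2 x hx
    · rw [Set.mem_singleton_iff] at hx
      rw [hx]; exact hg
  | one => simp
  | mul x y hx hy hx1 hy1 =>
    have hxy := hcomm x hx y hy
    calc x * y * (x * y) = x * (y * x) * y := by group
      _ = x * (x * y) * y := by rw [hxy]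
      _ = (x * x) * (y * y) := by group
      _ = 1 := by rw [hx1, hy1, one_mul]
  | inv x hx hx1 =>
    calc x⁻¹ * x⁻¹ = (x * x)⁻¹ := by group
      _ = 1 := by rw [hx1, inv_one]

/-- a maximal elementary abelian 2-subgroup absorbs every involution centralising it -/
theorem exists_max_elemAb [Finite E] : ∃ T : Subgroup E, ElemAb T ∧
    ∀ g : E, g * g = 1 → (∀ t ∈ T, g * t = t * g) → g ∈ T := by
  classical
  haveI : Nonempty {T : Subgroup E // ElemAb T} := ⟨⟨⊥, by
    constructor
    · intro a ha b hb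
      rw [Subgroup.mem_bot] at ha hb
      rw [ha, hb]
    · intro a ha
      rw [Subgroup.mem_bot] at ha
      rw [ha, one_mul]⟩⟩
  obtain ⟨T, hT⟩ := Finite.exists_max (fun T : {T : Subgroup E // ElemAb T} => Nat.card T.1)
  refine ⟨T.1, T.2, ?_⟩
  intro g hg hgT
  have h1 := elemAb_closure T.1 T.2 g hg hgT
  have h3 := hT ⟨_, h1⟩
  have hle : T.1 ≤ Subgroup.closure ((T.1 : Set E) ∪ {g}) := by
    intro x hx
    exact Subgroup.subset_closure (Or.inl hx)
  have heq : T.1 = Subgroup.closure ((T.1 : Set E) ∪ {g}) :=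
    Subgroup.eq_of_le_of_card_ge hle h3
  rw [heq]
  exact Subgroup.subset_closure (Or.inr rfl)

/-- the centraliser of a maximal elementary abelian subgroup has index at most 4 over it -/
theorem card_centralizer_le [Finite E] (z : E) (hzc : ∀ g : E, z * g = g * z) (hzz : z * z = 1)
    (hsq : ∀ g : E, g * g = 1 ∨ g * g = z)
    (hcomm : ∀ g h : E, g * h = h * g ∨ g * h = z * (h * g))
    (T : Subgroup E)
    (habs : ∀ g : E, g * g = 1 → (∀ t ∈ T, g * t = t * g) → g ∈ T) :
    Nat.card (Subgroup.centralizer (T : Set E)) ≤ 4 * Nat.card T := by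
  classical
  have hCmem : ∀ c : E, c ∈ Subgroup.centralizer (T : Set E) ↔ ∀ t ∈ T, c * t = t * c := by
    intro c
    rw [Subgroup.mem_centralizer_iff]
    constructor
    · intro h t ht; exact (h t ht).symm
    · intro h t ht; exact (h t ht).symm
  generalize Subgroup.centralizer (T : Set E) = C at hCmem
  have e1 : Nat.card C = (C : Set E).ncard := Nat.card_coe_set_eq (C : Set E)
  have e2 : Nat.card T = (T : Set E).ncard := Nat.card_coe_set_eq (T : Set E)
  rw [e1, e2]
  by_cases hCT : ∀ c ∈ C, c ∈ T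
  · have : (C : Set E).ncard ≤ (T : Set E).ncard := Set.ncard_le_ncard hCT (Set.toFinite _)
    omega
  push Not at hCT
  obtain ⟨g, hgC, hgT⟩ := hCT
  have hgg : g * g = z := by
    rcases hsq g with h | h
    · exact absurd (habs g h ((hCmem g).mp hgC)) hgT
    · exact h
  have h1 : ({h | h ∈ C ∧ h * g = g * h} : Set E).ncard ≤ 2 * (T : Set E).ncard := by
    apply ncard_le_two_mul _ (T : Set E) g
    rintro h ⟨hhC, hhg⟩
    rcases hsq h with hh | hh
    · left; exact habs h hh ((hCmem h).mp hhC)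
    · right
      apply habs
      · calc g * h * (g * h) = g * (h * g) * h := by group
          _ = g * (g * h) * h := by rw [hhg]
          _ = (g * g) * (h * h) := by group
          _ = 1 := by rw [hgg, hh, hzz]
      · exact (hCmem _).mp (C.mul_mem hgC hhC)
  have h2 : ∃ h₀ : E, ∀ h ∈ (C : Set E), h ∈ ({h | h ∈ C ∧ h * g = g * h} : Set E) ∨
      h₀ * h ∈ ({h | h ∈ C ∧ h * g = g * h} : Set E) := by
    by_cases hall : ∀ h ∈ C, h * g = g * h
    · exact ⟨1, fun h hh => Or.inl ⟨hh, hall h hh⟩⟩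
    push Not at hall
    obtain ⟨h₁, hh₁C, hh₁g⟩ := hall
    have hh₁ : h₁ * g = z * (g * h₁) := by
      rcases hcomm h₁ g with h | h
      · exact absurd h hh₁g
      · exact h
    refine ⟨h₁, fun h hh => ?_⟩
    by_cases hhg : h * g = g * h
    · exact Or.inl ⟨hh, hhg⟩
    have hhg' : h * g = z * (g * h) := by
      rcases hcomm h g with h' | h'
      · exact absurd h' hhg
      · exact h'
    right
    refine ⟨C.mul_mem hh₁C hh, ?_⟩
    calc h₁ * h * g = h₁ * (h * g) := by group
      _ = h₁ * (z * (g * h)) := by rw [hhg']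
      _ = (h₁ * z) * (g * h) := by group
      _ = (z * h₁) * (g * h) := by rw [hzc h₁]
      _ = z * (h₁ * g) * h := by group
      _ = z * (z * (g * h₁)) * h := by rw [hh₁]
      _ = (z * z) * (g * (h₁ * h)) := by group
      _ = g * (h₁ * h) := by rw [hzz, one_mul]
  obtain ⟨h₀, hh₀⟩ := h2
  have h3 := ncard_le_two_mul (C : Set E) _ h₀ hh₀
  omega

end abstract

section symp

open Module

variable {F : Type*} [Field F]

theorem weight_of_eigenvector {ι : Type*} [Fintype ι] [DecidableEq ι] {N : ℕ}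
    (b : Basis (Fin N) F (ι → F)) (M : Matrix ι ι F) (χ : Fin N → F)
    (hb : ∀ k, M *ᵥ b k = χ k • b k) (v : ι → F) (c : F) (hv : M *ᵥ v = c • v) (j : Fin N)
    (hj : b.repr v j ≠ 0) : χ j = c := by
  have hsum := b.sum_repr v
  have h3 : ∑ k, (b.repr v k * χ k - c * b.repr v k) • b k = 0 := by
    have e1 : M *ᵥ v = ∑ k, (b.repr v k * χ k) • b k := by
      conv_lhs => rw [← hsum]
      rw [Matrix.mulVec_sum]
      apply Finset.sum_congr rfl
      intro k _
      rw [Matrix.mulVec_smul, hb, smul_smul]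
    have e2 : c • v = ∑ k, (c * b.repr v k) • b k := by
      conv_lhs => rw [← hsum]
      rw [Finset.smul_sum]
      apply Finset.sum_congr rfl
      intro k _
      rw [smul_smul]
    rw [e1, e2] at hv
    simp only [sub_smul, Finset.sum_sub_distrib]
    rw [hv, sub_self]
  have h4 := Fintype.linearIndependent_iff.mp b.linearIndependent _ h3 j
  have h5 : b.repr v j * (χ j - c) = 0 := by linear_combination h4
  rcases mul_eq_zero.mp h5 with h | h
  · exact absurd h hj
  · exact sub_eq_zero.mp h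

variable {l : Type*} [Fintype l] [DecidableEq l]

/-- A finite subgroup of `Sp_{2n}(F)` containing `-1`, in which all squares and commutators are
`± 1`, has order at most `n * 2 ^ (n + 2)`. -/
theorem card_le_of_symp (h2 : (2 : F) ≠ 0) {E : Type*} [Group E] [Finite E]
    (ρ : E →* Matrix (l ⊕ l) (l ⊕ l) F) (hρ : Function.Injective ρ)
    (hsp : ∀ g, ρ g ∈ Matrix.symplecticGroup l F) (z : E) (hz : ρ z = -1)
    (hsq : ∀ g : E, g * g = 1 ∨ g * g = z)
    (hcomm : ∀ g h : E, g * h = h * g ∨ g * h = z * (h * g)) (hl : 0 < Fintype.card l) :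
    Nat.card E ≤ Fintype.card l * (4 * 2 ^ Fintype.card l) := by
  classical
  haveI : Fintype E := Fintype.ofFinite E
  have hzc : ∀ g : E, z * g = g * z := by
    intro g
    apply hρ
    rw [map_mul, map_mul, hz]
    simp
  have hzz : z * z = 1 := by
    apply hρ
    rw [map_mul, hz, map_one]
    simp
  obtain ⟨T, hT, habs⟩ := exists_max_elemAb (E := E)
  have hC := card_centralizer_le z hzc hzz hsq hcomm T habs
  obtain ⟨N, b, χ, hN, hb, hχ, -, hinj⟩ := Cfsg.Agent.Helper37.exists_common_eigenbasis_matrix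
    (fun a : T => ρ a.1)
    (fun a b => by rw [← map_mul, ← map_mul, hT.1 a.1 a.2 b.1 b.2])
    (fun a => by rw [← map_mul, hT.2 a.1 a.2, map_one]) h2
  have hpart : ∀ i : Fin N, ∃ j, j ≠ i ∧ χ j = χ i := by
    intro i
    by_contra hcon
    simp only [not_exists, not_and] at hcon
    have h0 : ∀ j, Cfsg.Agent.Helper37.sympForm F l (b i) (b j) = 0 := by
      intro j
      by_cases hji : j = i
      · rw [hji]; exact Cfsg.Agent.Helper37.sympForm_self h2 _
      · obtain ⟨a, ha⟩ := Function.ne_iff.mp (hcon j hji)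
        have hinv := Cfsg.Agent.Helper37.sympForm_invariant (ρ a.1) (hsp a.1) (b i) (b j)
        rw [hb, hb, Cfsg.Agent.Helper37.sympForm_smul_left,
          Cfsg.Agent.Helper37.sympForm_smul_right] at hinv
        by_contra hne
        have h3 : χ i a * χ j a = 1 := by
          have : (χ i a * χ j a - 1) * Cfsg.Agent.Helper37.sympForm F l (b i) (b j) = 0 := by
            linear_combination hinv
          rcases mul_eq_zero.mp this with h | h
          · exact sub_eq_zero.mp h
          · exact absurd h hne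
        apply ha
        calc χ j a = (χ i a * χ i a) * χ j a := by rw [hχ a i, one_mul]
          _ = χ i a * (χ i a * χ j a) := by ring
          _ = χ i a := by rw [h3, mul_one]
    have h1 : ∀ y, Cfsg.Agent.Helper37.sympForm F l (b i) y = 0 := by
      intro y
      rw [← b.sum_repr y, Cfsg.Agent.Helper37.sympForm_sum_right]
      apply Finset.sum_eq_zero
      intro j _
      rw [Cfsg.Agent.Helper37.sympForm_smul_right, h0, mul_zero]
    exact b.ne_zero i (Cfsg.Agent.Helper37.sympForm_nondeg _ h1)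
  let X : Finset (T → F) := Finset.univ.image χ
  have hX : 2 * X.card ≤ N := by
    have h1 : (Finset.univ : Finset (Fin N)).card =
        ∑ c ∈ X, (Finset.univ.filter (fun i => χ i = c)).card :=
      Finset.card_eq_sum_card_image χ Finset.univ
    have h3 : ∀ c ∈ X, 2 ≤ (Finset.univ.filter (fun i => χ i = c)).card := by
      intro c hc
      obtain ⟨i, -, rfl⟩ := Finset.mem_image.mp hc
      obtain ⟨j, hji, hj⟩ := hpart i
      exact Finset.one_lt_card.mpr ⟨i, by simp, j, by simp [hj], hji.symm⟩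
    calc 2 * X.card = ∑ _c ∈ X, 2 := by simp [mul_comm]
      _ ≤ ∑ c ∈ X, (Finset.univ.filter (fun i => χ i = c)).card := Finset.sum_le_sum h3
      _ = N := by rw [← h1]; simp
  have hXl : X.card ≤ Fintype.card l := by
    rw [hN, Fintype.card_sum] at hX
    omega
  have hTcard : Nat.card T ≤ 2 ^ Fintype.card l := by
    have := Cfsg.Agent.Helper37.finite_sq_one (F := F)
    let Ψ : T → (X → {x : F // x * x = 1}) := fun a c => ⟨c.1 a, by
      obtain ⟨i, -, hi⟩ := Finset.mem_image.mp c.2
      rw [← hi]; exact hχ a i⟩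
    have hΨ : Function.Injective Ψ := by
      intro a a' haa
      have h8 : ∀ i, χ i a = χ i a' := fun i => by
        have := congrFun haa ⟨χ i, Finset.mem_image_of_mem χ (Finset.mem_univ i)⟩
        exact congrArg Subtype.val this
      have := hinj a a' h8
      exact Subtype.ext (hρ this)
    calc Nat.card T ≤ Nat.card (X → {x : F // x * x = 1}) :=
          Nat.card_le_card_of_injective Ψ hΨ
      _ = Nat.card {x : F // x * x = 1} ^ X.card := by
          rw [Nat.card_fun]
          congr 1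
          rw [Nat.card_eq_fintype_card, Fintype.card_coe]
      _ ≤ 2 ^ X.card := Nat.pow_le_pow_left Cfsg.Agent.Helper37.card_sq_one_le_two _
      _ ≤ 2 ^ Fintype.card l := Nat.pow_le_pow_right (by norm_num) hXl
  have hNpos : 0 < N := by
    rw [hN, Fintype.card_sum]
    omega
  let Φ : E → (T → F) := fun g t => (if t.1 * g = g * t.1 then 1 else -1) * χ ⟨0, hNpos⟩ t
  have hΦX : ∀ g, Φ g ∈ X := by
    intro g
    have hv : ∀ t : T, ρ t.1 *ᵥ (ρ g *ᵥ b ⟨0, hNpos⟩) = Φ g t • (ρ g *ᵥ b ⟨0, hNpos⟩) := by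
      intro t
      by_cases htg : t.1 * g = g * t.1
      · have : ρ t.1 * ρ g = ρ g * ρ t.1 := by rw [← map_mul, ← map_mul, htg]
        rw [Matrix.mulVec_mulVec, this, ← Matrix.mulVec_mulVec, hb, Matrix.mulVec_smul]
        simp only [Φ, if_pos htg, one_mul]
      · have htg' : t.1 * g = z * (g * t.1) := (hcomm t.1 g).resolve_left htg
        have : ρ t.1 * ρ g = -(ρ g * ρ t.1) := by
          rw [← map_mul, htg', map_mul, hz, map_mul]
          simp
        rw [Matrix.mulVec_mulVec, this, Matrix.neg_mulVec, ← Matrix.mulVec_mulVec, hb,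
          Matrix.mulVec_smul]
        simp only [Φ, if_neg htg]
        rw [neg_one_mul, neg_smul]
    have hv0 : ρ g *ᵥ b ⟨0, hNpos⟩ ≠ 0 := by
      intro h0
      have : ρ g⁻¹ *ᵥ (ρ g *ᵥ b ⟨0, hNpos⟩) = b ⟨0, hNpos⟩ := by
        rw [Matrix.mulVec_mulVec, ← map_mul, inv_mul_cancel, map_one, Matrix.one_mulVec]
      rw [h0, Matrix.mulVec_zero] at this
      exact b.ne_zero ⟨0, hNpos⟩ this.symm
    obtain ⟨j, hj⟩ : ∃ j, b.repr (ρ g *ᵥ b ⟨0, hNpos⟩) j ≠ 0 := by
      by_contra hcon
      push Not at hcon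
      apply hv0
      rw [← b.sum_repr (ρ g *ᵥ b ⟨0, hNpos⟩)]
      apply Finset.sum_eq_zero
      intro j _
      rw [hcon j, zero_smul]
    exact Finset.mem_image.mpr ⟨j, Finset.mem_univ _, funext fun t =>
      weight_of_eigenvector b (ρ t.1) (fun k => χ k t) (fun k => hb t k) _ (Φ g t) (hv t) j hj⟩
  have hfib : ∀ a ∈ Finset.univ.image Φ, (Finset.univ.filter (fun g => Φ g = a)).card ≤
      Nat.card (Subgroup.centralizer (T : Set E)) := by
    intro a ha
    obtain ⟨g₀, -, rfl⟩ := Finset.mem_image.mp ha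
    have e1 : Nat.card (Subgroup.centralizer (T : Set E)) =
        ((Subgroup.centralizer (T : Set E) : Subgroup E) : Set E).ncard :=
      Nat.card_coe_set_eq _
    rw [e1, ← Set.ncard_coe_finset]
    apply Set.ncard_le_ncard_of_injOn (fun h => h * g₀⁻¹)
    · intro h hh
      have hΦ : Φ h = Φ g₀ := by simpa using hh
      rw [SetLike.mem_coe, Subgroup.mem_centralizer_iff]
      intro t ht
      have hiff : (t * h = h * t) ↔ (t * g₀ = g₀ * t) := by
        have h1 := congrFun hΦ ⟨t, ht⟩
        simp only [Φ] at h1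
        have hχ0 : χ ⟨0, hNpos⟩ ⟨t, ht⟩ ≠ 0 := by
          intro h0
          have := hχ ⟨t, ht⟩ ⟨0, hNpos⟩
          rw [h0] at this
          simp at this
        have h3 := mul_right_cancel₀ hχ0 h1
        by_cases hth : t * h = h * t <;> by_cases htg : t * g₀ = g₀ * t
        · simp [hth, htg]
        · exfalso
          rw [if_pos hth, if_neg htg] at h3
          exact h2 (by linear_combination h3)
        · exfalso
          rw [if_neg hth, if_pos htg] at h3
          exact h2 (by linear_combination -h3)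
        · simp [hth, htg]
      have hconj : h⁻¹ * t * h = g₀⁻¹ * t * g₀ := by
        by_cases hth : t * h = h * t
        · have htg := hiff.mp hth
          calc h⁻¹ * t * h = h⁻¹ * (t * h) := by group
            _ = h⁻¹ * (h * t) := by rw [hth]
            _ = g₀⁻¹ * (g₀ * t) := by group
            _ = g₀⁻¹ * (t * g₀) := by rw [htg]
            _ = g₀⁻¹ * t * g₀ := by group
        · have htg : ¬ t * g₀ = g₀ * t := fun h' => hth (hiff.mpr h')
          have hth' : t * h = z * (h * t) := (hcomm t h).resolve_left hth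
          have htg' : t * g₀ = z * (g₀ * t) := (hcomm t g₀).resolve_left htg
          calc h⁻¹ * t * h = h⁻¹ * (t * h) := by group
            _ = h⁻¹ * (z * (h * t)) := by rw [hth']
            _ = (h⁻¹ * z) * h * t := by group
            _ = (z * h⁻¹) * h * t := by rw [hzc h⁻¹]
            _ = (z * g₀⁻¹) * g₀ * t := by group
            _ = (g₀⁻¹ * z) * g₀ * t := by rw [hzc g₀⁻¹]
            _ = g₀⁻¹ * (z * (g₀ * t)) := by group
            _ = g₀⁻¹ * (t * g₀) := by rw [htg']
            _ = g₀⁻¹ * t * g₀ := by group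
      calc t * (h * g₀⁻¹) = h * (h⁻¹ * t * h) * g₀⁻¹ := by group
        _ = h * (g₀⁻¹ * t * g₀) * g₀⁻¹ := by rw [hconj]
        _ = h * g₀⁻¹ * t := by group
    · intro h _ h' _ heq
      exact mul_right_cancel heq
  have hcard : Nat.card E ≤ Nat.card (Subgroup.centralizer (T : Set E)) * X.card := by
    rw [Nat.card_eq_fintype_card, ← Finset.card_univ]
    calc (Finset.univ : Finset E).card
        ≤ Nat.card (Subgroup.centralizer (T : Set E)) * (Finset.univ.image Φ).card :=
          Finset.card_le_mul_card_image _ _ hfib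
      _ ≤ Nat.card (Subgroup.centralizer (T : Set E)) * X.card :=
          Nat.mul_le_mul_left _ (Finset.card_le_card (fun a ha => by
            obtain ⟨g, -, rfl⟩ := Finset.mem_image.mp ha
            exact hΦX g))
  calc Nat.card E ≤ Nat.card (Subgroup.centralizer (T : Set E)) * X.card := hcard
    _ ≤ (4 * 2 ^ Fintype.card l) * Fintype.card l :=
        Nat.mul_le_mul (hC.trans (Nat.mul_le_mul_left 4 hTcard)) hXl
    _ = Fintype.card l * (4 * 2 ^ Fintype.card l) := mul_comm _ _

end symp

section psp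

variable {F : Type*} [Field F] [Fintype F]

theorem two_mul_lt_two_pow (n : ℕ) (hn : 3 ≤ n) : 2 * n < 2 ^ n := by
  induction n, hn using Nat.le_induction with
  | base => norm_num
  | succ k hk ih =>
    have h1 : 2 ≤ 2 ^ k := by
      calc 2 = 2 ^ 1 := by norm_num
        _ ≤ 2 ^ k := Nat.pow_le_pow_right (by norm_num) (by omega)
    rw [pow_succ]
    omega

/-- The 2-rank of `PSp_{2n}(F)`, `n ≥ 3`, `2 ≠ 0`, is less than `2n`. -/
theorem psp_rank_lt (h2 : (2 : F) ≠ 0) (n : ℕ) (hn : 3 ≤ n) (A : Subgroup (Cfsg.PSp n F))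
    (hAc : ∀ a ∈ A, ∀ b ∈ A, a * b = b * a) (hA2 : ∀ a ∈ A, a ^ 2 = 1) :
    Nat.card A < 2 ^ (2 * n) := by
  classical
  have hcardE : Nat.card (A.comap (QuotientGroup.mk'
      (Subgroup.center (Matrix.symplecticGroup (Fin n) F)))) = 2 * Nat.card A := by
    have h1 := QuotientGroup.card_preimage_mk
      (Subgroup.center (Matrix.symplecticGroup (Fin n) F)) (A : Set (Cfsg.PSp n F))
    rw [Cfsg.Agent.Helper5.card_sp_center_of_two_ne (by omega) h2] at h1
    exact h1
  have hmemE : ∀ g : Matrix.symplecticGroup (Fin n) F,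
      g ∈ A.comap (QuotientGroup.mk' (Subgroup.center (Matrix.symplecticGroup (Fin n) F))) ↔
      (QuotientGroup.mk g : Cfsg.PSp n F) ∈ A := fun g => Iff.rfl
  generalize A.comap (QuotientGroup.mk'
      (Subgroup.center (Matrix.symplecticGroup (Fin n) F))) = E at hcardE hmemE
  have hρ : Function.Injective
      ((Matrix.symplecticGroup (Fin n) F).subtype.comp E.subtype) :=
    fun a b h => Subtype.ext (Subtype.ext h)
  have hnegmem : (⟨-1, Cfsg.Agent.Helper5.sp_neg_one_mem⟩ : Matrix.symplecticGroup (Fin n) F)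
      ∈ E := by
    rw [hmemE]
    have : (⟨-1, Cfsg.Agent.Helper5.sp_neg_one_mem⟩ : Matrix.symplecticGroup (Fin n) F) ∈
        Subgroup.center (Matrix.symplecticGroup (Fin n) F) :=
      (Cfsg.Agent.Helper5.sp_mem_center_iff _).mpr (Or.inr rfl)
    rw [(QuotientGroup.eq_one_iff _).mpr this]
    exact A.one_mem
  have hcen : ∀ c : Matrix.symplecticGroup (Fin n) F,
      c ∈ Subgroup.center (Matrix.symplecticGroup (Fin n) F) →
      c = 1 ∨ c = ⟨-1, Cfsg.Agent.Helper5.sp_neg_one_mem⟩ := by
    intro c hc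
    rcases (Cfsg.Agent.Helper5.sp_mem_center_iff c).mp hc with h | h
    · left; exact Subtype.ext h
    · right; exact Subtype.ext h
  have hsq : ∀ g : E, g * g = 1 ∨ g * g = ⟨_, hnegmem⟩ := by
    intro g
    have h1 : (QuotientGroup.mk g.1 : Cfsg.PSp n F) ^ 2 = 1 := hA2 _ ((hmemE _).mp g.2)
    rw [← QuotientGroup.mk_pow, QuotientGroup.eq_one_iff, pow_two] at h1
    rcases hcen _ h1 with h | h
    · left; exact Subtype.ext h
    · right; exact Subtype.ext h
  have hcomm : ∀ g h : E, g * h = h * g ∨ g * h = ⟨_, hnegmem⟩ * (h * g) := by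
    intro g h
    have h1 := hAc _ ((hmemE _).mp g.2) _ ((hmemE _).mp h.2)
    rw [← QuotientGroup.mk_mul, ← QuotientGroup.mk_mul, QuotientGroup.eq] at h1
    rcases hcen _ h1 with h3 | h3
    · left
      apply Subtype.ext
      exact (inv_mul_eq_one.mp h3)
    · right
      have h4 : h.1 * g.1 = g.1 * h.1 * ⟨-1, Cfsg.Agent.Helper5.sp_neg_one_mem⟩ :=
        inv_mul_eq_iff_eq_mul.mp h3
      have h5 := congrArg (fun x : Matrix.symplecticGroup (Fin n) F =>
        (x : Matrix (Fin n ⊕ Fin n) (Fin n ⊕ Fin n) F)) h4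
      simp only [Submonoid.coe_mul] at h5
      apply Subtype.ext
      apply Subtype.ext
      show (g.1.1 * h.1.1 : Matrix (Fin n ⊕ Fin n) (Fin n ⊕ Fin n) F) = (-1) * (h.1.1 * g.1.1)
      rw [h5]
      simp
  have hbound := card_le_of_symp h2 ((Matrix.symplecticGroup (Fin n) F).subtype.comp E.subtype)
    hρ (fun g => g.1.2) ⟨_, hnegmem⟩ rfl hsq hcomm (by simp; omega)
  rw [Fintype.card_fin, hcardE] at hbound
  by_contra hlt
  push Not at hlt
  have h1 : 2 * 2 ^ (2 * n) ≤ n * (4 * 2 ^ n) := (Nat.mul_le_mul_left 2 hlt).trans hbound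
  have h3 := two_mul_lt_two_pow n hn
  have h4 : (2 : ℕ) ^ (2 * n) = 2 ^ n * 2 ^ n := by rw [two_mul, pow_add]
  have hP : 0 < 2 ^ n := Nat.pow_pos (by norm_num)
  have h5 : 2 * n * 2 ^ n < 2 ^ n * 2 ^ n := Nat.mul_lt_mul_of_pos_right h3 hP
  rw [h4] at h1
  nlinarith [h1, h5]

end psp

end Cfsg.Agent.Helper14
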