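import Mathlib
import Cfsg.Agent.Helper97.TGDefs
import Cfsg.Agent.Helper13.SLCyc

set_option autoImplicit false

/-!
Pieces SU1, SU2, S31, S32 of CALL S2414 (helper97): the action of the auxiliary elements `sU`, `s3`
on the hyperbolic basis.
-/

universe u

namespace Cfsg.Agent.Helper14

open Cfsg Matrix Cfsg.Agent.Helper45 Cfsg.Agent.Helper98 Cfsg.Agent.Helper97.TG

variable {m : ℕ} {F : Type u} [Field F]

/-- SU1 -/
theorem tg_sU_fV (a b : Fin m) (hab : a ≠ b) :
    mv ⇑(QP m F) (sU a b hab) (fV m F b) = eV m F a := by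
  unfold sU
  rw [mv_eichO]
  unfold Helper44.eich
  have hba : b ≠ a := fun h => hab h.symm
  have h1 : QuadraticMap.polar ⇑(QP m F) (eV m F b + fV m F a) (fV m F b) = 1 := by
    rw [polar_fV_right]
    simp
  have h2 : QuadraticMap.polar ⇑(QP m F) (eV m F a - fV m F b) (fV m F b) = 0 := by
    rw [polar_fV_right]
    simp [hba]
  rw [h1, h2]
  simp only [mul_zero, sub_zero, one_smul, zero_smul]
  abel

/-- SU2 -/
theorem tg_sU_eV (a b c : Fin m) (hab : a ≠ b) (hca : c ≠ a) (hcb : c ≠ b) :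
    mv ⇑(QP m F) (sU a b hab) (eV m F c) = eV m F c := by
  unfold sU
  rw [mv_eichO]
  unfold Helper44.eich
  have h1 : QuadraticMap.polar ⇑(QP m F) (eV m F b + fV m F a) (eV m F c) = 0 := by
    rw [polar_eV_right]
    simp [hca]
  have h2 : QuadraticMap.polar ⇑(QP m F) (eV m F a - fV m F b) (eV m F c) = 0 := by
    rw [polar_eV_right]
    simp [hcb]
  rw [h1, h2]
  simp only [mul_zero, sub_zero, zero_smul, add_zero]

/-- S31 -/
theorem tg_s3_eV_b (a b : Fin m) (hab : a ≠ b) :
    mv ⇑(QP m F) (s3 a b) (eV m F b) = fV m F a := by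
  unfold s3
  rw [mv_mul, mv_eichO, mv_eichO]
  unfold Helper44.eich
  have hba : b ≠ a := fun h => hab h.symm
  have h1 : QuadraticMap.polar ⇑(QP m F) (fV m F b) (eV m F b) = 1 := by
    rw [polar_fV_left]
    simp
  have h2 : QuadraticMap.polar ⇑(QP m F) (fV m F a) (eV m F b) = 0 := by
    rw [polar_fV_left]
    simp [hab]
  rw [h1, h2]
  simp only [mul_zero, sub_zero, one_smul, zero_smul]
  have h3 : QuadraticMap.polar ⇑(QP m F) (eV m F b) (eV m F b + fV m F a) = 0 := by
    rw [polar_eV_left]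
    simp [hba]
  have h4 : QuadraticMap.polar ⇑(QP m F) (eV m F a) (eV m F b + fV m F a) = 1 := by
    rw [polar_eV_left]
    simp
  rw [h3, h4, QP_eV]
  simp only [mul_one, sub_zero, zero_smul, one_smul, add_zero]
  abel

/-- S32 -/
theorem tg_s3_eV (a b c : Fin m) (hca : c ≠ a) (hcb : c ≠ b) :
    mv ⇑(QP m F) (s3 a b) (eV m F c) = eV m F c := by
  unfold s3
  rw [mv_mul, mv_eichO, mv_eichO]
  unfold Helper44.eich
  have hac : a ≠ c := fun h => hca h.symm
  have hbc : b ≠ c := fun h => hcb h.symm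
  have h1 : QuadraticMap.polar ⇑(QP m F) (fV m F b) (eV m F c) = 0 := by
    rw [polar_fV_left]
    simp [hbc]
  have h2 : QuadraticMap.polar ⇑(QP m F) (fV m F a) (eV m F c) = 0 := by
    rw [polar_fV_left]
    simp [hac]
  rw [h1, h2]
  simp only [mul_zero, sub_zero, zero_smul, add_zero]
  have h3 : QuadraticMap.polar ⇑(QP m F) (eV m F b) (eV m F c) = 0 := by
    rw [polar_eV_left]
    simp
  have h4 : QuadraticMap.polar ⇑(QP m F) (eV m F a) (eV m F c) = 0 := by
    rw [polar_eV_left]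
    simp
  rw [h3, h4]
  simp only [mul_zero, sub_zero, zero_smul, add_zero]

end Cfsg.Agent.Helper14
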