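import Cfsg.Agent.Helper14.ThreeTrans9
import Cfsg.Prelude.Def_FischerSpaces

/-!
# 3-transpositions: primitivity and invariant equivalence relations (helper14)

* `InvEquiv r`: a conjugation-invariant equivalence relation on the group; `RelPrim D`: such a
  relation identifying two distinct members of `D` identifies all of them.
* `primitive_of_relPrim`, `relPrim_of_primitive`: `RelPrim D` is `Cfsg.IsPrimitiveUnderConj D`.
* `relPrim_of_simple`, `relPrim_qs`: primitivity when the commutator subgroup is simple, or when a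
  quasisimple normal subgroup has index at most two.
* `CR`, `Conn`, `connected_iff`: connectivity of the commuting graph as a chain condition.
-/

set_option autoImplicit false

namespace Cfsg.Agent.Helper14.TT

open scoped commutatorElement

variable {G : Type*} [Group G]

/-- `IsTT` from the order conditions, closure under conjugation, transitivity and generation. -/
theorem isTT_of_set {D : Set G} (hS : Cfsg.IsThreeTranspositionSet D)
    (hconj : ∀ g : G, ∀ d ∈ D, g * d * g⁻¹ ∈ D)
    (htr : ∀ a ∈ D, ∀ b ∈ D, ∃ g : G, g * a * g⁻¹ = b) (hgen : Subgroup.closure D = ⊤) :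
    IsTT D := by
  obtain ⟨hord, h23⟩ := hS
  have hsq : ∀ d ∈ D, d * d = 1 := by
    intro d hd
    have := pow_orderOf_eq_one d
    rw [hord d hd, pow_two] at this
    exact this
  refine ⟨hsq, fun d hd g => hconj g d hd, ?_, htr, hgen⟩
  intro d hd e he hde
  have hdi : d⁻¹ = d := inv_eq_of_mul_eq_one_right (hsq d hd)
  have hei : e⁻¹ = e := inv_eq_of_mul_eq_one_right (hsq e he)
  rcases h23 d hd e he with h | h
  · exfalso
    apply hde
    have h' : d * e = (d * e)⁻¹ := by
      rw [pow_two] at h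
      exact eq_inv_of_mul_eq_one_left h
    rw [mul_inv_rev, hdi, hei] at h'
    exact h'
  · have h' : (d * e * d) * (e * d * e) = 1 := by
      rw [← h, pow_succ, pow_succ, pow_one]; group
    have h'' : d * e * d = (e * d * e)⁻¹ := eq_inv_of_mul_eq_one_left h'
    rw [h'', mul_inv_rev, mul_inv_rev, hdi, hei]; group

/-- A conjugation-invariant equivalence relation on a group. -/
structure InvEquiv (r : G → G → Prop) : Prop where
  refl : ∀ x, r x x
  symm : ∀ x y, r x y → r y x
  trans : ∀ x y z, r x y → r y z → r x z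
  conj : ∀ g x y, r x y → r (g * x * g⁻¹) (g * y * g⁻¹)

/-- Primitivity in terms of relations: an invariant equivalence relation identifying two distinct
members of `D` identifies all members of `D`. -/
def RelPrim (D : Set G) : Prop :=
  ∀ r : G → G → Prop, InvEquiv r → ∀ x ∈ D, ∀ y ∈ D, x ≠ y → r x y → ∀ z ∈ D, r x z

theorem relPrim_of_simple {D : Set G} (hD : IsTT D) (hs : IsSimpleGroup (commutator G)) :
    RelPrim D := fun r hr _ hx _ hy hxy hrxy =>
  prim hD hs r hr.refl hr.symm hr.trans hr.conj hx hy hxy hrxy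

/-- The congruence modulo a normal subgroup is an invariant equivalence relation. -/
theorem invEquiv_coset (N : Subgroup G) (hN : N.Normal) :
    InvEquiv (fun u v : G => u⁻¹ * v ∈ N) := by
  refine ⟨fun x => by simp, ?_, ?_, ?_⟩
  · intro x y h
    have := inv_mem h
    rwa [mul_inv_rev, inv_inv] at this
  · intro x y z h1 h2
    have := mul_mem h1 h2
    have e : x⁻¹ * y * (y⁻¹ * z) = x⁻¹ * z := by group
    rwa [e] at this
  · intro g x y h
    have := hN.conj_mem _ h g
    have e : g * (x⁻¹ * y) * g⁻¹ = (g * x * g⁻¹)⁻¹ * (g * y * g⁻¹) := by group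
    rwa [e] at this

/-- `RelPrim` gives primitivity in the sense of blocks. -/
theorem primitive_of_relPrim {D : Set G} (hD : IsTT D) (h2 : ∃ a ∈ D, ∃ b ∈ D, a ≠ b)
    (h : RelPrim D) : Cfsg.IsPrimitiveUnderConj D := by
  refine ⟨hD.isConj, h2, ?_⟩
  intro B hBD hblock
  by_cases hsub : B.Subsingleton
  · exact Or.inl hsub
  · right
    rw [Set.not_subsingleton_iff] at hsub
    obtain ⟨x, hx, y, hy, hxy⟩ := hsub
    have hmem : ∀ g u, u ∈ (fun x => g * x * g⁻¹) '' B ↔ g⁻¹ * u * g ∈ B := by
      intro g u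
      constructor
      · rintro ⟨v, hv, rfl⟩
        have e : g⁻¹ * (g * v * g⁻¹) * g = v := by group
        rw [e]; exact hv
      · intro hu
        exact ⟨g⁻¹ * u * g, hu, by group⟩
    have hblk : ∀ g u, g⁻¹ * u * g ∈ B → u ∈ B → ∀ v, g⁻¹ * v * g ∈ B ↔ v ∈ B := by
      intro g u hu1 hu2 v
      rcases hblock g with heq | hdisj
      · rw [← hmem g v, heq]
      · exfalso
        exact Set.disjoint_left.mp hdisj ((hmem g u).mpr hu1) hu2
    obtain ⟨r, hrdef⟩ : ∃ r : G → G → Prop,
        r = fun u v => u = v ∨ ∃ g, g⁻¹ * u * g ∈ B ∧ g⁻¹ * v * g ∈ B := ⟨_, rfl⟩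
    have hr : InvEquiv r := by
      rw [hrdef]
      refine ⟨fun x => Or.inl rfl, ?_, ?_, ?_⟩
      · rintro u v (rfl | ⟨g, h1, h2⟩)
        · exact Or.inl rfl
        · exact Or.inr ⟨g, h2, h1⟩
      · rintro u v w (rfl | ⟨g, h1, h2⟩) hvw
        · exact hvw
        · rcases hvw with rfl | ⟨k, h3, h4⟩
          · exact Or.inr ⟨g, h1, h2⟩
          · right
            refine ⟨g, h1, ?_⟩
            have e1 : (g⁻¹ * k)⁻¹ * (g⁻¹ * v * g) * (g⁻¹ * k) = k⁻¹ * v * k := by group
            have e2 : (g⁻¹ * k)⁻¹ * (g⁻¹ * w * g) * (g⁻¹ * k) = k⁻¹ * w * k := by group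
            have := hblk (g⁻¹ * k) (g⁻¹ * v * g) (by rw [e1]; exact h3) h2 (g⁻¹ * w * g)
            rw [e2] at this
            exact this.mp h4
      · rintro k u v (rfl | ⟨g, h1, h2⟩)
        · exact Or.inl rfl
        · right
          refine ⟨k * g, ?_, ?_⟩
          · have e : (k * g)⁻¹ * (k * u * k⁻¹) * (k * g) = g⁻¹ * u * g := by group
            rw [e]; exact h1
          · have e : (k * g)⁻¹ * (k * v * k⁻¹) * (k * g) = g⁻¹ * v * g := by group
            rw [e]; exact h2
    have hrxy : r x y := by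
      rw [hrdef]
      exact Or.inr ⟨1, by simpa using hx, by simpa using hy⟩
    have hall := h r hr x (hBD hx) y (hBD hy) hxy hrxy
    apply Set.Subset.antisymm hBD
    intro z hz
    have hz' := hall z hz
    rw [hrdef] at hz'
    rcases hz' with rfl | ⟨g, h1, h2⟩
    · exact hx
    · exact (hblk g x h1 hx z).mp h2

/-- Primitivity in the sense of blocks gives `RelPrim`. -/
theorem relPrim_of_primitive {D : Set G} (hconj : ∀ d ∈ D, ∀ g : G, g * d * g⁻¹ ∈ D)
    (hp : Cfsg.IsPrimitiveUnderConj D) : RelPrim D := by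
  intro r hr x hx y hy hxy hrxy z hz
  obtain ⟨B, hBdef⟩ : ∃ B : Set G, B = {u | u ∈ D ∧ r x u} := ⟨_, rfl⟩
  have hBD : B ⊆ D := by rw [hBdef]; exact fun u hu => hu.1
  have hblock : ∀ g : G, (fun x => g * x * g⁻¹) '' B = B ∨
      Disjoint ((fun x => g * x * g⁻¹) '' B) B := by
    intro g
    by_cases hg : r x (g * x * g⁻¹)
    · left
      ext u
      constructor
      · rintro ⟨v, hv, rfl⟩
        rw [hBdef] at hv ⊢
        exact ⟨hconj v hv.1 g, hr.trans _ _ _ hg (hr.conj g _ _ hv.2)⟩
      · intro hu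
        rw [hBdef] at hu
        refine ⟨g⁻¹ * u * g, ?_, by group⟩
        rw [hBdef]
        refine ⟨?_, ?_⟩
        · have := hconj u hu.1 g⁻¹; rwa [inv_inv] at this
        · have h1 := hr.trans _ _ _ (hr.symm _ _ hg) hu.2
          have h2 := hr.conj g⁻¹ _ _ h1
          have e : g⁻¹ * (g * x * g⁻¹) * g⁻¹⁻¹ = x := by group
          rw [e, inv_inv] at h2
          exact h2
    · right
      rw [Set.disjoint_left]
      rintro u ⟨v, hv, rfl⟩ hu
      rw [hBdef] at hv hu
      apply hg
      exact hr.trans _ _ _ hu.2 (hr.symm _ _ (hr.conj g _ _ hv.2))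
  rcases hp.2.2 B hBD hblock with hsub | heq
  · exfalso
    apply hxy
    apply hsub
    · rw [hBdef]; exact ⟨hx, hr.refl x⟩
    · rw [hBdef]; exact ⟨hy, hrxy⟩
  · have : z ∈ B := by rw [heq]; exact hz
    rw [hBdef] at this
    exact this.2

/-- The kernel of the action on the classes of an invariant equivalence relation: a normal
subgroup containing the product of any two equivalent members of `D`. -/
theorem prim_ker {D : Set G} (hD : IsTT D) (r : G → G → Prop) (hr : InvEquiv r) :
    ∃ K : Subgroup G, K.Normal ∧ (∀ g, g ∈ K ↔ ∀ d ∈ D, r (g * d * g⁻¹) d) ∧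
      ∀ x ∈ D, ∀ y ∈ D, r x y → x * y ∈ K := by
  obtain ⟨hrefl, hsymm, htrans, hinv⟩ := hr
  let K : Subgroup G :=
    { carrier := {g | ∀ d ∈ D, r (g * d * g⁻¹) d}
      one_mem' := fun d _ => by simpa using hrefl d
      mul_mem' := by
        intro g h hg hh d hd
        have h1 := hinv g _ _ (hh d hd)
        have h2 := hg d hd
        have e : g * h * d * (g * h)⁻¹ = g * (h * d * h⁻¹) * g⁻¹ := by group
        rw [e]; exact htrans _ _ _ h1 h2
      inv_mem' := by
        intro g hg d hd
        have h1 := hinv g⁻¹ _ _ (hg d hd)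
        have e : g⁻¹ * (g * d * g⁻¹) * g⁻¹⁻¹ = d := by group
        rw [e] at h1
        exact hsymm _ _ h1 }
  have hKmem : ∀ g : G, g ∈ K ↔ ∀ d ∈ D, r (g * d * g⁻¹) d := fun g => Iff.rfl
  have hKn : K.Normal := by
    constructor
    intro g hg n
    rw [hKmem] at hg ⊢
    intro d hd
    have hd' : n⁻¹ * d * n ∈ D := hD.conj_mem' n hd
    have h1 := hinv n _ _ (hg _ hd')
    have e1 : n * (g * (n⁻¹ * d * n) * g⁻¹) * n⁻¹ = n * g * n⁻¹ * d * (n * g * n⁻¹)⁻¹ := by
      group
    have e2 : n * (n⁻¹ * d * n) * n⁻¹ = d := by group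
    rw [e1, e2] at h1; exact h1
  refine ⟨K, hKn, hKmem, ?_⟩
  intro x hx y hy hrxy
  have hxi := hD.inv_eq hx
  have hyi := hD.inv_eq hy
  rw [hKmem]
  intro d hd
  have hkey : r (y * d * y⁻¹) (x * d * x⁻¹) := by
    by_cases hdx : Commute d x
    · have e : x * d * x⁻¹ = d := by rw [← hdx.eq, mul_assoc, mul_inv_cancel, mul_one]
      rw [e]
      exact prim_aux hD r hrefl hsymm htrans hinv hy hd hrxy hdx
    · by_cases hdy : Commute d y
      · have e : y * d * y⁻¹ = d := by rw [← hdy.eq, mul_assoc, mul_inv_cancel, mul_one]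
        rw [e]
        exact hsymm _ _ (prim_aux hD r hrefl hsymm htrans hinv hx hd (hsymm _ _ hrxy) hdy)
      · have hxd : ¬ Commute x d := fun h => hdx h.symm
        have hyd : ¬ Commute y d := fun h => hdy h.symm
        have hbx : x * d * x⁻¹ = d * x * d⁻¹ := by
          rw [hxi, hD.inv_eq hd]; exact hD.braid x hx d hd hxd
        have hby : y * d * y⁻¹ = d * y * d⁻¹ := by
          rw [hyi, hD.inv_eq hd]; exact hD.braid y hy d hd hyd
        rw [hbx, hby]
        exact hinv d _ _ (hsymm _ _ hrxy)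
  have h := hinv x _ _ hkey
  have e1 : x * (y * d * y⁻¹) * x⁻¹ = x * y * d * (x * y)⁻¹ := by group
  have e2 : x * (x * d * x⁻¹) * x⁻¹ = d := by
    rw [hxi]
    calc x * (x * d * x) * x = (x * x) * d * (x * x) := by group
      _ = d := by rw [hD.sq x hx]; group
  rw [e1, e2] at h; exact h

/-- If a subgroup acting trivially on the classes contains all the products `d * x`, `d ∈ D`,
then all members of `D` are equivalent to `x`. -/
theorem rel_of_mul_mem_ker {D : Set G} (hD : IsTT D) (r : G → G → Prop) (hr : InvEquiv r)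
    (K : Subgroup G) (hK : ∀ g ∈ K, ∀ d ∈ D, r (g * d * g⁻¹) d) {x : G} (hx : x ∈ D)
    (hDK : ∀ d ∈ D, d * x ∈ K) : ∀ z ∈ D, r x z := by
  obtain ⟨hrefl, hsymm, htrans, hinv⟩ := hr
  let S : Subgroup G :=
    { carrier := {g | r (g * x * g⁻¹) x}
      one_mem' := by simpa using hrefl x
      mul_mem' := by
        intro g h hg hh
        have h1 := hinv g _ _ hh
        have e : g * h * x * (g * h)⁻¹ = g * (h * x * h⁻¹) * g⁻¹ := by group
        show r (g * h * x * (g * h)⁻¹) x
        rw [e]; exact htrans _ _ _ h1 hg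
      inv_mem' := by
        intro g hg
        have h1 := hinv g⁻¹ _ _ hg
        have e : g⁻¹ * (g * x * g⁻¹) * g⁻¹⁻¹ = x := by group
        rw [e] at h1
        exact hsymm _ _ h1 }
  have hSmem : ∀ g : G, g ∈ S ↔ r (g * x * g⁻¹) x := fun g => Iff.rfl
  have hDS : D ⊆ S := by
    intro d hd
    rw [SetLike.mem_coe, hSmem]
    have h := hK _ (hDK d hd) x hx
    have e : d * x * x * (d * x)⁻¹ = d * x * d⁻¹ := by group
    rwa [e] at h
  have hStop : S = ⊤ := by
    rw [eq_top_iff, ← hD.gen]
    exact (Subgroup.closure_le S).mpr hDS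
  intro z hz
  obtain ⟨g, rfl⟩ := hD.isConj x hx z hz
  have : g ∈ S := by rw [hStop]; exact Subgroup.mem_top g
  exact hsymm _ _ ((hSmem g).mp this)

/-- Two distinct members of `D`: some member does not commute with the first. -/
theorem exists_not_commute {D : Set G} (hD : IsTT D) {x y : G} (hx : x ∈ D) (hy : y ∈ D)
    (hxy : x ≠ y) : ∃ d ∈ D, ¬ Commute x d := by
  by_contra hall
  push Not at hall
  apply hxy
  have htop : Subgroup.centralizer ({x} : Set G) = ⊤ := by
    rw [eq_top_iff, ← hD.gen, Subgroup.closure_le]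
    intro d hd
    rw [SetLike.mem_coe, Subgroup.mem_centralizer_singleton_iff]
    exact (hall d hd).eq.symm
  obtain ⟨g, rfl⟩ := hD.isConj x hx y hy
  have hg : g ∈ Subgroup.centralizer ({x} : Set G) := by rw [htop]; exact Subgroup.mem_top g
  rw [Subgroup.mem_centralizer_singleton_iff] at hg
  rw [hg, mul_assoc, mul_inv_cancel, mul_one]

end Cfsg.Agent.Helper14.TT
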