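import Cfsg.Agent.Helper14.ThreeTrans10

/-!
# 3-transpositions: primitivity, connectivity and quasisimple subgroups of index two (helper14)

* `relPrim_qs`: if a quasisimple normal subgroup `L` contains all products of two members of `D`
  and `O_3(G)` is central, then `G` is primitive on `D`.
* `CR`, `Conn`, `connected_iff`: connectivity of the commuting graph as a chain condition;
  `conn_of_relPrim`, `mul_mem_of_conn`, `index_le_two_of_mul_mem`, `mul_mem_of_index_le_two`.
* `pCore_two_le_center_of_relPrim`, `pCore_three_le_center_of_relPrim`.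
* `commutator_simple_of_conn`.
-/

set_option autoImplicit false

namespace Cfsg.Agent.Helper14.TT

open scoped commutatorElement

variable {G : Type*} [Group G]

/-- **Primitivity from a quasisimple normal subgroup of index at most two.** -/
theorem relPrim_qs {D : Set G} (hD : IsTT D) (h3 : Cfsg.pCore 3 G ≤ Subgroup.center G)
    (L : Subgroup G) (_hLn : L.Normal) (hL : Cfsg.IsQuasisimple L)
    (hDL : ∀ d ∈ D, ∀ e ∈ D, d * e ∈ L) : RelPrim D := by
  intro r hr x hx y hy hxy hrxy
  obtain ⟨K, hKn, hKmem, hKD⟩ := prim_ker hD r hr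
  have hxyK := hKD x hx y hy hrxy
  have hn : (K.subgroupOf L).Normal := hKn.subgroupOf L
  rcases Cfsg.Agent.Helper22.quasisimple_normal hL _ hn with h | h
  · have hLK : L ≤ K := Subgroup.subgroupOf_eq_top.mp h
    exact rel_of_mul_mem_ker hD r hr K (fun g hg => (hKmem g).mp hg) hx
      (fun d hd => hLK (hDL d hd x hx))
  · exfalso
    obtain ⟨z₀, hz₀⟩ : ∃ z₀, z₀ = x * y := ⟨_, rfl⟩
    have hz₀L : z₀ ∈ L := by rw [hz₀]; exact hDL x hx y hy
    have hz₀c : ∀ l ∈ L, l * z₀ = z₀ * l := by
      intro l hl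
      have hm : (⟨z₀, hz₀L⟩ : L) ∈ K.subgroupOf L := by
        rw [Subgroup.mem_subgroupOf]; show z₀ ∈ K; rw [hz₀]; exact hxyK
      have := Subgroup.mem_center_iff.mp (h hm) ⟨l, hl⟩
      exact congrArg Subtype.val this
    have hxi := hD.inv_eq hx
    have hyi := hD.inv_eq hy
    have hz₀1 : z₀ ≠ 1 := by
      intro h1
      apply hxy
      rw [hz₀] at h1
      have : x = y⁻¹ := eq_inv_of_mul_eq_one_left h1
      rw [this, hyi]
    have hz₀inv : z₀⁻¹ = y * x := by rw [hz₀, mul_inv_rev, hxi, hyi]
    have e1 : x * z₀ * x = z₀⁻¹ := by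
      rw [hz₀inv, hz₀]
      calc x * (x * y) * x = (x * x) * y * x := by group
        _ = y * x := by rw [hD.sq x hx, one_mul]
    have hinvt : ∀ d ∈ D, d * z₀ * d⁻¹ = z₀⁻¹ := by
      intro d hd
      have hdx : Commute (d * x) z₀ := hz₀c _ (hDL d hd x hx)
      calc d * z₀ * d⁻¹ = d * (x * x) * z₀ * (x * x) * d⁻¹ := by rw [hD.sq x hx]; group
        _ = (d * x) * (x * z₀ * x) * (x⁻¹ * d⁻¹) := by rw [hxi]; group
        _ = (d * x) * z₀⁻¹ * (d * x)⁻¹ := by rw [e1, mul_inv_rev]
        _ = z₀⁻¹ := by rw [(hdx.inv_right).eq]; group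
    rcases hD.sq_or_cube hx hy with h2' | h3'
    · rw [← hz₀] at h2'
      have hzz : z₀⁻¹ = z₀ := by
        have : z₀ * z₀ = 1 := by rw [← pow_two]; exact h2'
        exact inv_eq_of_mul_eq_one_left this
      have hcomm : ∀ d ∈ D, Commute d z₀ := by
        intro d hd
        have := hinvt d hd
        rw [hzz] at this
        exact mul_inv_eq_iff_eq_mul.mp this
      obtain ⟨d, hd, hdx⟩ := exists_not_commute hD hx hy hxy
      have hyxz : y = x * z₀ := by rw [hz₀, ← mul_assoc, hD.sq x hx, one_mul]
      have hc3 := hD.cube_of_not_commute hx hd hdx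
      have e : y * d = z₀ * (x * d) := by rw [hyxz, (hcomm x hx).eq]; group
      have hzc : Commute z₀ (x * d) := ((hcomm x hx).symm).mul_right ((hcomm d hd).symm)
      rcases hD.sq_or_cube hy hd with h | h
      · rw [e, hzc.mul_pow, h2', one_mul] at h
        exact hdx (hD.commute_of_sq hx hd h)
      · rw [e, hzc.mul_pow, hc3, mul_one] at h
        exact hz₀1 (eq_one_of_sq_of_cube h2' h)
    · rw [← hz₀] at h3'
      have hnorm : (Subgroup.zpowers z₀).Normal := by
        rw [← Subgroup.normalizer_eq_top_iff, eq_top_iff, ← hD.gen, Subgroup.closure_le]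
        intro d hd
        rw [SetLike.mem_coe, Subgroup.mem_normalizer_iff_map_conj_eq, MonoidHom.map_zpowers]
        have : (MulAut.conj d) z₀ = z₀⁻¹ := by rw [MulAut.conj_apply]; exact hinvt d hd
        show Subgroup.zpowers ((MulAut.conj d) z₀) = Subgroup.zpowers z₀
        rw [this, Subgroup.zpowers_inv]
      have hpg : IsPGroup 3 (Subgroup.zpowers z₀) := by
        rintro ⟨u, hu⟩
        obtain ⟨k, rfl⟩ := Subgroup.mem_zpowers_iff.mp hu
        refine ⟨1, Subtype.ext ?_⟩
        show (z₀ ^ k) ^ 3 ^ 1 = 1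
        rw [pow_one, ← zpow_natCast, ← zpow_mul, mul_comm, zpow_mul, zpow_natCast, h3',
          one_zpow]
      have hle : Subgroup.zpowers z₀ ≤ Cfsg.pCore 3 G := le_sSup ⟨hnorm, hpg⟩
      have hzc : z₀ ∈ Subgroup.center G := h3 (hle (Subgroup.mem_zpowers z₀))
      have h1 := hinvt x hx
      have h2' : x * z₀ * x⁻¹ = z₀ := by
        have := Subgroup.mem_center_iff.mp hzc x
        rw [this, mul_assoc, mul_inv_cancel, mul_one]
      have hsq : z₀ ^ 2 = 1 := by
        rw [pow_two]
        have hzz : z₀ = z₀⁻¹ := by rw [← h1, h2']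
        calc z₀ * z₀ = z₀ * z₀⁻¹ := by rw [← hzz]
          _ = 1 := mul_inv_cancel z₀
      exact hz₀1 (eq_one_of_sq_of_cube hsq h3')

/-- The commuting relation on `D`. -/
def CR (D : Set G) (u v : G) : Prop := u ∈ D ∧ v ∈ D ∧ Commute u v

/-- Any two members of `D` are joined by a chain of commuting members. -/
def Conn (D : Set G) : Prop := ∀ x ∈ D, ∀ y ∈ D, Relation.ReflTransGen (CR D) x y

/-- Connectivity of the commuting graph as a chain condition. -/
theorem connected_iff {D : Set G} (hne : D.Nonempty) :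
    (Cfsg.commutingGraph D).Connected ↔ Conn D := by
  constructor
  · intro hc x hx y hy
    have hr := hc.preconnected ⟨x, hx⟩ ⟨y, hy⟩
    rw [SimpleGraph.reachable_iff_reflTransGen] at hr
    refine Relation.ReflTransGen.lift (Subtype.val : D → G) ?_ _ _ hr
    intro a b hab
    unfold Cfsg.commutingGraph at hab
    rw [SimpleGraph.fromRel_adj] at hab
    rcases hab.2 with h | h
    · exact ⟨a.2, b.2, h⟩
    · exact ⟨a.2, b.2, h.symm⟩
  · intro hc
    have hne' : Nonempty D := hne.to_subtype
    refine ⟨?_⟩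
    rintro ⟨x, hx⟩ ⟨y, hy⟩
    have h := hc x hx y hy
    have key : ∀ v, Relation.ReflTransGen (CR D) x v → ∀ hv : v ∈ D,
        (Cfsg.commutingGraph D).Reachable ⟨x, hx⟩ ⟨v, hv⟩ := by
      intro v hv
      induction hv with
      | refl => intro _; exact SimpleGraph.Reachable.refl _
      | @tail b c _ hbc ih =>
        intro hv
        have hb := hbc.1
        have h1 := ih hb
        by_cases heq : b = c
        · subst heq; exact h1
        · apply h1.trans
          apply SimpleGraph.Adj.reachable
          unfold Cfsg.commutingGraph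
          rw [SimpleGraph.fromRel_adj]
          exact ⟨fun h => heq (congrArg Subtype.val h), Or.inl hbc.2.2⟩
    exact key y h hy

/-- The chain relation is an invariant equivalence relation. -/
theorem invEquiv_chain {D : Set G} (hD : IsTT D) :
    InvEquiv (Relation.ReflTransGen (CR D)) := by
  refine ⟨fun x => Relation.ReflTransGen.refl, ?_, ?_, ?_⟩
  · intro x y h
    induction h with
    | refl => exact Relation.ReflTransGen.refl
    | @tail b c _ hbc ih =>
      exact (Relation.ReflTransGen.single ⟨hbc.2.1, hbc.1, hbc.2.2.symm⟩).trans ih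
  · intro x y z h1 h2
    exact h1.trans h2
  · intro g x y h
    refine Relation.ReflTransGen.lift (fun u => g * u * g⁻¹) ?_ _ _ h
    intro u v huv
    refine ⟨hD.conj_mem u huv.1 g, hD.conj_mem v huv.2.1 g, ?_⟩
    have e : g⁻¹ * (g * v * g⁻¹) * g = v := by group
    apply (commute_conj_iff g u _).mpr
    rw [e]; exact huv.2.2

/-- Primitivity and a commuting pair give connectivity. -/
theorem conn_of_relPrim {D : Set G} (hD : IsTT D)
    (hw : ∃ a ∈ D, ∃ b ∈ D, a ≠ b ∧ Commute a b) (h : RelPrim D) : Conn D := by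
  obtain ⟨a, ha, b, hb, hab, hc⟩ := hw
  have hr := invEquiv_chain hD
  have hall := h _ hr a ha b hb hab (Relation.ReflTransGen.single ⟨ha, hb, hc⟩)
  intro x hx y hy
  exact hr.trans _ _ _ (hr.symm _ _ (hall x hx)) (hall y hy)

/-- In a connected class all products of two members lie in any quasisimple normal subgroup. -/
theorem mul_mem_of_conn {D : Set G} (hD : IsTT D) (L : Subgroup G) (hLn : L.Normal)
    (hL : Cfsg.IsQuasisimple L) (hc : Conn D) : ∀ d ∈ D, ∀ e ∈ D, d * e ∈ L := by
  intro d hd e he
  have key : ∀ v, Relation.ReflTransGen (CR D) d v → d * v ∈ L := by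
    intro v hv
    induction hv with
    | refl => rw [hD.sq d hd]; exact one_mem L
    | @tail b c _ hbc ih =>
      have hb := hbc.1
      have h2 := width_one_qs hD L hLn hL hb hbc.2.1 hbc.2.2
      have e : d * c = (d * b) * (b * c) := by
        calc d * c = d * (b * b) * c := by rw [hD.sq b hb, mul_one]
          _ = (d * b) * (b * c) := by group
      rw [e]; exact mul_mem ih h2
  exact key e (hc d hd e he)

/-- A normal subgroup containing all products of two members of `D` has index at most two. -/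
theorem index_le_two_of_mul_mem {D : Set G} (hD : IsTT D) (L : Subgroup G) (hLn : L.Normal)
    (h : ∀ d ∈ D, ∀ e ∈ D, d * e ∈ L) : L.index ≤ 2 := by
  have := hLn
  by_cases hne : D.Nonempty
  · obtain ⟨a, ha⟩ := hne
    have hgen : Subgroup.zpowers (QuotientGroup.mk' L a) = ⊤ := by
      rw [eq_top_iff, ← Subgroup.map_top_of_surjective _ (QuotientGroup.mk'_surjective L),
        ← hD.gen, MonoidHom.map_closure, Subgroup.closure_le]
      rintro _ ⟨d, hd, rfl⟩
      have : QuotientGroup.mk' L d = QuotientGroup.mk' L a := by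
        rw [QuotientGroup.mk'_apply, QuotientGroup.mk'_apply, QuotientGroup.eq]
        have := h d hd a ha
        rwa [hD.inv_eq hd]
      rw [this]; exact Subgroup.mem_zpowers _
    rw [Subgroup.index_eq_card, ← Nat.card_congr (Subgroup.topEquiv (G := G ⧸ L)).toEquiv,
      ← hgen, Nat.card_zpowers]
    apply Nat.le_of_dvd (by norm_num)
    apply orderOf_dvd_of_pow_eq_one
    rw [← map_pow, pow_two, hD.sq a ha, map_one]
  · rw [Set.not_nonempty_iff_eq_empty] at hne
    have htop : (⊥ : Subgroup G) = ⊤ := by rw [← hD.gen, hne, Subgroup.closure_empty]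
    have hL : L = ⊤ := by rw [eq_top_iff, ← htop]; exact bot_le
    rw [hL, Subgroup.index_top]; norm_num

/-- A normal subgroup of index at most two contains all products of two members of `D`. -/
theorem mul_mem_of_index_le_two [Finite G] {D : Set G} (hD : IsTT D) (L : Subgroup G)
    (hLn : L.Normal) (h : L.index ≤ 2) : ∀ d ∈ D, ∀ e ∈ D, d * e ∈ L := by
  intro d hd e he
  have h0 : L.index ≠ 0 := Subgroup.index_ne_zero_of_finite
  have h12 : L.index = 1 ∨ L.index = 2 := by omega
  rcases h12 with h1 | h2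
  · rw [Subgroup.index_eq_one] at h1; rw [h1]; exact Subgroup.mem_top _
  · rw [Subgroup.mul_mem_iff_of_index_two h2]
    obtain ⟨g, rfl⟩ := hD.isConj d hd e he
    constructor
    · intro hdL; exact hLn.conj_mem d hdL g
    · intro hgL
      have := hLn.conj_mem _ hgL g⁻¹
      have e : g⁻¹ * (g * d * g⁻¹) * g⁻¹⁻¹ = d := by group
      rwa [e] at this

/-- Under primitivity `O_2(G)` is central. -/
theorem pCore_two_le_center_of_relPrim {D : Set G} (hD : IsTT D) {d : G} (hd : d ∈ D)
    (h : RelPrim D) : Cfsg.pCore 2 G ≤ Subgroup.center G := by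
  by_contra hnc
  obtain ⟨t, ht, ht1, _, _, hv⟩ := two_witness hD hnc hd
  have hne : d ≠ d * t := by
    intro h1
    apply ht1
    have : d * 1 = d * t := by rw [mul_one]; exact h1
    exact (mul_left_cancel this).symm
  have hr := invEquiv_coset (Cfsg.pCore 2 G) (Cfsg.pCore_normal 2 G)
  have hall := h _ hr d hd (d * t) hv hne (by
    show d⁻¹ * (d * t) ∈ Cfsg.pCore 2 G
    rw [inv_mul_cancel_left]; exact ht)
  obtain ⟨e, he, hde⟩ := exists_not_commute hD hd hv hne
  apply hde
  apply hD.commute_of_sq hd he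
  have hmem : d * e ∈ Cfsg.pCore 2 G := by
    have := hall e he
    rwa [hD.inv_eq hd] at this
  rcases hD.sq_or_cube hd he with h2 | h3
  · exact h2
  · obtain ⟨n, hn⟩ := (Cfsg.Agent.Helper22.pCore_isPGroup 2 G) ⟨_, hmem⟩
    have hn' : (d * e) ^ (2 ^ n) = 1 := by simpa using congrArg Subtype.val hn
    have hcop : Nat.Coprime 3 (2 ^ n) := Nat.Coprime.pow_right n (by norm_num)
    rw [eq_one_of_coprime_pow hcop h3 hn', one_pow]

/-- Under primitivity, if two distinct members of `D` commute then `O_3(G)` is central. -/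
theorem pCore_three_le_center_of_relPrim {D : Set G} (hD : IsTT D)
    (hw : ∃ a ∈ D, ∃ b ∈ D, a ≠ b ∧ Commute a b) (h : RelPrim D) :
    Cfsg.pCore 3 G ≤ Subgroup.center G := by
  by_contra hnc
  obtain ⟨a, ha, b, hb, hab, hc⟩ := hw
  obtain ⟨s, hs, hs1, _, _, hv⟩ := three_witness hD hnc ha
  have hne : a ≠ a * s := by
    intro h1
    apply hs1
    have : a * 1 = a * s := by rw [mul_one]; exact h1
    exact (mul_left_cancel this).symm
  have hr := invEquiv_coset (Cfsg.pCore 3 G) (Cfsg.pCore_normal 3 G)
  have hall := h _ hr a ha (a * s) hv hne (by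
    show a⁻¹ * (a * s) ∈ Cfsg.pCore 3 G
    rw [inv_mul_cancel_left]; exact hs)
  have hmem : a * b ∈ Cfsg.pCore 3 G := by
    have := hall b hb
    rwa [hD.inv_eq ha] at this
  obtain ⟨n, hn⟩ := (Cfsg.Agent.Helper22.pCore_isPGroup 3 G) ⟨_, hmem⟩
  have hn' : (a * b) ^ (3 ^ n) = 1 := by simpa using congrArg Subtype.val hn
  have hcop : Nat.Coprime 2 (3 ^ n) := Nat.Coprime.pow_right n (by norm_num)
  have h1 := eq_one_of_coprime_pow hcop (hD.sq_of_commute ha hb hc) hn'
  apply hab
  have : a = b⁻¹ := eq_inv_of_mul_eq_one_left h1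
  rw [this, hD.inv_eq hb]

/-- A group with a commutative multiplication is nilpotent. -/
theorem isNilpotent_of_forall_comm (H : Type*) [Group H] (h : ∀ a b : H, a * b = b * a) :
    Group.IsNilpotent H := by
  refine ⟨⟨1, ?_⟩⟩
  rw [Subgroup.upperCentralSeries_one, eq_top_iff]
  intro z _
  rw [Subgroup.mem_center_iff]
  intro g
  exact h g z

/-- **Simplicity of the commutator subgroup** of a centreless group with central `O_2`, `O_3`
and connected commuting graph. -/
theorem commutator_simple_of_conn [Finite G] {D : Set G} (hD : IsTT D)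
    (hD2 : ∃ a ∈ D, ∃ b ∈ D, a ≠ b) (h2 : Cfsg.pCore 2 G ≤ Subgroup.center G)
    (h3 : Cfsg.pCore 3 G ≤ Subgroup.center G) (hZ : Subgroup.center G = ⊥) (hc : Conn D) :
    IsSimpleGroup (commutator G) := by
  obtain ⟨L, hLn, hL, _, _⟩ := layer_structure hD hD2 h2 h3
  have hFit := fitting_eq_center hD h2 h3
  have := hLn
  have hZL : Subgroup.center L = ⊥ := by
    rw [eq_bot_iff]
    rintro ⟨z, hzL⟩ hz
    have hn : ((Subgroup.center L).map L.subtype).Normal :=
      Cfsg.Agent.Helper22.normal_map_subtype_of_characteristic L (Subgroup.center L)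
    have hnil : Group.IsNilpotent ((Subgroup.center L).map L.subtype) := by
      apply isNilpotent_of_forall_comm
      rintro ⟨_, ⟨u, hu, rfl⟩⟩ ⟨_, ⟨v, hv, rfl⟩⟩
      apply Subtype.ext
      have := Subgroup.mem_center_iff.mp hv u
      show (u : G) * (v : G) = (v : G) * (u : G)
      exact congrArg Subtype.val this
    have hle : (Subgroup.center L).map L.subtype ≤ Cfsg.fittingSubgroup G := le_sSup ⟨hn, hnil⟩
    rw [hFit, hZ] at hle
    have hzb : z ∈ (⊥ : Subgroup G) := hle ⟨⟨z, hzL⟩, hz, rfl⟩
    rw [Subgroup.mem_bot] at hzb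
    rw [Subgroup.mem_bot]; exact Subtype.ext hzb
  have hLs : IsSimpleGroup L := by
    have hs := hL.2
    exact (MulEquiv.isSimpleGroup_congr
      ((QuotientGroup.quotientMulEquivOfEq hZL).trans QuotientGroup.quotientBot)).mp hs
  have hle : commutator G ≤ L := by
    apply commutator_le_of_generators L D hD.gen
    intro s hs t ht
    have hst := mul_mem_of_conn hD L hLn hL hc s hs t ht
    rw [commutatorElement_def, hD.inv_eq hs, hD.inv_eq ht]
    have e : s * t * s * t = (s * t) * (s * t) := by group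
    rw [e]; exact mul_mem hst hst
  have hge : L ≤ commutator G := by
    calc L = ⁅L, L⁆ := (Cfsg.Agent.Helper22.quasisimple_commutator_eq hL).symm
      _ ≤ ⁅(⊤ : Subgroup G), ⊤⁆ := Subgroup.commutator_mono le_top le_top
      _ = commutator G := (commutator_def G).symm
  have heq : commutator G = L := le_antisymm hle hge
  rw [heq]; exact hLs

end Cfsg.Agent.Helper14.TT
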