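import Cfsg.Agent.Helper14.ThreeTrans11

/-!
# 3-transpositions: modules of the commuting graph and maximal `D`-subgroups (helper14)

* `IsModule D M`: every member of `D` outside `M` commutes with all or with no member of `M`.
* `module_eq`: if `G` is primitive on `D` and the commuting graph is connected, a module with at
  least two members is all of `D`.
* `maximal_D_subgroup`: then the subgroup generated by the members of `D` commuting with `d ∈ D`
  is a maximal `D`-subgroup.
-/

set_option autoImplicit false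

namespace Cfsg.Agent.Helper14.TT

variable {G : Type*} [Group G]

/-- A module of the commuting graph on `D`. -/
def IsModule (D M : Set G) : Prop :=
  M ⊆ D ∧ ∀ w ∈ D, w ∉ M → (∀ b ∈ M, Commute w b) ∨ (∀ b ∈ M, ¬ Commute w b)

/-- A conjugate of a module is a module. -/
theorem IsModule.conj {D M : Set G} (hD : IsTT D) (hM : IsModule D M) (g : G) :
    IsModule D ((fun x => g * x * g⁻¹) '' M) := by
  refine ⟨?_, ?_⟩
  · rintro _ ⟨m, hm, rfl⟩
    exact hD.conj_mem m (hM.1 hm) g
  · intro w hw hwM
    have hw' : g⁻¹ * w * g ∈ D := hD.conj_mem' g hw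
    have hw'M : g⁻¹ * w * g ∉ M := by
      intro h
      apply hwM
      exact ⟨g⁻¹ * w * g, h, by group⟩
    have key : ∀ m, Commute w (g * m * g⁻¹) ↔ Commute (g⁻¹ * w * g) m := by
      intro m
      constructor
      · intro h
        have := (commute_conj_iff g m w).mp h.symm
        exact this.symm
      · intro h
        exact ((commute_conj_iff g m w).mpr h.symm).symm
    rcases hM.2 _ hw' hw'M with h | h
    · left
      rintro _ ⟨m, hm, rfl⟩
      exact (key m).mpr (h m hm)
    · right
      rintro _ ⟨m, hm, rfl⟩ hc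
      exact h m hm ((key m).mp hc)

/-- The union of two modules with a common member is a module. -/
theorem IsModule.union {D M M' : Set G} (hM : IsModule D M) (hM' : IsModule D M') {r : G}
    (hr : r ∈ M) (hr' : r ∈ M') : IsModule D (M ∪ M') := by
  refine ⟨Set.union_subset hM.1 hM'.1, ?_⟩
  intro w hw hwU
  have hwM : w ∉ M := fun h => hwU (Or.inl h)
  have hwM' : w ∉ M' := fun h => hwU (Or.inr h)
  by_cases hc : Commute w r
  · left
    have h1 : ∀ b ∈ M, Commute w b := by
      rcases hM.2 w hw hwM with h | h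
      · exact h
      · exact absurd hc (h r hr)
    have h2 : ∀ b ∈ M', Commute w b := by
      rcases hM'.2 w hw hwM' with h | h
      · exact h
      · exact absurd hc (h r hr')
    rintro b (hb | hb)
    · exact h1 b hb
    · exact h2 b hb
  · right
    have h1 : ∀ b ∈ M, ¬ Commute w b := by
      rcases hM.2 w hw hwM with h | h
      · exact absurd (h r hr) hc
      · exact h
    have h2 : ∀ b ∈ M', ¬ Commute w b := by
      rcases hM'.2 w hw hwM' with h | h
      · exact absurd (h r hr') hc
      · exact h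
    rintro b (hb | hb)
    · exact h1 b hb
    · exact h2 b hb

/-- A proper non-empty subset of `D` whose complement in `D` commutes with it elementwise does
not exist. -/
theorem no_comm_split {D M : Set G} (hD : IsTT D) (hMD : M ⊆ D) {m p : G} (hm : m ∈ M)
    (hp : p ∈ D) (hpM : p ∉ M) (h : ∀ u ∈ D, u ∉ M → ∀ v ∈ M, Commute u v) : False := by
  -- every member of `D` maps `M` into `M`
  have hstep : ∀ u ∈ D, ∀ v ∈ M, u * v * u⁻¹ ∈ M := by
    intro u hu v hv
    by_cases huM : u ∈ M
    · by_contra hnot
      have hD' : u * v * u⁻¹ ∈ D := hD.conj_mem v (hMD hv) u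
      have hc : Commute (u * v * u⁻¹) u := h _ hD' hnot u huM
      -- then `u * v * u⁻¹ = v`
      have e : u * v * u⁻¹ = v := by
        have h1 : u * v * u⁻¹ * u = u * (u * v * u⁻¹) := hc.eq
        have h2 : u * v = u * (u * v * u⁻¹) := by
          rw [← h1]; group
        exact (mul_left_cancel h2).symm
      rw [e] at hnot
      exact hnot hv
    · have hc : Commute u v := h u hu huM v hv
      have e : u * v * u⁻¹ = v := by rw [hc.eq, mul_assoc, mul_inv_cancel, mul_one]
      rw [e]; exact hv
  let T : Subgroup G :=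
    { carrier := {k | ∀ v, v ∈ M ↔ k * v * k⁻¹ ∈ M}
      one_mem' := by intro v; simp
      mul_mem' := by
        intro a b ha hb v
        have e : a * b * v * (a * b)⁻¹ = a * (b * v * b⁻¹) * a⁻¹ := by group
        rw [e, ← ha, ← hb]
      inv_mem' := by
        intro a ha v
        have := ha (a⁻¹ * v * a⁻¹⁻¹)
        have e : a * (a⁻¹ * v * a⁻¹⁻¹) * a⁻¹ = v := by group
        rw [e] at this
        exact this.symm }
  have hTmem : ∀ k, k ∈ T ↔ ∀ v, v ∈ M ↔ k * v * k⁻¹ ∈ M := fun k => Iff.rfl
  have hDT : D ⊆ T := by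
    intro u hu
    rw [SetLike.mem_coe, hTmem]
    intro v
    constructor
    · exact hstep u hu v
    · intro hv
      have := hstep u hu _ hv
      have e : u * (u * v * u⁻¹) * u⁻¹ = v := by
        rw [hD.inv_eq hu]
        calc u * (u * v * u) * u = (u * u) * v * (u * u) := by group
          _ = v := by rw [hD.sq u hu]; group
      rwa [e] at this
  have hTtop : T = ⊤ := by
    rw [eq_top_iff, ← hD.gen]
    exact (Subgroup.closure_le T).mpr hDT
  obtain ⟨k, rfl⟩ := hD.isConj m (hMD hm) p hp
  have hk : k ∈ T := by rw [hTtop]; exact Subgroup.mem_top k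
  exact hpM (((hTmem k).mp hk m).mp hm)

/-- A proper non-empty subset of `D` none of whose members commutes with a member of `D` outside
does not exist when the commuting graph is connected. -/
theorem no_noncomm_split {D M : Set G} (hc : Conn D) {m p : G} (hm : m ∈ M) (hmD : m ∈ D)
    (hp : p ∈ D) (hpM : p ∉ M) (h : ∀ u ∈ D, u ∉ M → ∀ v ∈ M, ¬ Commute u v) : False := by
  have key : ∀ v, Relation.ReflTransGen (CR D) m v → v ∈ M := by
    intro v hv
    induction hv with
    | refl => exact hm
    | @tail b c _ hbc ih =>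
      by_contra hcM
      exact h c hbc.2.1 hcM b ih hbc.2.2.symm
  exact hpM (key p (hc m hmD p hp))

/-- **Modules are trivial** in a primitive class with connected commuting graph. -/
theorem module_eq [Finite G] {D : Set G} (hD : IsTT D) (hprim : Cfsg.IsPrimitiveUnderConj D)
    (hc : Conn D) {M : Set G} (hM : IsModule D M) (hns : ¬ M.Subsingleton) : M = D := by
  by_contra hne
  obtain ⟨F, hFdef⟩ : ∃ F : Set (Set G),
      F = {M' | IsModule D M' ∧ M' ≠ D ∧ ¬ M'.Subsingleton} := ⟨_, rfl⟩
  have hFmem : ∀ M', M' ∈ F ↔ IsModule D M' ∧ M' ≠ D ∧ ¬ M'.Subsingleton := by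
    intro M'; rw [hFdef]; rfl
  obtain ⟨M₀, hM₀F, hmax⟩ := Set.exists_max_image F (fun M' => M'.ncard) (Set.toFinite F)
    ⟨M, (hFmem M).mpr ⟨hM, hne, hns⟩⟩
  obtain ⟨hM₀, hM₀ne, hM₀ns⟩ := (hFmem M₀).mp hM₀F
  have hblock : ∀ g : G, (fun x => g * x * g⁻¹) '' M₀ = M₀ ∨
      Disjoint ((fun x => g * x * g⁻¹) '' M₀) M₀ := by
    intro g
    by_contra hcon
    push Not at hcon
    obtain ⟨hneq, hndisj⟩ := hcon
    obtain ⟨M', hM'def⟩ : ∃ M' : Set G, M' = (fun x => g * x * g⁻¹) '' M₀ := ⟨_, rfl⟩
    rw [← hM'def] at hneq hndisj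
    have hM' : IsModule D M' := by rw [hM'def]; exact hM₀.conj hD g
    have hcard : M'.ncard = M₀.ncard := by
      rw [hM'def]
      apply Set.ncard_image_of_injective
      intro a b hab
      have h1 : g * a * g⁻¹ = g * b * g⁻¹ := hab
      exact mul_left_cancel (mul_right_cancel h1)
    obtain ⟨r, hrM', hrM₀⟩ := Set.not_disjoint_iff.mp hndisj
    -- `M'` is not contained in `M₀` and conversely
    have hnsub1 : ¬ M' ⊆ M₀ := by
      intro hsub
      exact hneq (Set.eq_of_subset_of_ncard_le hsub (le_of_eq hcard.symm) (Set.toFinite _))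
    have hnsub2 : ¬ M₀ ⊆ M' := by
      intro hsub
      exact hneq (Set.eq_of_subset_of_ncard_le hsub (le_of_eq hcard) (Set.toFinite _)).symm
    obtain ⟨q, hqM', hqM₀⟩ := Set.not_subset.mp hnsub1
    obtain ⟨p, hpM₀, hpM'⟩ := Set.not_subset.mp hnsub2
    -- the union is everything
    have hU : M₀ ∪ M' = D := by
      by_contra hUne
      have hUmod := hM₀.union hM' hrM₀ hrM'
      have hUns : ¬ (M₀ ∪ M').Subsingleton := fun hs =>
        hM₀ns (hs.anti Set.subset_union_left)
      have hle := hmax _ ((hFmem _).mpr ⟨hUmod, hUne, hUns⟩)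
      have hlt : M₀.ncard < (M₀ ∪ M').ncard := by
        apply Set.ncard_lt_ncard _ (Set.toFinite _)
        refine ⟨Set.subset_union_left, ?_⟩
        intro hsub
        exact hqM₀ (hsub (Or.inr hqM'))
      omega
    have hcompl : ∀ u ∈ D, u ∉ M' → u ∈ M₀ := by
      intro u hu huM'
      rw [← hU] at hu
      rcases hu with h | h
      · exact h
      · exact absurd h huM'
    have hpD : p ∈ D := hM₀.1 hpM₀
    have hqD : q ∈ D := hM'.1 hqM'
    rcases hM'.2 p hpD hpM' with hA | hB
    · -- `p` commutes with all of `M'`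
      have hpq : Commute p q := hA q hqM'
      have hq : ∀ b ∈ M₀, Commute q b := by
        rcases hM₀.2 q hqD hqM₀ with h | h
        · exact h
        · exact absurd hpq.symm (h p hpM₀)
      have hall : ∀ u ∈ D, u ∉ M' → ∀ v ∈ M', Commute u v := by
        intro u hu huM'
        have huM₀ := hcompl u hu huM'
        rcases hM'.2 u hu huM' with h | h
        · exact h
        · exact absurd (hq u huM₀).symm (h q hqM')
      exact no_comm_split hD hM'.1 hqM' hpD hpM' hall
    · -- `p` commutes with no member of `M'`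
      have hpq : ¬ Commute p q := hB q hqM'
      have hq : ∀ b ∈ M₀, ¬ Commute q b := by
        rcases hM₀.2 q hqD hqM₀ with h | h
        · exact absurd (h p hpM₀).symm hpq
        · exact h
      have hall : ∀ u ∈ D, u ∉ M' → ∀ v ∈ M', ¬ Commute u v := by
        intro u hu huM'
        have huM₀ := hcompl u hu huM'
        rcases hM'.2 u hu huM' with h | h
        · exact absurd (h q hqM').symm (hq u huM₀)
        · exact h
      exact no_noncomm_split hc hqM' hqD hpD hpM' hall
  rcases hprim.2.2 M₀ hM₀.1 hblock with h | h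
  · exact hM₀ns h
  · exact hM₀ne h

/-- **Maximal `D`-subgroups**: in a primitive class with connected commuting graph, a
`D`-subgroup containing all the members of `D` commuting with `d` is generated by them or is
the whole group. -/
theorem maximal_D_subgroup [Finite G] {D : Set G} (hD : IsTT D)
    (hprim : Cfsg.IsPrimitiveUnderConj D) (hc : Conn D) {d : G} (hd : d ∈ D) (H : Subgroup G)
    (hH : Cfsg.IsDSubgroup D H)
    (hle : Subgroup.closure {y : G | y ∈ D ∧ Commute d y} ≤ H) :
    H = Subgroup.closure {y : G | y ∈ D ∧ Commute d y} ∨ H = ⊤ := by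
  by_cases hall : ∀ e ∈ D, e ∈ H → Commute d e
  · left
    apply le_antisymm _ hle
    unfold Cfsg.IsDSubgroup at hH
    rw [← hH]
    apply Subgroup.closure_mono
    intro e he
    exact ⟨he.1, hall e he.1 he.2⟩
  · right
    push Not at hall
    obtain ⟨e, heD, heH, hde⟩ := hall
    have hdH : d ∈ H := hle (Subgroup.subset_closure ⟨hd, Commute.refl d⟩)
    obtain ⟨B, hBdef⟩ : ∃ B : Set G, B = {x | ∃ h ∈ H, x = h * d * h⁻¹} := ⟨_, rfl⟩
    have hBH : B ⊆ H := by
      intro x hx
      rw [hBdef] at hx
      obtain ⟨h, hh, rfl⟩ := hx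
      exact mul_mem (mul_mem hh hdH) (inv_mem hh)
    have hBD : B ⊆ D := by
      intro x hx
      rw [hBdef] at hx
      obtain ⟨h, hh, rfl⟩ := hx
      exact hD.conj_mem d hd h
    -- a member of `H ∩ D` not commuting with `b ∈ B` lies in `B`
    have hswap : ∀ b ∈ B, ∀ w ∈ D, w ∈ H → ¬ Commute w b → w ∈ B := by
      intro b hb w hw hwH hwb
      have hbD := hBD hb
      have hbH := hBH hb
      rw [hBdef] at hb ⊢
      obtain ⟨h, hh, rfl⟩ := hb
      refine ⟨h * d * h⁻¹ * w * h, mul_mem (mul_mem hbH hwH) hh, ?_⟩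
      have hbr := hD.braid w hw _ hbD hwb
      have hbi := hD.inv_eq hbD
      have hwi := hD.inv_eq hw
      calc w = (h * d * h⁻¹) * (h * d * h⁻¹) * w := by rw [hD.sq _ hbD, one_mul]
        _ = (h * d * h⁻¹) * ((h * d * h⁻¹) * w * (h * d * h⁻¹)) * (h * d * h⁻¹)⁻¹ := by group
        _ = (h * d * h⁻¹) * (w * (h * d * h⁻¹) * w) * (h * d * h⁻¹)⁻¹ := by rw [hbr]
        _ = (h * d * h⁻¹) * (w * (h * d * h⁻¹) * w⁻¹) * (h * d * h⁻¹)⁻¹ := by rw [hwi]
        _ = h * d * h⁻¹ * w * h * d * (h * d * h⁻¹ * w * h)⁻¹ := by group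
    have hP1 : ∀ b ∈ B, ∀ y ∈ D, Commute b y → y ∈ H := by
      intro b hb y hy hby
      rw [hBdef] at hb
      obtain ⟨h, hh, rfl⟩ := hb
      have hy' : h⁻¹ * y * h ∈ D := hD.conj_mem' h hy
      have hc' : Commute d (h⁻¹ * y * h) := (commute_conj_iff h d y).mp hby
      have hmem : h⁻¹ * y * h ∈ H := hle (Subgroup.subset_closure ⟨hy', hc'⟩)
      have e : y = h * (h⁻¹ * y * h) * h⁻¹ := by group
      rw [e]; exact mul_mem (mul_mem hh hmem) (inv_mem hh)
    have hmod : IsModule D B := by
      refine ⟨hBD, ?_⟩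
      intro w hw hwB
      by_cases hwH : w ∈ H
      · left
        intro b hb
        by_contra hwb
        exact hwB (hswap b hb w hw hwH hwb)
      · right
        intro b hb hwb
        exact hwH (hP1 b hb w hw hwb.symm)
    have hdB : d ∈ B := by rw [hBdef]; exact ⟨1, one_mem H, by simp⟩
    have heB : e ∈ B := hswap d hdB e heD heH (fun h => hde h.symm)
    have hns : ¬ B.Subsingleton := by
      intro hs
      have : d = e := hs hdB heB
      rw [this] at hde
      exact hde (Commute.refl e)
    have hBeq := module_eq hD hprim hc hmod hns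
    rw [eq_top_iff, ← hD.gen]
    apply (Subgroup.closure_le H).mpr
    rw [← hBeq]
    exact hBH

end Cfsg.Agent.Helper14.TT
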