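import Cfsg.Agent.Helper14.ThreeTrans8

/-!
# 3-transpositions: `O_2`, `O_3` and the layer (helper14)

Let `D` be a generating conjugacy class of 3-transpositions of the finite group `G`.

* `not_both_noncentral`: `O_2(G)` and `O_3(G)` are not both non-central.
* `layer_eq_bot_of_two`, `layer_eq_bot_of_three`: if `O_2(G)` or `O_3(G)` is not central, `G` has
  no component.
-/

set_option autoImplicit false

namespace Cfsg.Agent.Helper14.TT

open scoped commutatorElement

variable {G : Type*} [Group G]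

/-- An element of coprime orders is trivial. -/
theorem eq_one_of_coprime_pow {H : Type*} [Group H] {c : H} {m n : ℕ} (hcop : Nat.Coprime m n)
    (hm : c ^ m = 1) (hn : c ^ n = 1) : c = 1 := by
  have := pow_gcd_eq_one.mpr ⟨hm, hn⟩
  rwa [Nat.Coprime.gcd_eq_one hcop, pow_one] at this

/-- If the normal subgroup `N` is not central, every member of `D` is moved by some element of
`N`. -/
theorem exists_conj_ne_of_not_le_center {D : Set G} (hD : IsTT D) (N : Subgroup G)
    (hN : N.Normal) (h : ¬ N ≤ Subgroup.center G) {d : G} (hd : d ∈ D) :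
    ∃ g ∈ N, g * d * g⁻¹ ≠ d := by
  by_contra hall
  push Not at hall
  apply h
  have hDC : D ⊆ Subgroup.centralizer (N : Set G) := by
    intro e he
    obtain ⟨k, rfl⟩ := hD.isConj d hd e he
    rw [SetLike.mem_coe, Subgroup.mem_centralizer_iff]
    intro g hg
    have hg' : k⁻¹ * g * k ∈ N := by
      have := hN.conj_mem g hg k⁻¹
      rwa [inv_inv] at this
    have h1 := hall (k⁻¹ * g * k) hg'
    have h2 : g * (k * d * k⁻¹) * g⁻¹ = k * d * k⁻¹ := by
      calc g * (k * d * k⁻¹) * g⁻¹ = k * (k⁻¹ * g * k * d * (k⁻¹ * g * k)⁻¹) * k⁻¹ := by group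
        _ = k * d * k⁻¹ := by rw [h1]
    exact mul_inv_eq_iff_eq_mul.mp h2
  have htop : Subgroup.centralizer (N : Set G) = ⊤ := by
    rw [eq_top_iff, ← hD.gen]; exact (Subgroup.closure_le _).mpr hDC
  intro x hx
  rw [Subgroup.mem_center_iff]
  intro g
  have hg : g ∈ Subgroup.centralizer (N : Set G) := by rw [htop]; exact Subgroup.mem_top g
  exact (Subgroup.mem_centralizer_iff.mp hg x hx).symm

/-- If `O_2(G)` is not central, `d ∈ D` has a translate `d t ∈ D` by an involution `t` of `O_2(G)`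
commuting with `d`. -/
theorem two_witness {D : Set G} (hD : IsTT D) (h : ¬ Cfsg.pCore 2 G ≤ Subgroup.center G)
    {d : G} (hd : d ∈ D) :
    ∃ t ∈ Cfsg.pCore 2 G, t ≠ 1 ∧ t ^ 2 = 1 ∧ Commute d t ∧ d * t ∈ D := by
  obtain ⟨g, hg, hne⟩ := exists_conj_ne_of_not_le_center hD _ (Cfsg.pCore_normal 2 G) h hd
  have hv := hD.conj_mem d hd g
  have hdi := hD.inv_eq hd
  have hmem : d * (g * d * g⁻¹) ∈ Cfsg.pCore 2 G := by
    have e : d * (g * d * g⁻¹) = (d * g * d⁻¹) * g⁻¹ := by rw [hdi]; group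
    rw [e]; exact mul_mem ((Cfsg.pCore_normal 2 G).conj_mem g hg d) (inv_mem hg)
  have hsq : (d * (g * d * g⁻¹)) ^ 2 = 1 := by
    rcases hD.sq_or_cube hd hv with h2 | h3
    · exact h2
    · obtain ⟨n, hn⟩ := (Cfsg.Agent.Helper22.pCore_isPGroup 2 G) ⟨_, hmem⟩
      have hn' : (d * (g * d * g⁻¹)) ^ (2 ^ n) = 1 := by simpa using congrArg Subtype.val hn
      have hcop : Nat.Coprime 3 (2 ^ n) := Nat.Coprime.pow_right n (by norm_num)
      rw [eq_one_of_coprime_pow hcop h3 hn', one_pow]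
  refine ⟨d * (g * d * g⁻¹), hmem, ?_, hsq, ?_, ?_⟩
  · intro h1
    apply hne
    have := eq_inv_of_mul_eq_one_right h1
    rw [this, hdi]
  · exact (Commute.refl d).mul_right (hD.commute_of_sq hd hv hsq)
  · have e : d * (d * (g * d * g⁻¹)) = g * d * g⁻¹ := by
      rw [← mul_assoc, hD.sq d hd, one_mul]
    rw [e]; exact hv

/-- If `O_3(G)` is not central, `d ∈ D` has a translate `d s ∈ D` by an element `s` of order three
of `O_3(G)` inverted by `d`. -/
theorem three_witness {D : Set G} (hD : IsTT D) (h : ¬ Cfsg.pCore 3 G ≤ Subgroup.center G)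
    {d : G} (hd : d ∈ D) :
    ∃ s ∈ Cfsg.pCore 3 G, s ≠ 1 ∧ s ^ 3 = 1 ∧ d * s * d⁻¹ = s⁻¹ ∧ d * s ∈ D := by
  obtain ⟨g, hg, hne⟩ := exists_conj_ne_of_not_le_center hD _ (Cfsg.pCore_normal 3 G) h hd
  have hv := hD.conj_mem d hd g
  have hdi := hD.inv_eq hd
  have hvi := hD.inv_eq hv
  have hmem : d * (g * d * g⁻¹) ∈ Cfsg.pCore 3 G := by
    have e : d * (g * d * g⁻¹) = (d * g * d⁻¹) * g⁻¹ := by rw [hdi]; group
    rw [e]; exact mul_mem ((Cfsg.pCore_normal 3 G).conj_mem g hg d) (inv_mem hg)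
  have hcube : (d * (g * d * g⁻¹)) ^ 3 = 1 := by
    rcases hD.sq_or_cube hd hv with h2 | h3
    · obtain ⟨n, hn⟩ := (Cfsg.Agent.Helper22.pCore_isPGroup 3 G) ⟨_, hmem⟩
      have hn' : (d * (g * d * g⁻¹)) ^ (3 ^ n) = 1 := by simpa using congrArg Subtype.val hn
      have hcop : Nat.Coprime 2 (3 ^ n) := Nat.Coprime.pow_right n (by norm_num)
      rw [eq_one_of_coprime_pow hcop h2 hn', one_pow]
    · exact h3
  refine ⟨d * (g * d * g⁻¹), hmem, ?_, hcube, ?_, ?_⟩
  · intro h1
    apply hne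
    have := eq_inv_of_mul_eq_one_right h1
    rw [this, hdi]
  · rw [mul_inv_rev, hvi, hdi]
    calc d * (d * (g * d * g⁻¹)) * d = (d * d) * (g * d * g⁻¹) * d := by group
      _ = g * d * g⁻¹ * d := by rw [hD.sq d hd, one_mul]
  · have e : d * (d * (g * d * g⁻¹)) = g * d * g⁻¹ := by
      rw [← mul_assoc, hD.sq d hd, one_mul]
    rw [e]; exact hv

/-- `O_2(G)` and `O_3(G)` are not both non-central. -/
theorem not_both_noncentral {D : Set G} (hD : IsTT D) {d : G} (hd : d ∈ D)
    (h2 : ¬ Cfsg.pCore 2 G ≤ Subgroup.center G) (h3 : ¬ Cfsg.pCore 3 G ≤ Subgroup.center G) :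
    False := by
  obtain ⟨t, ht, ht1, ht2, hdt, hv⟩ := two_witness hD h2 hd
  obtain ⟨s, hs, hs1, hs3, _, hw⟩ := three_witness hD h3 hd
  have : Fact (Nat.Prime 2) := ⟨Nat.prime_two⟩
  have : Fact (Nat.Prime 3) := ⟨Nat.prime_three⟩
  have hdisj : Disjoint (Cfsg.pCore 2 G) (Cfsg.pCore 3 G) :=
    IsPGroup.disjoint_of_ne 2 3 (by norm_num) _ _ (Cfsg.Agent.Helper22.pCore_isPGroup 2 G)
      (Cfsg.Agent.Helper22.pCore_isPGroup 3 G)
  have hts : Commute t s := Subgroup.commute_of_normal_of_disjoint _ _ (Cfsg.pCore_normal 2 G)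
    (Cfsg.pCore_normal 3 G) hdisj t s ht hs
  have e : (d * t) * (d * s) = t * s := by
    calc (d * t) * (d * s) = (d * t) * d * s := by group
      _ = (t * d) * d * s := by rw [hdt.eq]
      _ = t * (d * d) * s := by group
      _ = t * s := by rw [hD.sq d hd, mul_one]
  rcases hD.sq_or_cube hv hw with h | h
  · rw [e, hts.mul_pow, ht2, one_mul] at h
    exact hs1 (eq_one_of_sq_of_cube h hs3)
  · rw [e, hts.mul_pow, hs3, mul_one] at h
    exact ht1 (eq_one_of_sq_of_cube ht2 h)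

/-- If `O_2(G)` is not central, `G` has no component. -/
theorem layer_eq_bot_of_two [Finite G] {D : Set G} (hD : IsTT D) {d : G} (hd : d ∈ D)
    (h2 : ¬ Cfsg.pCore 2 G ≤ Subgroup.center G) : Cfsg.layer G = ⊥ := by
  unfold Cfsg.layer
  rw [sSup_eq_bot]
  intro K hK
  exfalso
  have hK : Cfsg.IsComponent K := hK
  have hKn := component_normal hD hK
  obtain ⟨t, ht, ht1, ht2, hdt, hv⟩ := two_witness hD h2 hd
  have : Fact (Nat.Prime 2) := ⟨Nat.prime_two⟩
  have hcomm := Cfsg.Agent.Helper22.component_commutator_nilpotent_normal hK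
    (Cfsg.pCore_normal 2 G) (Cfsg.Agent.Helper22.pCore_isPGroup 2 G).isNilpotent
  rw [Subgroup.commutator_eq_bot_iff_le_centralizer] at hcomm
  have htK : ∀ l ∈ K, Commute t l := fun l hl =>
    Subgroup.mem_centralizer_iff.mp (hcomm hl) t ht
  have hdi := hD.inv_eq hd
  have hc : ∀ l ∈ K, Commute d (l * d * l⁻¹) := by
    intro l hl
    have he := hD.conj_mem d hd l
    apply hD.commute_of_sq hd he
    have h1 : Commute t l := htK l hl
    have hte : Commute t (l * d * l⁻¹) := (h1.mul_right hdt.symm).mul_right h1.inv_right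
    have e : (d * t) * (l * d * l⁻¹) = t * (d * (l * d * l⁻¹)) := by
      calc (d * t) * (l * d * l⁻¹) = (t * d) * (l * d * l⁻¹) := by rw [hdt.eq]
        _ = t * (d * (l * d * l⁻¹)) := by group
    have htc : Commute t (d * (l * d * l⁻¹)) := hdt.symm.mul_right hte
    rcases hD.sq_or_cube hd he with h | h
    · exact h
    · rcases hD.sq_or_cube hv he with h' | h'
      · rw [e, htc.mul_pow, ht2, one_mul] at h'
        exact h'
      · rw [e, htc.mul_pow, h, mul_one] at h'
        exact absurd (eq_one_of_sq_of_cube ht2 h') ht1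
  have hcen := centralizes_of_comm K hKn hK.2 d hc
  exact not_centralizes hD K hKn (qs_not_comm hK.2) hd
    (fun l hl => mul_inv_eq_iff_eq_mul.mp (hcen l hl))

/-- If `O_3(G)` is not central, `G` has no component. -/
theorem layer_eq_bot_of_three [Finite G] {D : Set G} (hD : IsTT D) {d : G} (hd : d ∈ D)
    (h3 : ¬ Cfsg.pCore 3 G ≤ Subgroup.center G) : Cfsg.layer G = ⊥ := by
  unfold Cfsg.layer
  rw [sSup_eq_bot]
  intro K hK
  exfalso
  have hK : Cfsg.IsComponent K := hK
  have hKn := component_normal hD hK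
  obtain ⟨s, hs, hs1, hs3, hds, hw⟩ := three_witness hD h3 hd
  have : Fact (Nat.Prime 3) := ⟨Nat.prime_three⟩
  have hcomm := Cfsg.Agent.Helper22.component_commutator_nilpotent_normal hK
    (Cfsg.pCore_normal 3 G) (Cfsg.Agent.Helper22.pCore_isPGroup 3 G).isNilpotent
  rw [Subgroup.commutator_eq_bot_iff_le_centralizer] at hcomm
  have hsK : ∀ l ∈ K, Commute s l := fun l hl =>
    Subgroup.mem_centralizer_iff.mp (hcomm hl) s hs
  have hdi := hD.inv_eq hd
  have hsd : s * d = d * s⁻¹ := by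
    rw [← hds, hdi]
    calc s * d = (d * d) * s * d := by rw [hD.sq d hd, one_mul]
      _ = d * (d * s * d) := by group
  have hc : ∀ l ∈ K, (d * (l * d * l⁻¹)) ^ 3 = 1 := by
    intro l hl
    have he := hD.conj_mem d hd l
    have hcK : d * (l * d * l⁻¹) ∈ K := by
      have e : d * (l * d * l⁻¹) = (d * l * d⁻¹) * l⁻¹ := by rw [hdi]; group
      rw [e]; exact mul_mem (hKn.conj_mem l hl d) (inv_mem hl)
    have h1 : Commute s l := hsK l hl
    have e : (d * s) * (l * d * l⁻¹) = (d * (l * d * l⁻¹)) * s⁻¹ := by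
      calc (d * s) * (l * d * l⁻¹) = d * (s * l) * d * l⁻¹ := by group
        _ = d * (l * s) * d * l⁻¹ := by rw [h1.eq]
        _ = d * l * (s * d) * l⁻¹ := by group
        _ = d * l * (d * s⁻¹) * l⁻¹ := by rw [hsd]
        _ = d * l * d * (s⁻¹ * l⁻¹) := by group
        _ = d * l * d * (l⁻¹ * s⁻¹) := by rw [(h1.inv_inv).eq]
        _ = (d * (l * d * l⁻¹)) * s⁻¹ := by group
    have hcs : Commute (d * (l * d * l⁻¹)) s⁻¹ := ((hsK _ hcK).symm).inv_right
    rcases hD.sq_or_cube hd he with h | h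
    · rcases hD.sq_or_cube hw he with h' | h'
      · rw [e, hcs.mul_pow, h, one_mul] at h'
        exfalso
        apply hs1
        have : s⁻¹ = 1 := eq_one_of_sq_of_cube h' (by rw [inv_pow, hs3, inv_one])
        exact inv_eq_one.mp this
      · rw [e, hcs.mul_pow, inv_pow, hs3, inv_one, mul_one] at h'
        exact h'
    · exact h
  have hcen := centralizes_of_cube K hKn hK.2 d (hD.sq d hd) hc
  exact not_centralizes hD K hKn (qs_not_comm hK.2) hd
    (fun l hl => mul_inv_eq_iff_eq_mul.mp (hcen l hl))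

end Cfsg.Agent.Helper14.TT
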