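import Mathlib
import Cfsg.Agent.Helper14.ThreeTrans9

/-!
# A cohomological averaging lemma (helper14)

`averaging`: an abelian 2-group `A` acted on by a group `K`, `P ≤ K` of odd order normalised by
`t`; a "cocycle value" `m` which is stable under the centraliser of `t` in `P` is a coboundary
modulo the fixed points of `P`.

`core`: group-theoretic form: `N` an abelian normal 2-subgroup, `P` a 3-subgroup, `t` normalising
`P`, `d` an involution in `N t` whose conjugates under `C_P(t)` are `N`-conjugate to `d`: then some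
`N`-conjugate of `d` normalises `P`.

`sylow_conj_of_le_sup`: Sylow subgroups inside `P ⊔ M` (`M` normal) are `M`-conjugate to `P`.
-/

set_option autoImplicit false

namespace Cfsg.Agent.Helper14.TT

/-- A finite set with a fixed-point-free involution has even size. -/
theorem even_card_of_involution {α : Type*} (s : Finset α) (g : ∀ a ∈ s, α)
    (hne : ∀ a ha, g a ha ≠ a) (g_mem : ∀ a ha, g a ha ∈ s)
    (hinv : ∀ a ha, g (g a ha) (g_mem a ha) = a) : Even s.card := by
  have h := Finset.prod_involution (s := s) (f := fun _ => (-1 : ℤ)) g (by intros; norm_num)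
    (fun a ha _ => hne a ha) g_mem hinv
  rw [Finset.prod_const] at h
  exact (neg_one_pow_eq_one_iff_even (by norm_num)).1 h

/-- The averaging lemma. -/
theorem averaging {A K : Type*} [CommGroup A] [Group K] (ρ : K →* MulAut A)
    (P : Subgroup K) [Finite P] (hodd : Odd (Nat.card P))
    (hA : ∀ a : A, ∃ j : ℕ, a ^ (2 ^ j) = 1)
    (t : K) (htP : ∀ k ∈ P, t * k * t⁻¹ ∈ P) (ht2 : ∀ a : A, ρ (t * t) a = a)
    (ht2P : ∀ k ∈ P, t * t * k = k * (t * t))
    (m : A)
    (hstab : ∀ c ∈ P, t * c = c * t → ∃ n : A, ρ c m = m * n * (ρ t n)⁻¹)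
    (hz : ∀ k ∈ P, ρ k (m * ρ t m) = m * ρ t m) :
    ∃ x : A, ∀ k ∈ P, ρ k (m * x⁻¹ * ρ t x) = m * x⁻¹ * ρ t x := by
  classical
  have : Fintype P := Fintype.ofFinite P
  let φ : A →* A :=
    { toFun := fun x => x * (ρ t x)⁻¹
      map_one' := by simp
      map_mul' := fun x y => by rw [map_mul, mul_inv]; exact mul_mul_mul_comm _ _ _ _ }
  let Fix : Subgroup A :=
    { carrier := {a | ∀ k ∈ P, ρ k a = a}
      one_mem' := fun k _ => map_one _
      mul_mem' := fun {a b} ha hb k hk => by rw [map_mul, ha k hk, hb k hk]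
      inv_mem' := fun {a} ha k hk => by rw [map_inv, ha k hk] }
  let B : Subgroup A := Fix ⊔ φ.range
  have hρmul : ∀ (k l : K) (a : A), ρ (k * l) a = ρ k (ρ l a) := fun k l a => by
    rw [map_mul]; rfl
  have key : m ∈ B := by
    obtain ⟨z, hzdef⟩ : ∃ z, z = m * ρ t m := ⟨_, rfl⟩
    have hzfix : z ∈ Fix := by
      intro k hk; rw [hzdef]; exact hz k hk
    have htz : ρ t z = z := by
      rw [hzdef, map_mul, ← hρmul, ht2, mul_comm]
    have htinv : ρ t⁻¹ m = z * m⁻¹ := by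
      have h1 : ρ t⁻¹ z = z := by
        conv_lhs => rw [← htz]
        rw [← hρmul, inv_mul_cancel, map_one]; rfl
      have h2 : ρ t⁻¹ z = ρ t⁻¹ m * m := by
        rw [hzdef, map_mul, ← hρmul, inv_mul_cancel, map_one]; rfl
      rw [h1] at h2
      rw [h2, mul_inv_cancel_right]
    have hpair : ∀ k ∈ P, ρ k m * ρ (t * k * t⁻¹) m ∈ B := by
      intro k hk
      have e1 : ρ (t * k * t⁻¹) m = z * (ρ t (ρ k m))⁻¹ := by
        rw [hρmul, hρmul, htinv, map_mul, hzfix k hk, map_mul, htz, map_inv, map_inv]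
      rw [e1, mul_left_comm]
      exact Subgroup.mul_mem_sup hzfix ⟨ρ k m, rfl⟩
    let f : P → A ⧸ B := fun k => QuotientGroup.mk (ρ (k : K) m)
    have htot : ∏ k : P, f k = 1 := by
      have h1 : ∏ k : P, f k = QuotientGroup.mk' B (∏ k : P, ρ (k : K) m) := by
        rw [map_prod]; rfl
      rw [h1, QuotientGroup.mk'_apply, QuotientGroup.eq_one_iff]
      apply Subgroup.mem_sup_left
      intro p hp
      rw [map_prod]
      exact Fintype.prod_equiv (Equiv.mulLeft (⟨p, hp⟩ : P)) _ _ (fun k => by rw [← hρmul]; rfl)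
    obtain ⟨s, hs⟩ : ∃ s : Finset P, s = Finset.univ.filter
      (fun k : P => ¬ t * (k : K) = (k : K) * t) := ⟨_, rfl⟩
    have hmem_s : ∀ k : P, k ∈ s ↔ ¬ t * (k : K) = (k : K) * t := by
      intro k; rw [hs, Finset.mem_filter]; simp
    let g : ∀ a ∈ s, P := fun k _ => ⟨t * (k : K) * t⁻¹, htP k k.2⟩
    have hfix : ∀ k : P, t * (k : K) * t⁻¹ = k → t * (k : K) = (k : K) * t := by
      intro k h
      calc t * (k : K) = (t * k * t⁻¹) * t := by group
        _ = k * t := by rw [h]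
    have hg_ne : ∀ a ha, g a ha ≠ a := by
      intro k hk heq
      exact (hmem_s k).1 hk (hfix k (congrArg Subtype.val heq))
    have hg_mem : ∀ a ha, g a ha ∈ s := by
      intro k hk
      rw [hmem_s]
      intro heq
      have heq' : t * (t * (k : K) * t⁻¹) = (t * (k : K) * t⁻¹) * t := heq
      apply (hmem_s k).1 hk
      apply hfix k
      calc t * (k : K) * t⁻¹ = t⁻¹ * (t * (t * k * t⁻¹)) := by group
        _ = t⁻¹ * ((t * k * t⁻¹) * t) := by rw [heq']
        _ = k := by group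
    have hg_inv : ∀ a ha, g (g a ha) (hg_mem a ha) = a := by
      intro k hk
      apply Subtype.ext
      show t * (t * (k : K) * t⁻¹) * t⁻¹ = k
      calc t * (t * (k : K) * t⁻¹) * t⁻¹ = (t * t * k) * (t * t)⁻¹ := by group
        _ = k := by rw [ht2P k k.2]; group
    have hnot : ∏ k ∈ s, f k = 1 := by
      apply Finset.prod_involution g _ (fun a ha _ => hg_ne a ha) hg_mem hg_inv
      intro k hk
      show (QuotientGroup.mk (ρ (k : K) m) : A ⧸ B) * QuotientGroup.mk (ρ (t * (k : K) * t⁻¹) m) = 1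
      rw [← QuotientGroup.mk_mul, QuotientGroup.eq_one_iff]
      exact hpair k k.2
    have hev : Even s.card := even_card_of_involution s g hg_ne hg_mem hg_inv
    obtain ⟨c, hc⟩ : ∃ c : Finset P, c = Finset.univ.filter
      (fun k : P => t * (k : K) = (k : K) * t) := ⟨_, rfl⟩
    have hyes : ∏ k ∈ c, f k = (QuotientGroup.mk m : A ⧸ B) ^ c.card := by
      rw [← Finset.prod_const]
      apply Finset.prod_congr rfl
      intro k hk
      rw [hc, Finset.mem_filter] at hk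
      obtain ⟨n, hn⟩ := hstab k k.2 hk.2
      show (QuotientGroup.mk (ρ (k : K) m) : A ⧸ B) = QuotientGroup.mk m
      rw [hn, QuotientGroup.eq]
      have e : (m * n * (ρ t n)⁻¹)⁻¹ * m = (n * (ρ t n)⁻¹)⁻¹ := by
        rw [mul_assoc, mul_inv_rev, inv_mul_cancel_right]
      rw [e]
      exact Subgroup.inv_mem _ (Subgroup.mem_sup_right ⟨n, rfl⟩)
    have hsplit : (∏ k ∈ c, f k) * ∏ k ∈ s, f k = ∏ k : P, f k := by
      rw [hc, hs]
      exact Finset.prod_filter_mul_prod_filter_not _ _ _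
    have hcard : c.card + s.card = Nat.card P := by
      rw [hc, hs, Nat.card_eq_fintype_card, ← Finset.card_univ]
      exact Finset.card_filter_add_card_filter_not _
    have hcodd : Odd c.card := by
      rw [← hcard] at hodd
      exact (Nat.odd_add.1 hodd).2 hev
    have hpow : (QuotientGroup.mk m : A ⧸ B) ^ c.card = 1 := by
      have h := hsplit
      rw [hnot, mul_one, htot, hyes] at h
      exact h
    obtain ⟨j, hj⟩ := hA m
    have hpow2 : (QuotientGroup.mk m : A ⧸ B) ^ (2 ^ j) = 1 := by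
      rw [← QuotientGroup.mk_pow, hj]; rfl
    have hcop : Nat.Coprime c.card (2 ^ j) :=
      Nat.Coprime.pow_right j (Nat.coprime_two_right.2 hcodd)
    exact (QuotientGroup.eq_one_iff m).1 (eq_one_of_coprime_pow hcop hpow hpow2)
  obtain ⟨y, hy, w, ⟨x, rfl⟩, hyw⟩ := Subgroup.mem_sup.1 key
  refine ⟨x, ?_⟩
  have e : m * x⁻¹ * ρ t x = y := by
    rw [← hyw]
    show y * (x * (ρ t x)⁻¹) * x⁻¹ * ρ t x = y
    have h1 : x * (ρ t x)⁻¹ * x⁻¹ * ρ t x = 1 := by
      rw [mul_right_comm x, mul_inv_cancel, one_mul, inv_mul_cancel]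
    rw [mul_assoc y, mul_assoc y, h1, mul_one]
  intro k hk
  rw [e]; exact hy k hk

/-- Group-theoretic form of the averaging lemma. -/
theorem core {H : Type*} [Group H] (N : Subgroup H) [hNn : N.Normal]
    (hNc : ∀ a ∈ N, ∀ b ∈ N, a * b = b * a) (hN2 : IsPGroup 2 N)
    (P : Subgroup H) [Finite P] (hP3 : IsPGroup 3 P)
    {d t : H} (hd : d * d = 1) (htP : t ∈ Subgroup.normalizer (P : Set H)) (hdt : d * t⁻¹ ∈ N)
    (hb : ∀ c ∈ P, t * c = c * t → ∃ n ∈ N, c * d * c⁻¹ = n * d * n⁻¹) :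
    ∃ x ∈ N, x⁻¹ * d * x ∈ Subgroup.normalizer (P : Set H) := by
  classical
  let _ : CommGroup N :=
    { (inferInstance : Group N) with
      mul_comm := fun a b => Subtype.ext (hNc a a.2 b b.2) }
  have h2 : Fact (Nat.Prime 2) := ⟨Nat.prime_two⟩
  have h3 : Fact (Nat.Prime 3) := ⟨Nat.prime_three⟩
  have hdisj : ∀ x, x ∈ N → x ∈ P → x = 1 := by
    intro x hxN hxP
    have := IsPGroup.disjoint_of_ne 2 3 (by norm_num) N P hN2 hP3
    exact Subgroup.disjoint_def.1 this hxN hxP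
  have htP' : ∀ k ∈ P, t * k * t⁻¹ ∈ P := fun k hk =>
    (Subgroup.mem_set_normalizer_iff.1 htP k).1 hk
  have htt : t * t ∈ N := by
    have e : t * t = (d * t⁻¹)⁻¹ * (d * (d * t⁻¹)⁻¹ * d⁻¹) * (d * d) := by group
    rw [e, hd, mul_one]
    exact N.mul_mem (N.inv_mem hdt) (hNn.conj_mem _ (N.inv_mem hdt) d)
  have ht2P : ∀ k ∈ P, t * t * k = k * (t * t) := by
    intro k hk
    have hc : t * t * k * (t * t)⁻¹ * k⁻¹ = 1 := by
      apply hdisj
      · have e : t * t * k * (t * t)⁻¹ * k⁻¹ = (t * t) * (k * (t * t)⁻¹ * k⁻¹) := by group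
        rw [e]; exact N.mul_mem htt (hNn.conj_mem _ (N.inv_mem htt) k)
      · have e : t * t * k * (t * t)⁻¹ * k⁻¹ = (t * (t * k * t⁻¹) * t⁻¹) * k⁻¹ := by group
        rw [e]; exact P.mul_mem (htP' _ (htP' k hk)) (P.inv_mem hk)
    calc t * t * k = (t * t * k * (t * t)⁻¹ * k⁻¹) * (k * (t * t)) := by group
      _ = k * (t * t) := by rw [hc, one_mul]
  obtain ⟨n3, hn3⟩ := IsPGroup.iff_card.1 hP3
  have hodd : Odd (Nat.card P) := by rw [hn3]; exact Odd.pow (by decide)
  have hA : ∀ a : N, ∃ j : ℕ, a ^ (2 ^ j) = 1 := fun a => hN2 a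
  have hvv : (d * t⁻¹) * (t * (d * t⁻¹) * t⁻¹) = (t * t)⁻¹ := by
    have e : (d * t⁻¹) * (t * (d * t⁻¹) * t⁻¹) = (d * d) * (t * t)⁻¹ := by group
    rw [e, hd, one_mul]
  obtain ⟨x, hx⟩ := averaging (A := N) (K := H) MulAut.conjNormal P hodd hA t htP'
    (by
      intro a
      apply Subtype.ext
      rw [MulAut.conjNormal_apply]
      have h := hNc _ htt a a.2
      calc t * t * (a : H) * (t * t)⁻¹ = (a : H) * (t * t) * (t * t)⁻¹ := by rw [h]
        _ = a := by group)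
    ht2P ⟨d * t⁻¹, hdt⟩
    (by
      intro c hc hct
      obtain ⟨n, hn, hcn⟩ := hb c hc hct
      refine ⟨⟨n, hn⟩, ?_⟩
      apply Subtype.ext
      rw [MulAut.conjNormal_apply]
      show c * (d * t⁻¹) * c⁻¹ = (d * t⁻¹) * n * (t * n * t⁻¹)⁻¹
      have hct' : c * t⁻¹ * c⁻¹ = t⁻¹ := by
        calc c * t⁻¹ * c⁻¹ = t⁻¹ * (t * c) * t⁻¹ * c⁻¹ := by group
          _ = t⁻¹ * (c * t) * t⁻¹ * c⁻¹ := by rw [hct]
          _ = t⁻¹ := by group
      have hcomm := hNc n hn (d * t⁻¹) hdt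
      calc c * (d * t⁻¹) * c⁻¹ = (c * d * c⁻¹) * (c * t⁻¹ * c⁻¹) := by group
        _ = (n * d * n⁻¹) * t⁻¹ := by rw [hcn, hct']
        _ = (n * (d * t⁻¹)) * (t * n⁻¹ * t⁻¹) := by group
        _ = ((d * t⁻¹) * n) * (t * n⁻¹ * t⁻¹) := by rw [hcomm]
        _ = (d * t⁻¹) * n * (t * n * t⁻¹)⁻¹ := by group)
    (by
      intro k hk
      apply Subtype.ext
      rw [MulAut.conjNormal_apply]
      show k * ((d * t⁻¹) * (t * (d * t⁻¹) * t⁻¹)) * k⁻¹ = (d * t⁻¹) * (t * (d * t⁻¹) * t⁻¹)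
      rw [hvv]
      calc k * (t * t)⁻¹ * k⁻¹ = (t * t)⁻¹ * ((t * t) * k) * (t * t)⁻¹ * k⁻¹ := by group
        _ = (t * t)⁻¹ * (k * (t * t)) * (t * t)⁻¹ * k⁻¹ := by rw [ht2P k hk]
        _ = (t * t)⁻¹ := by group)
  obtain ⟨yv, hyv⟩ : ∃ yv : H, yv = (d * t⁻¹) * (x : H)⁻¹ * (t * x * t⁻¹) := ⟨_, rfl⟩
  have hx' : ∀ k ∈ P, k * yv * k⁻¹ = yv := by
    intro k hk
    have h := congrArg Subtype.val (hx k hk)
    rw [MulAut.conjNormal_apply] at h
    rw [hyv]
    exact h
  have hcomm : ∀ k ∈ P, yv * k = k * yv := by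
    intro k hk
    calc yv * k = (k * yv * k⁻¹) * k := by rw [hx' k hk]
      _ = k * yv := by group
  have hyvn : yv ∈ Subgroup.normalizer (P : Set H) := by
    rw [Subgroup.mem_set_normalizer_iff]
    intro h
    constructor
    · intro hh
      have e : yv * h * yv⁻¹ = h := by rw [hcomm h hh]; group
      rw [e]; exact hh
    · intro hh
      have h1 := hcomm _ hh
      have e : yv * h * yv⁻¹ = h := by
        have h2 : yv * (yv * h * yv⁻¹) = yv * h := by rw [h1]; group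
        exact mul_left_cancel h2
      rw [← e]; exact hh
  refine ⟨x, x.2, ?_⟩
  have hc2 := hNc _ (N.inv_mem x.2) (d * t⁻¹) hdt
  have e : (x : H)⁻¹ * d * x = yv * t := by
    calc (x : H)⁻¹ * d * x = ((x : H)⁻¹ * (d * t⁻¹)) * (t * x * t⁻¹) * t := by group
      _ = ((d * t⁻¹) * (x : H)⁻¹) * (t * x * t⁻¹) * t := by rw [hc2]
      _ = yv * t := by rw [hyv]
  rw [e]
  exact Subgroup.mul_mem _ hyvn htP

/-- Sylow subgroups inside `P ⊔ M` with `M` normal are `M`-conjugate to `P`. -/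
theorem sylow_conj_of_le_sup {G : Type*} [Group G] [Finite G] {p : ℕ} [Fact p.Prime]
    (P P' : Sylow p G) (M : Subgroup G) [hM : M.Normal]
    (h : (P' : Subgroup G) ≤ (P : Subgroup G) ⊔ M) : ∃ m ∈ M, m • P = P' := by
  have hPL : (P : Subgroup G) ≤ (P : Subgroup G) ⊔ M := le_sup_left
  obtain ⟨g, hg⟩ := MulAction.exists_smul_eq (↥((P : Subgroup G) ⊔ M)) (P.subtype hPL)
    (P'.subtype h)
  rw [Sylow.smul_subtype] at hg
  have hg' : g • P = P' := Sylow.subtype_injective hg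
  obtain ⟨y, hy, z, hz, hyz⟩ := Subgroup.mem_sup_of_normal_right.1 g.2
  refine ⟨y * z * y⁻¹, hM.conj_mem z hz y, ?_⟩
  have hyP : y • P = P := Sylow.smul_eq_iff_mem_normalizer.2 (Subgroup.le_normalizer hy)
  calc (y * z * y⁻¹) • P = (y * z * y⁻¹) • (y • P) := by rw [hyP]
    _ = ((y * z * y⁻¹) * y) • P := (mul_smul _ _ _).symm
    _ = (g : G) • P := by rw [inv_mul_cancel_right, hyz]
    _ = P' := hg'

end Cfsg.Agent.Helper14.TT
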