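import Cfsg.Agent.Helper14.ThreeTrans2
import Cfsg.Agent.Helper14.ThreeTrans3

/-!
# The transpositions commuting with a given one form a single class (helper14)

`dset_connected`: in a 3-transposition group with simple commutator subgroup, the members of
`D` other than `x` commuting with `x` are conjugate under the subgroup they generate.

Write `D_x` for this set and `Orb_x(y)` for the orbit of `y ∈ D_x` under `⟨D_x⟩`.  Members of
different orbits commute.  All orbits `Orb_x(y)` have the same size (rank three).  If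
`Orb_x(y) ≠ D_x`, a count gives `D_y ∖ Orb_y(x) = D_x ∖ Orb_x(y)` (`orb_compl_eq`); applying this
to `(x, y)` and `(y, z)` for `z ∉ Orb_x(y)` shows that a member not commuting with `x` commutes
with `y` iff it commutes with `z`, and primitivity gives a contradiction.
-/

set_option autoImplicit false

namespace Cfsg.Agent.Helper14.TT

variable {G : Type*} [Group G]

/-- The members of `D` other than `x` commuting with `x`. -/
def Dset (D : Set G) (x : G) : Set G := {y | y ∈ D ∧ y ≠ x ∧ Commute x y}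

theorem mem_dset {D : Set G} {x y : G} : y ∈ Dset D x ↔ y ∈ D ∧ y ≠ x ∧ Commute x y := Iff.rfl

/-- The orbit of `y` under the subgroup generated by `Dset D x`. -/
def Orb (D : Set G) (x y : G) : Set G :=
  {y' | ∃ g ∈ Subgroup.closure (Dset D x), g * y * g⁻¹ = y'}

theorem mem_orb {D : Set G} {x y y' : G} :
    y' ∈ Orb D x y ↔ ∃ g ∈ Subgroup.closure (Dset D x), g * y * g⁻¹ = y' := Iff.rfl

theorem dset_equivariant {D : Set G} (hD : IsTT D) (g x y : G) :
    y ∈ Dset D (g * x * g⁻¹) ↔ g⁻¹ * y * g ∈ Dset D x := by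
  have hne : y ≠ g * x * g⁻¹ ↔ g⁻¹ * y * g ≠ x := by
    constructor
    · intro h h'; apply h; rw [← h']; group
    · intro h h'; apply h; rw [h']; group
  rw [mem_dset, mem_dset, ← hD.conj_mem_iff g y, commute_conj_iff g x y, hne]

theorem dset_symm {D : Set G} {x y : G} (hx : x ∈ D) (hy : y ∈ Dset D x) : x ∈ Dset D y :=
  ⟨hx, fun h => hy.2.1 h.symm, hy.2.2.symm⟩

theorem closure_dset_commute {D : Set G} {x g : G} (hg : g ∈ Subgroup.closure (Dset D x)) :
    Commute g x := by
  have hle : Subgroup.closure (Dset D x) ≤ Subgroup.centralizer ({x} : Set G) := by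
    rw [Subgroup.closure_le]
    intro t ht
    rw [SetLike.mem_coe, Subgroup.mem_centralizer_iff]
    intro h hh
    rw [Set.mem_singleton_iff] at hh
    rw [hh]; exact ht.2.2.eq
  exact ((Subgroup.mem_centralizer_iff.mp (hle hg)) x rfl).symm

theorem orb_self {D : Set G} (x y : G) : y ∈ Orb D x y := ⟨1, one_mem _, by simp⟩

theorem orb_symm {D : Set G} {x y y' : G} (h : y' ∈ Orb D x y) : y ∈ Orb D x y' := by
  obtain ⟨g, hg, rfl⟩ := h
  exact ⟨g⁻¹, inv_mem hg, by group⟩

theorem orb_trans {D : Set G} {x y y' y'' : G} (h : y' ∈ Orb D x y) (h' : y'' ∈ Orb D x y') :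
    y'' ∈ Orb D x y := by
  obtain ⟨g, hg, rfl⟩ := h
  obtain ⟨k, hk, rfl⟩ := h'
  exact ⟨k * g, mul_mem hk hg, by group⟩

theorem orb_subset_dset {D : Set G} (hD : IsTT D) {x y y' : G} (hy : y ∈ Dset D x)
    (h : y' ∈ Orb D x y) : y' ∈ Dset D x := by
  obtain ⟨g, hg, rfl⟩ := h
  have hgx : g * x * g⁻¹ = x := by
    rw [(closure_dset_commute hg).eq, mul_assoc, mul_inv_cancel, mul_one]
  have := (dset_equivariant hD g x (g * y * g⁻¹)).mpr (by
    have e : g⁻¹ * (g * y * g⁻¹) * g = y := by group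
    rw [e]; exact hy)
  rwa [hgx] at this

/-- Non-commuting members of `Dset D x` are in the same orbit. -/
theorem orb_of_not_commute {D : Set G} (hD : IsTT D) {x y y' : G} (hy : y ∈ Dset D x)
    (hy' : y' ∈ Dset D x) (hn : ¬ Commute y y') : y' ∈ Orb D x y := by
  have ha := hD.sq y hy.1
  have hu := hD.sq y' hy'.1
  have hb := hD.braid y hy.1 y' hy'.1 hn
  have hinv : (y * y' * y)⁻¹ = y * y' * y := by
    apply inv_eq_of_mul_eq_one_right
    calc y * y' * y * (y * y' * y) = y * y' * (y * y) * y' * y := by group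
      _ = y * (y' * y') * y := by rw [ha]; group
      _ = 1 := by rw [hu]; simp [ha]
  refine ⟨y * y' * y, ?_, ?_⟩
  · exact mul_mem (mul_mem (Subgroup.subset_closure hy) (Subgroup.subset_closure hy'))
      (Subgroup.subset_closure hy)
  · rw [hinv]
    calc y * y' * y * y * (y * y' * y) = y * y' * (y * y) * (y * y' * y) := by group
      _ = y * (y' * y * y') * y := by rw [ha]; group
      _ = y * (y * y' * y) * y := by rw [hb]
      _ = (y * y) * y' * (y * y) := by group
      _ = y' := by rw [ha]; group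

/-- Members of `Dset D x` outside the orbit of `y` commute with the orbit of `y`. -/
theorem commute_of_not_mem_orb {D : Set G} (hD : IsTT D) {x y v w : G} (hy : y ∈ Dset D x)
    (hv : v ∈ Dset D x) (hvn : v ∉ Orb D x y) (hw : w ∈ Orb D x y) : Commute v w := by
  by_contra hn
  have hwD := orb_subset_dset hD hy hw
  have hn' : ¬ Commute w v := fun h => hn h.symm
  exact hvn (orb_trans hw (orb_of_not_commute hD hwD hv hn'))

/-- If the orbit of `v` under `⟨D_x⟩` lies in `D_y`, it lies in the orbit of `v` under `⟨D_y⟩`. -/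
theorem orb_subset_orb {D : Set G} (hD : IsTT D) {x y v : G} (hv : v ∈ Dset D x)
    (hsub : ∀ w ∈ Orb D x v, w ∈ Dset D y) : ∀ w ∈ Orb D x v, w ∈ Orb D y v := by
  have hgen : ∀ d ∈ Dset D x, ∀ w, w ∈ Orb D x v → w ∈ Orb D y v →
      d * w * d⁻¹ ∈ Orb D y v := by
    intro d hd w hw hwy
    by_cases hc : Commute d w
    · have : d * w * d⁻¹ = w := by rw [hc.eq, mul_assoc, mul_inv_cancel, mul_one]
      rw [this]; exact hwy
    · have hwD := orb_subset_dset hD hv hw
      have hc' : ¬ Commute w d := fun h => hc h.symm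
      have hdo : d ∈ Orb D x v := orb_trans hw (orb_of_not_commute hD hwD hd hc')
      have hdy : d ∈ Dset D y := hsub d hdo
      exact orb_trans hwy ⟨d, Subgroup.subset_closure hdy, rfl⟩
  have hQ : ∀ g ∈ Subgroup.closure (Dset D x), ∀ w, w ∈ Orb D x v → w ∈ Orb D y v →
      g * w * g⁻¹ ∈ Orb D y v := by
    intro g hg
    induction hg using Subgroup.closure_induction'' with
    | mem d hd => exact hgen d hd
    | inv_mem d hd =>
      have : d⁻¹ = d := hD.inv_eq hd.1
      rw [this]; exact hgen d hd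
    | one => intro w _ hwy; simpa using hwy
    | mul g h hg hh ihg ihh =>
      intro w hw hwy
      have e : g * h * w * (g * h)⁻¹ = g * (h * w * h⁻¹) * g⁻¹ := by group
      rw [e]
      exact ihg _ (orb_trans hw ⟨h, hh, rfl⟩) (ihh w hw hwy)
  rintro w ⟨g, hg, rfl⟩
  exact hQ g hg v (orb_self x v) (orb_self y v)

theorem orb_equivariant {D : Set G} (hD : IsTT D) (g x y u : G) :
    u ∈ Orb D (g * x * g⁻¹) (g * y * g⁻¹) ↔ g⁻¹ * u * g ∈ Orb D x y := by
  have hcl : Subgroup.closure (Dset D (g * x * g⁻¹))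
      = (Subgroup.closure (Dset D x)).map (MulAut.conj g).toMonoidHom := by
    rw [MonoidHom.map_closure]
    congr 1
    ext z
    rw [dset_equivariant hD]
    constructor
    · intro hz
      exact ⟨g⁻¹ * z * g, hz, by simp [mul_assoc]⟩
    · rintro ⟨w, hw, rfl⟩
      have e : g⁻¹ * ((MulAut.conj g).toMonoidHom w) * g = w := by simp [mul_assoc]
      rw [e]; exact hw
  rw [mem_orb, mem_orb, hcl]
  constructor
  · rintro ⟨h, hh, rfl⟩
    obtain ⟨k, hk, rfl⟩ := Subgroup.mem_map.mp hh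
    refine ⟨k, hk, ?_⟩
    simp only [MulEquiv.toMonoidHom_eq_coe, MonoidHom.coe_coe, MulAut.conj_apply]
    group
  · rintro ⟨k, hk, hku⟩
    refine ⟨g * k * g⁻¹, Subgroup.mem_map.mpr ⟨k, hk, by simp⟩, ?_⟩
    have e : g * k * g⁻¹ * (g * y * g⁻¹) * (g * k * g⁻¹)⁻¹ = g * (k * y * k⁻¹) * g⁻¹ := by group
    rw [e, hku]; group

/-- All the sets `Dset D x` have the same size. -/
theorem ncard_dset_eq [Finite G] {D : Set G} (hD : IsTT D) {x w : G} (hx : x ∈ D) (hw : w ∈ D) :
    (Dset D w).ncard = (Dset D x).ncard := by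
  obtain ⟨g, rfl⟩ := hD.isConj x hx w hw
  exact ncard_conj_eq g (dset_equivariant hD g x)

/-- All the orbits `Orb D x y` (`y ∈ Dset D x`) have the same size. -/
theorem ncard_orb_eq [Finite G] {D : Set G} (hD : IsTT D) (hs : IsSimpleGroup (commutator G))
    (hnonab : ∃ x y : commutator G, x * y ≠ y * x) {x y w v : G} (hx : x ∈ D) (hw : w ∈ D)
    (hy : y ∈ Dset D x) (hv : v ∈ Dset D w) : (Orb D w v).ncard = (Orb D x y).ncard := by
  obtain ⟨g₁, rfl⟩ := hD.isConj x hx w hw
  have hy₁ : g₁ * y * g₁⁻¹ ∈ Dset D (g₁ * x * g₁⁻¹) := by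
    rw [dset_equivariant hD]
    have e : g₁⁻¹ * (g₁ * y * g₁⁻¹) * g₁ = y := by group
    rw [e]; exact hy
  obtain ⟨c₀, hc₀D, hc₀⟩ := exists_noncommuting hD hnonab hw
  obtain ⟨g₂, hg₂w, hg₂v⟩ := trans_comm hD hs hw ⟨c₀, hc₀D, hc₀⟩ _ hy₁.1 v hv.1 hy₁.2.1 hv.2.1
    hy₁.2.2 hv.2.2
  have e1 : g₂ * g₁ * x * (g₂ * g₁)⁻¹ = g₁ * x * g₁⁻¹ := by
    have : g₂ * g₁ * x * (g₂ * g₁)⁻¹ = g₂ * (g₁ * x * g₁⁻¹) * g₂⁻¹ := by group
    rw [this, hg₂w]
  have e2 : g₂ * g₁ * y * (g₂ * g₁)⁻¹ = v := by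
    have : g₂ * g₁ * y * (g₂ * g₁)⁻¹ = g₂ * (g₁ * y * g₁⁻¹) * g₂⁻¹ := by group
    rw [this, hg₂v]
  have := ncard_conj_eq (g₂ * g₁) (orb_equivariant hD (g₂ * g₁) x y)
  rwa [e1, e2] at this

/-- If the orbit of `y` is not all of `D_x`, the complements of the orbits of `x` in `D_y` and
of `y` in `D_x` coincide. -/
theorem orb_compl_eq [Finite G] {D : Set G} (hD : IsTT D) (hs : IsSimpleGroup (commutator G))
    (hnonab : ∃ x y : commutator G, x * y ≠ y * x) {x y z : G} (hx : x ∈ D)
    (hy : y ∈ Dset D x) (hz : z ∈ Dset D x) (hzn : z ∉ Orb D x y) :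
    Dset D y \ Orb D y x = Dset D x \ Orb D x y := by
  have hyD := hy.1
  have hxy : x ∈ Dset D y := dset_symm hx hy
  have hk : (Dset D y).ncard = (Dset D x).ncard := ncard_dset_eq hD hx hyD
  have hc : (Orb D y x).ncard = (Orb D x y).ncard := ncard_orb_eq hD hs hnonab hx hyD hy hxy
  have hOx : Orb D x y ⊆ Dset D x := fun w hw => orb_subset_dset hD hy hw
  have hOy : Orb D y x ⊆ Dset D y := fun w hw => orb_subset_dset hD hxy hw
  -- (a)
  have hU : Dset D y \ Orb D y x ⊆ Dset D x := by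
    rintro v ⟨hv, hvn⟩
    refine ⟨hv.1, ?_, (commute_of_not_mem_orb hD hxy hv hvn (orb_self y x)).symm⟩
    rintro rfl; exact hvn (orb_self y v)
  -- (b)
  have hΓ : Dset D x \ Orb D x y ⊆ Dset D y := by
    rintro v ⟨hv, hvn⟩
    refine ⟨hv.1, ?_, (commute_of_not_mem_orb hD hy hv hvn (orb_self x y)).symm⟩
    rintro rfl; exact hvn (orb_self x v)
  -- (c)
  have hdisj : ∀ v, v ∈ Dset D x \ Orb D x y → v ∉ Orb D y x := by
    rintro v ⟨hv, hvn⟩ hvy
    have hCΓ : ∀ w ∈ Orb D x v, w ∈ Dset D x \ Orb D x y := by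
      intro w hw
      refine ⟨orb_subset_dset hD hv hw, fun hwy => hvn ?_⟩
      exact orb_trans hwy (orb_symm hw)
    have hCy : ∀ w ∈ Orb D x v, w ∈ Orb D y v :=
      orb_subset_orb hD hv (fun w hw => hΓ (hCΓ w hw))
    have hCyx : Orb D x v ⊆ Orb D y x := fun w hw => orb_trans hvy (hCy w hw)
    have hcv : (Orb D x v).ncard = (Orb D x y).ncard := ncard_orb_eq hD hs hnonab hx hx hy hv
    have hyC : y ∉ Orb D x v := fun h => (hCΓ y h).2 (orb_self x y)
    have hsub1 : Dset D y \ Orb D y x ⊆ Dset D x \ insert y (Orb D x v) := by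
      rintro v' ⟨hv', hv'n⟩
      refine ⟨hU ⟨hv', hv'n⟩, ?_⟩
      rintro (h | h)
      · exact hv'.2.1 h
      · exact hv'n (hCyx h)
    have hins : insert y (Orb D x v) ⊆ Dset D x := by
      rintro w (h | h)
      · rw [h]; exact hy
      · exact orb_subset_dset hD hv h
    have h1 := Set.ncard_le_ncard hsub1 (Set.toFinite _)
    have h2 : (Dset D y \ Orb D y x).ncard = (Dset D y).ncard - (Orb D y x).ncard :=
      Set.ncard_sdiff hOy (Set.toFinite _)
    have h3 : (Dset D x \ insert y (Orb D x v)).ncard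
        = (Dset D x).ncard - (insert y (Orb D x v)).ncard :=
      Set.ncard_sdiff hins (Set.toFinite _)
    have h4 : (insert y (Orb D x v)).ncard = (Orb D x v).ncard + 1 :=
      Set.ncard_insert_of_notMem hyC (Set.toFinite _)
    have h5 : (insert y (Orb D x v)).ncard ≤ (Dset D x).ncard :=
      Set.ncard_le_ncard hins (Set.toFinite _)
    omega
  -- (d)
  have hsub : Dset D x \ Orb D x y ⊆ Dset D y \ Orb D y x :=
    fun v hv => ⟨hΓ hv, hdisj v hv⟩
  have h2 : (Dset D y \ Orb D y x).ncard = (Dset D y).ncard - (Orb D y x).ncard :=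
    Set.ncard_sdiff hOy (Set.toFinite _)
  have h3 : (Dset D x \ Orb D x y).ncard = (Dset D x).ncard - (Orb D x y).ncard :=
    Set.ncard_sdiff hOx (Set.toFinite _)
  exact (Set.eq_of_subset_of_ncard_le hsub (by omega) (Set.toFinite _)).symm

/-- For `y, z ∈ D_x` in different orbits, a member not commuting with `x` that commutes with `y`
commutes with `z`. -/
theorem commute_of_orb_ne [Finite G] {D : Set G} (hD : IsTT D)
    (hs : IsSimpleGroup (commutator G)) (hnonab : ∃ x y : commutator G, x * y ≠ y * x)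
    {x y z u : G} (hx : x ∈ D) (hy : y ∈ Dset D x) (hz : z ∈ Dset D x) (hzn : z ∉ Orb D x y)
    (hu : u ∈ D) (hxu : ¬ Commute x u) (hyu : Commute y u) : Commute z u := by
  have h1 := orb_compl_eq hD hs hnonab hx hy hz hzn
  have hzmem : z ∈ Dset D y \ Orb D y x := by rw [h1]; exact ⟨hz, hzn⟩
  have hzy : z ∈ Dset D y := hzmem.1
  have hxy : x ∈ Dset D y := dset_symm hx hy
  have hxn : x ∉ Orb D y z := fun h => hzmem.2 (orb_symm h)
  have h2 := orb_compl_eq hD hs hnonab hy.1 hzy hxy hxn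
  have huy : u ∈ Dset D y := by
    refine ⟨hu, ?_, hyu⟩
    rintro rfl; exact hxu hy.2.2
  have hun : u ∉ Orb D y z := by
    intro h
    have h3 : u ∉ Orb D y x := fun h' => hzmem.2 (orb_trans h' (orb_symm h))
    have h4 : u ∈ Dset D x \ Orb D x y := by rw [← h1]; exact ⟨huy, h3⟩
    exact hxu h4.1.2.2
  have h5 : u ∈ Dset D z \ Orb D z y := by rw [h2]; exact ⟨huy, hun⟩
  exact h5.1.2.2

/-- **The members of `D` other than `x` commuting with `x` form one class of the subgroup they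
generate.** -/
theorem dset_connected [Finite G] {D : Set G} (hD : IsTT D) (hs : IsSimpleGroup (commutator G))
    (hnonab : ∃ x y : commutator G, x * y ≠ y * x) {x y y' : G} (hx : x ∈ D)
    (hy : y ∈ Dset D x) (hy' : y' ∈ Dset D x) : y' ∈ Orb D x y := by
  by_contra hn
  have hn' : y ∉ Orb D x y' := fun h => hn (orb_symm h)
  -- members not commuting with `x` commute with all of `D_x` or with none of it
  have hall : ∀ v ∈ Dset D x, ∀ u ∈ D, ¬ Commute x u → (Commute v u ↔ Commute y u) := by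
    intro v hv u hu hxu
    by_cases hvy : v ∈ Orb D x y
    · have hvn : v ∉ Orb D x y' := fun h => hn (orb_trans hvy (orb_symm h))
      have hy'v : y' ∉ Orb D x v := fun h => hvn (orb_symm h)
      constructor
      · intro hvu
        have h1 := commute_of_orb_ne hD hs hnonab hx hv hy' hy'v hu hxu hvu
        exact commute_of_orb_ne hD hs hnonab hx hy' hy hn' hu hxu h1
      · intro hyu
        have h1 := commute_of_orb_ne hD hs hnonab hx hy hy' hn hu hxu hyu
        exact commute_of_orb_ne hD hs hnonab hx hy' hv hvn hu hxu h1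
    · have hyv : y ∉ Orb D x v := fun h => hvy (orb_symm h)
      exact ⟨fun hvu => commute_of_orb_ne hD hs hnonab hx hv hy hyv hu hxu hvu,
        fun hyu => commute_of_orb_ne hD hs hnonab hx hy hv hvy hu hxu hyu⟩
  by_cases hex : ∃ u ∈ D, ¬ Commute x u ∧ Commute y u
  · obtain ⟨u, hu, hxu, hyu⟩ := hex
    have hsub : Dset D x ⊆ Dset D u := by
      intro v hv
      refine ⟨hv.1, ?_, ((hall v hv u hu hxu).mpr hyu).symm⟩
      rintro rfl; exact hxu hv.2.2
    have hne : x ≠ u := by rintro rfl; exact hxu (Commute.refl x)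
    have huniv := prim_subset hD hs (Dset D) (dset_equivariant hD) hx hu hne hsub y hy.1
    have : y ∈ Dset D y := by rw [← huniv]; exact hy
    exact this.2.1 rfl
  · push Not at hex
    obtain ⟨Φ, hΦdef⟩ : ∃ Φ : G → Set G, Φ = fun w => {d | d ∈ D ∧ ¬ Commute w d} := ⟨_, rfl⟩
    have hΦmem : ∀ w d, d ∈ Φ w ↔ d ∈ D ∧ ¬ Commute w d := by
      intro w d; rw [hΦdef]; rfl
    have hΦ : ∀ g w d, d ∈ Φ (g * w * g⁻¹) ↔ g⁻¹ * d * g ∈ Φ w := by
      intro g w d
      rw [hΦmem, hΦmem, ← hD.conj_mem_iff g d, commute_conj_iff g w d]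
    have hsub : Φ x ⊆ Φ y := by
      intro d hd
      rw [hΦmem] at hd ⊢
      exact ⟨hd.1, hex d hd.1 hd.2⟩
    obtain ⟨c₀, hc₀D, hc₀⟩ := exists_noncommuting hD hnonab hx
    have huniv := prim_subset hD hs Φ hΦ hx hy.1 (Ne.symm hy.2.1) hsub c₀ hc₀D
    have : c₀ ∈ Φ c₀ := by rw [← huniv, hΦmem]; exact ⟨hc₀D, hc₀⟩
    exact ((hΦmem c₀ c₀).mp this).2 (Commute.refl c₀)

end Cfsg.Agent.Helper14.TT
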