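import Mathlib
import Cfsg.Agent.Helper14.ThreeTrans12
import Cfsg.Agent.Helper14.ThreeTrans7
import Cfsg.Agent.Helper14.S5Pres
import Cfsg.Agent.Helper89.WidthOne

/-!
# 3-transpositions: non-central odd core of `⟨D_x⟩` (helper14)

* `normal_of_gens`: normality of a generated subgroup checked on generators.
* `ncard_three_pow`: a set of involutions closed under its own conjugations, any two of whose
  members braid, has `3 ^ i` members.
* `Tw D x u v`: `u` and `v` have the same neighbours inside `D_x`.
* `odd_core_step`: a non-central normal subgroup of odd order of `⟨D_x⟩` gives `d ≠ b` in `D_x`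
  with `Tw D x d b`.
* `factW`: the `S₅` argument.
* `coclique_aux`: then no two members of `D_x` commute.
-/

set_option autoImplicit false

namespace Cfsg.Agent.Helper14.TT

variable {G : Type*} [Group G]

/-- A subgroup generated by `S` is normal as soon as the members of a generating set `T` of the
group conjugate `S` into it (both ways). -/
theorem normal_of_gens (T S : Set G) (hT : Subgroup.closure T = ⊤)
    (h : ∀ t ∈ T, ∀ s ∈ S, t * s * t⁻¹ ∈ Subgroup.closure S ∧ t⁻¹ * s * t ∈ Subgroup.closure S) :
    (Subgroup.closure S).Normal := by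
  have key : ∀ g : G, ∀ r ∈ Subgroup.closure S,
      g * r * g⁻¹ ∈ Subgroup.closure S ∧ g⁻¹ * r * g ∈ Subgroup.closure S := by
    intro g
    have hg : g ∈ Subgroup.closure T := by rw [hT]; exact Subgroup.mem_top g
    induction hg using Subgroup.closure_induction with
    | mem t ht =>
      intro r hr
      induction hr using Subgroup.closure_induction with
      | mem s hs => exact h t ht s hs
      | one => simp
      | mul a b _ _ iha ihb =>
        constructor
        · have : t * (a * b) * t⁻¹ = (t * a * t⁻¹) * (t * b * t⁻¹) := by group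
          rw [this]; exact mul_mem iha.1 ihb.1
        · have : t⁻¹ * (a * b) * t = (t⁻¹ * a * t) * (t⁻¹ * b * t) := by group
          rw [this]; exact mul_mem iha.2 ihb.2
      | inv a _ iha =>
        constructor
        · have : t * a⁻¹ * t⁻¹ = (t * a * t⁻¹)⁻¹ := by group
          rw [this]; exact inv_mem iha.1
        · have : t⁻¹ * a⁻¹ * t = (t⁻¹ * a * t)⁻¹ := by group
          rw [this]; exact inv_mem iha.2
    | one => intro r hr; simpa using hr
    | mul a b _ _ iha ihb =>
      intro r hr
      constructor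
      · have : a * b * r * (a * b)⁻¹ = a * (b * r * b⁻¹) * a⁻¹ := by group
        rw [this]; exact (iha _ (ihb r hr).1).1
      · have : (a * b)⁻¹ * r * (a * b) = b⁻¹ * (a⁻¹ * r * a) * b := by group
        rw [this]; exact (ihb _ (iha r hr).2).2
    | inv a _ iha =>
      intro r hr
      constructor
      · have := (iha r hr).2
        simpa using this
      · have := (iha r hr).1
        simpa using this
  exact ⟨fun n hn g => (key g n hn).1⟩

/-- A nonempty set of involutions, closed under conjugation by its members, any two of whose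
members braid, has a power of three many members. -/
theorem ncard_three_pow [Finite G] (C : Set G) (hne : C.Nonempty) (hsq : ∀ u ∈ C, u * u = 1)
    (hcj : ∀ u ∈ C, ∀ v ∈ C, u * v * u ∈ C) (hbr : ∀ u ∈ C, ∀ v ∈ C, u * v * u = v * u * v) :
    ∃ i : ℕ, C.ncard = 3 ^ i := by
  have : Fact (Nat.Prime 3) := ⟨Nat.prime_three⟩
  have hQ := Cfsg.Agent.Helper89.isPGroup_three_closure_mul C hsq hcj hbr
  obtain ⟨Q, hQdef⟩ : ∃ Q : Subgroup G,
      Q = Subgroup.closure {x : G | ∃ u ∈ C, ∃ v ∈ C, x = u * v} := ⟨_, rfl⟩
  rw [← hQdef] at hQ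
  have hinv : ∀ u ∈ C, u⁻¹ = u := fun u hu => inv_eq_of_mul_eq_one_left (hsq u hu)
  have hstab : ∀ q ∈ Q, ∀ c ∈ C, q * c * q⁻¹ ∈ C ∧ q⁻¹ * c * q ∈ C := by
    intro q hq
    rw [hQdef] at hq
    induction hq using Subgroup.closure_induction with
    | mem x hx =>
      obtain ⟨u, hu, v, hv, rfl⟩ := hx
      intro c hc
      constructor
      · have : u * v * c * (u * v)⁻¹ = u * (v * c * v) * u := by
          rw [mul_inv_rev, hinv u hu, hinv v hv]; group
        rw [this]; exact hcj u hu _ (hcj v hv c hc)
      · have : (u * v)⁻¹ * c * (u * v) = v * (u * c * u) * v := by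
          rw [mul_inv_rev, hinv u hu, hinv v hv]; group
        rw [this]; exact hcj v hv _ (hcj u hu c hc)
    | one => intro c hc; simpa using hc
    | mul a b _ _ iha ihb =>
      intro c hc
      constructor
      · have : a * b * c * (a * b)⁻¹ = a * (b * c * b⁻¹) * a⁻¹ := by group
        rw [this]; exact (iha _ (ihb c hc).1).1
      · have : (a * b)⁻¹ * c * (a * b) = b⁻¹ * (a⁻¹ * c * a) * b := by group
        rw [this]; exact (ihb _ (iha c hc).2).2
    | inv a _ iha =>
      intro c hc
      constructor
      · simpa using (iha c hc).2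
      · simpa using (iha c hc).1
  obtain ⟨u₀, hu₀⟩ := hne
  let _ : MulAction Q G := MulAction.compHom G ((MulAut.conj : G →* MulAut G).comp Q.subtype)
  have hsmul : ∀ (q : Q) (g : G), q • g = (q : G) * g * (q : G)⁻¹ := fun q g => rfl
  have horb : MulAction.orbit Q u₀ = C := by
    ext c
    constructor
    · rintro ⟨q, rfl⟩
      show q • u₀ ∈ C
      rw [hsmul]; exact (hstab q q.2 u₀ hu₀).1
    · intro hc
      have hmem : u₀ * c ∈ Q := by
        rw [hQdef]; exact Subgroup.subset_closure ⟨u₀, hu₀, c, hc, rfl⟩
      refine ⟨⟨u₀ * c, hmem⟩, ?_⟩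
      show (⟨u₀ * c, hmem⟩ : Q) • u₀ = c
      rw [hsmul]
      show u₀ * c * u₀ * (u₀ * c)⁻¹ = c
      rw [mul_inv_rev, hinv u₀ hu₀, hinv c hc]
      have hb := hbr u₀ hu₀ c hc
      calc u₀ * c * u₀ * (c * u₀) = (u₀ * c * u₀) * c * u₀ := by group
        _ = (c * u₀ * c) * c * u₀ := by rw [hb]
        _ = c * u₀ * (c * c) * u₀ := by group
        _ = c * (u₀ * u₀) := by rw [hsq c hc]; group
        _ = c := by rw [hsq u₀ hu₀, mul_one]
  have hidx := MulAction.index_stabilizer (G := Q) (x := u₀)
  obtain ⟨n, hn⟩ := hQ.index (MulAction.stabilizer Q u₀)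
  exact ⟨n, by rw [← horb, ← hidx, hn]⟩

/-- `u` and `v` have the same neighbours inside `D_x`. -/
def Tw (D : Set G) (x u v : G) : Prop :=
  ∀ e ∈ Dset D x, (e ≠ u ∧ Commute u e) ↔ (e ≠ v ∧ Commute v e)

theorem Tw.symm {D : Set G} {x u v : G} (h : Tw D x u v) : Tw D x v u :=
  fun e he => (h e he).symm

theorem Tw.trans {D : Set G} {x u v w : G} (h : Tw D x u v) (h' : Tw D x v w) : Tw D x u w :=
  fun e he => (h e he).trans (h' e he)

/-- Conjugation by an involution commuting with `x` preserves `Tw D x`. -/
theorem Tw.conj {D : Set G} (hD : IsTT D) {x u v t : G} (ht : t * t = 1) (hxt : Commute x t)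
    (h : Tw D x u v) : Tw D x (t * u * t) (t * v * t) := by
  intro e he
  have hti : t⁻¹ = t := inv_eq_of_mul_eq_one_left ht
  have hcc : ∀ w : G, t * (t * w * t) * t = w := by
    intro w
    calc t * (t * w * t) * t = (t * t) * w * (t * t) := by group
      _ = w := by rw [ht]; simp
  have he' : t * e * t ∈ Dset D x := by
    obtain ⟨heD, hex, hxe⟩ := he
    refine ⟨?_, ?_, ?_⟩
    · have := hD.conj_mem e heD t; rwa [hti] at this
    · intro h'; apply hex
      calc e = t * (t * e * t) * t := (hcc e).symm
        _ = t * x * t := by rw [h']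
        _ = x := by rw [← hxt.eq, mul_assoc, ht, mul_one]
    · exact (hxt.mul_right hxe).mul_right hxt
  have key : ∀ w : G, (e ≠ t * w * t ∧ Commute (t * w * t) e) ↔
      (t * e * t ≠ w ∧ Commute w (t * e * t)) := by
    intro w
    have h1 : e = t * w * t ↔ t * e * t = w := by
      constructor
      · intro h; rw [h]; exact hcc w
      · intro h; rw [← h]; exact (hcc e).symm
    have h2 : Commute (t * w * t) e ↔ Commute w (t * e * t) := by
      have := commute_conj_iff t w e
      rwa [hti] at this
    rw [Ne, h1, h2]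
  rw [key u, key v]
  exact h _ he'

/-- **Odd core step.** A subgroup `N` of odd order of `⟨D_x⟩`, normalized by `⟨D_x⟩` and not
centralized by it, gives two different members of `D_x` with the same neighbours in `D_x`. -/
theorem odd_core_step [Finite G] {D : Set G} (hD : IsTT D) {x : G}
    (N : Subgroup G) (hnorm : ∀ g ∈ Subgroup.closure (Dset D x), ∀ n ∈ N, g * n * g⁻¹ ∈ N)
    (hNH : N ≤ Subgroup.closure (Dset D x))
    (hodd : (Nat.card N).Coprime 2)
    (hnc : ∃ n ∈ N, ∃ g ∈ Subgroup.closure (Dset D x), g * n ≠ n * g) :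
    ∃ d ∈ Dset D x, ∃ b ∈ Dset D x, d ≠ b ∧ Tw D x d b := by
  obtain ⟨n, hnN, g, hg, hgn⟩ := hnc
  have hodd1 : ∀ u ∈ N, u ^ 2 = 1 → u = 1 := by
    intro u hu h2
    have h1 : u ^ Nat.card N = 1 := by
      have h0 : (⟨u, hu⟩ : N) ^ Nat.card N = 1 := pow_card_eq_one'
      have := congrArg Subtype.val h0
      rwa [Subgroup.coe_pow, Subgroup.coe_one] at this
    exact eq_one_of_coprime_pow hodd h1 h2
  have hex : ∃ d ∈ Dset D x, ¬ Commute d n := by
    by_contra hcon
    push Not at hcon
    have hle : Subgroup.closure (Dset D x) ≤ Subgroup.centralizer ({n} : Set G) := by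
      rw [Subgroup.closure_le]
      intro t ht
      rw [SetLike.mem_coe, Subgroup.mem_centralizer_iff]
      intro h hh
      rw [Set.mem_singleton_iff] at hh
      rw [hh]; exact (hcon t ht).eq.symm
    have := (Subgroup.mem_centralizer_iff.mp (hle hg)) n rfl
    exact hgn this.symm
  obtain ⟨d, hd, hdn⟩ := hex
  have hdH : d ∈ Subgroup.closure (Dset D x) := Subgroup.subset_closure hd
  have hnH := hNH hnN
  have hnx : Commute n x := closure_dset_commute hnH
  obtain ⟨b, hbdef⟩ : ∃ b : G, b = n * d * n⁻¹ := ⟨_, rfl⟩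
  have hbD : b ∈ D := by rw [hbdef]; exact hD.conj_mem d hd.1 n
  have hbx : b ∈ Dset D x := by
    refine ⟨hbD, ?_, ?_⟩
    · intro h
      apply hd.2.1
      calc d = n⁻¹ * (n * d * n⁻¹) * n := by group
        _ = n⁻¹ * x * n := by rw [← hbdef, h]
        _ = x := by rw [mul_assoc, ← hnx.eq, ← mul_assoc, inv_mul_cancel, one_mul]
    · rw [hbdef]
      exact ((hnx.symm.mul_right hd.2.2).mul_right hnx.symm.inv_right)
  have hdb : d ≠ b := by
    intro h
    apply hdn
    show d * n = n * d
    calc d * n = (n * d * n⁻¹) * n := by rw [← hbdef, ← h]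
      _ = n * d := by group
  have hdi := hD.inv_eq hd.1
  have hu : d * b ∈ N := by
    have h1 : d * n * d⁻¹ ∈ N := hnorm d hdH n hnN
    have h2 : d * b = (d * n * d⁻¹) * n⁻¹ := by rw [hbdef, hdi]; group
    rw [h2]; exact N.mul_mem h1 (N.inv_mem hnN)
  have hu' : b * d ∈ N := by
    have : b * d = (d * b)⁻¹ := by rw [mul_inv_rev, hdi, hD.inv_eq hbD]
    rw [this]; exact N.inv_mem hu
  have aux : ∀ d b : G, d ∈ Dset D x → b ∈ Dset D x → d * b ∈ N →
      ∀ e ∈ Dset D x, e ≠ d → Commute d e → Commute b e := by
    intro d b hd hb hu e he hed hde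
    by_contra hbe
    have sd := hD.sq d hd.1
    have sb := hD.sq b hb.1
    have hei := hD.inv_eq he.1
    have hdi := hD.inv_eq hd.1
    have heH : e ∈ Subgroup.closure (Dset D x) := Subgroup.subset_closure he
    have hdH : d ∈ Subgroup.closure (Dset D x) := Subgroup.subset_closure hd
    have hw : e * b * e * b ∈ N := by
      have h1 : e * (d * b) * e⁻¹ ∈ N := hnorm e heH _ hu
      have h2 : d * (e * (d * b) * e⁻¹) * d⁻¹ ∈ N := hnorm d hdH _ h1
      have h3 : e * b * e * b = (d * (e * (d * b) * e⁻¹) * d⁻¹) * (d * b) := by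
        rw [hei, hdi]
        calc e * b * e * b = e * (d * d) * b * e * (d * d) * b := by rw [sd]; group
          _ = (e * d) * d * b * e * d * (d * b) := by group
          _ = (d * e) * d * b * e * d * (d * b) := by rw [hde.eq]
          _ = d * (e * (d * b) * e) * d * (d * b) := by group
      rw [h3]; exact N.mul_mem h2 hu
    have hcube : (e * b) ^ 3 = 1 := hD.cube_of_not_commute he.1 hb.1 (fun h => hbe h.symm)
    have heb : e * b ∈ N := by
      have : e * b = (e * b * e * b)⁻¹ := by
        rw [eq_inv_iff_mul_eq_one]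
        calc e * b * (e * b * e * b) = (e * b) ^ 3 := by
              rw [pow_succ, pow_succ, pow_one]; group
          _ = 1 := hcube
      rw [this]; exact N.inv_mem hw
    have hde' : d * e ∈ N := by
      have : d * e = (d * b) * (e * b)⁻¹ := by
        rw [mul_inv_rev, hD.inv_eq hb.1, hei]
        calc d * e = d * (b * b) * e := by rw [sb, mul_one]
          _ = d * b * (b * e) := by group
      rw [this]; exact N.mul_mem hu (N.inv_mem heb)
    have h2 : (d * e) ^ 2 = 1 := hD.sq_of_commute hd.1 he.1 hde
    have h1 := hodd1 _ hde' h2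
    apply hed
    calc e = d⁻¹ := (inv_eq_of_mul_eq_one_right h1).symm
      _ = d := hdi
  refine ⟨d, hd, b, hbx, hdb, ?_⟩
  have hncomm : ¬ Commute d b := by
    intro hc
    have h2 : (d * b) ^ 2 = 1 := hD.sq_of_commute hd.1 hbD hc
    have h1 := hodd1 _ hu h2
    apply hdb
    calc d = d⁻¹ := hdi.symm
      _ = b := inv_eq_of_mul_eq_one_right h1
  intro e he
  constructor
  · rintro ⟨hed, hde⟩
    exact ⟨fun h => hncomm (by rw [← h]; exact hde), aux d b hd hbx hu e he hed hde⟩
  · rintro ⟨heb, hbe⟩
    exact ⟨fun h => hncomm (by rw [← h]; exact hbe.symm), aux b d hbx hd hu' e he heb hbe⟩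

open Equiv in
/-- **The `S₅` argument.** If `u ≠ v` in `D_a` have the same neighbours in `D_a` and `y ∈ D_v`
does not commute with `u`, then `y` and `a` have the same neighbours in `D_v`. -/
theorem factW {D : Set G} (hD : IsTT D) {a u v y : G} (ha : a ∈ D) (hu : u ∈ Dset D a)
    (hv : v ∈ Dset D a) (htw : Tw D a u v) (huv : u ≠ v) (hy : y ∈ D) (hyv : y ≠ v)
    (hvy : Commute v y) (huy : ¬ Commute u y) :
    Tw D v y a ∧ ¬ Commute a y ∧ ¬ Commute u v := by
  obtain ⟨huD, hua, hau⟩ := hu
  obtain ⟨hvD, hva, hav⟩ := hv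
  have hnuv : ¬ Commute u v := by
    intro hc
    have := (htw v ⟨hvD, hva, hav⟩).mp ⟨fun h => huv h.symm, hc⟩
    exact this.1 rfl
  have hnay : ¬ Commute a y := by
    intro hc
    have hya : y ≠ a := by rintro rfl; exact huy hau.symm
    have := (htw y ⟨hy, hya, hc⟩).mpr ⟨hyv, hvy⟩
    exact huy this.2
  have sa := hD.sq a ha
  have sy := hD.sq y hy
  have su := hD.sq u huD
  have sv := hD.sq v hvD
  have b1 : a * y * a = y * a * y := hD.braid a ha y hy hnay
  have b2 : y * u * y = u * y * u := hD.braid y hy u huD (fun h => huy h.symm)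
  have b3 : u * v * u = v * u * v := hD.braid u huD v hvD hnuv
  obtain ⟨f, fa, fy, fu, fv⟩ := Cfsg.Agent.Helper14.S5Pres.s5_hom a y u v sa sy su sv b1 b2 b3
    hau.eq hav.eq hvy.eq.symm
  -- members of `D_a ∩ D_v` commute with `y`
  have L1 : ∀ t ∈ Dset D a, t ≠ v → Commute v t → Commute t y := by
    intro t ht htv hvt
    by_contra hty
    obtain ⟨htD, hta, hat⟩ := ht
    obtain ⟨σ, hσ⟩ : ∃ σ : Perm (Fin 5), σ = swap 0 3 * swap 1 4 := ⟨_, rfl⟩
    have P0 : σ * σ = 1 := by rw [hσ]; decide
    have P1 : σ * swap 0 1 * σ = swap 3 4 := by rw [hσ]; decide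
    have P2 : σ * swap 3 4 * σ = swap 0 1 := by rw [hσ]; decide
    have P3 : σ * swap 2 3 * σ = swap 0 1 * swap 1 2 * swap 0 1 := by rw [hσ]; decide
    obtain ⟨g, hg⟩ : ∃ g : G, g = f σ := ⟨_, rfl⟩
    have hgg : g * g = 1 := by
      have := congrArg f P0
      rw [map_mul, map_one, ← hg] at this
      exact this
    have hgi : g⁻¹ = g := inv_eq_of_mul_eq_one_left hgg
    have hga : g * a * g = v := by
      have := congrArg f P1
      simp only [map_mul] at this
      rw [fa, fv, ← hg] at this
      exact this
    have hgv : g * v * g = a := by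
      have := congrArg f P2
      simp only [map_mul] at this
      rw [fa, fv, ← hg] at this
      exact this
    have hgu : g * u * g = a * y * a := by
      have := congrArg f P3
      simp only [map_mul] at this
      rw [fa, fy, fu, ← hg] at this
      exact this
    have hcj : ∀ w : G, Commute (g * t * g) w ↔ Commute t (g * w * g) := by
      intro w
      have := commute_conj_iff g t w
      rwa [hgi] at this
    have ht'D : g * t * g ∈ D := by
      have := hD.conj_mem t htD g; rwa [hgi] at this
    have c1 : Commute a (g * t * g) := ((hcj a).mpr (by rw [hga]; exact hvt.symm)).symm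
    have c2 : Commute v (g * t * g) := ((hcj v).mpr (by rw [hgv]; exact hat.symm)).symm
    have c3 : ¬ Commute u (g * t * g) := by
      intro hc
      have := (hcj u).mp hc.symm
      rw [hgu] at this
      apply hty
      have h2 : Commute t (a * (a * y * a) * a) := (hat.symm.mul_right this).mul_right hat.symm
      have h3 : a * (a * y * a) * a = y := by
        calc a * (a * y * a) * a = (a * a) * y * (a * a) := by group
          _ = y := by rw [sa]; simp
      rwa [h3] at h2
    have n1 : g * t * g ≠ a := by
      intro h; rw [h] at c3; exact c3 hau.symm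
    have n2 : g * t * g ≠ v := by
      intro h
      apply hta
      calc t = g * (g * t * g) * g := by
            rw [show g * (g * t * g) * g = (g * g) * t * (g * g) by group, hgg]; simp
        _ = g * v * g := by rw [h]
        _ = a := hgv
    have := (htw _ ⟨ht'D, n1, c1⟩).mpr ⟨n2, c2⟩
    exact c3 this.2
  refine ⟨?_, hnay, hnuv⟩
  intro e he
  obtain ⟨heD, hev, hve⟩ := he
  constructor
  · rintro ⟨hey, hye⟩
    obtain ⟨r, hr⟩ : ∃ r : G, r = a * y * a := ⟨_, rfl⟩
    have hrr : r * r = 1 := by
      rw [hr]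
      calc a * y * a * (a * y * a) = a * y * (a * a) * y * a := by group
        _ = a * (y * y) * a := by rw [sa]; group
        _ = 1 := by rw [sy, mul_one, sa]
    have hri : r⁻¹ = r := inv_eq_of_mul_eq_one_left hrr
    have hra : r * a * r = y := by
      rw [hr]
      calc a * y * a * a * (a * y * a) = a * y * (a * a) * a * y * a := by group
        _ = a * (y * a * y) * a := by rw [sa]; group
        _ = a * (a * y * a) * a := by rw [b1]
        _ = (a * a) * y * (a * a) := by group
        _ = y := by rw [sa]; simp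
    have hry : r * y * r = a := by
      rw [hr]
      calc a * y * a * y * (a * y * a) = a * y * (a * y * a) * y * a := by group
        _ = a * y * (y * a * y) * y * a := by rw [b1]
        _ = a * (y * y) * a * (y * y) * a := by group
        _ = a := by rw [sy, mul_one, mul_one, sa, one_mul]
    have hrv : Commute r v := by
      rw [hr]; exact (hav.mul_left hvy.symm).mul_left hav
    have hcc : ∀ w : G, r * (r * w * r) * r = w := by
      intro w
      calc r * (r * w * r) * r = (r * r) * w * (r * r) := by group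
        _ = w := by rw [hrr]; simp
    have he'D : r * e * r ∈ D := by
      have := hD.conj_mem e heD r; rwa [hri] at this
    have hce'v : Commute v (r * e * r) := (hrv.symm.mul_right hve).mul_right hrv.symm
    have hce'a : Commute a (r * e * r) := by
      rw [← hry]
      show r * y * r * (r * e * r) = r * e * r * (r * y * r)
      calc r * y * r * (r * e * r) = r * y * (r * r) * e * r := by group
        _ = r * (y * e) * r := by rw [hrr]; group
        _ = r * (e * y) * r := by rw [hye.eq]
        _ = r * e * (r * r) * y * r := by rw [hrr]; group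
        _ = r * e * r * (r * y * r) := by group
    have hne'a : r * e * r ≠ a := by
      intro h; apply hey
      calc e = r * (r * e * r) * r := (hcc e).symm
        _ = r * a * r := by rw [h]
        _ = y := hra
    have hne'v : r * e * r ≠ v := by
      intro h; apply hev
      calc e = r * (r * e * r) * r := (hcc e).symm
        _ = r * v * r := by rw [h]
        _ = v := by rw [hrv.eq, mul_assoc, hrr, mul_one]
    have hc1 : Commute (r * e * r) y := L1 _ ⟨he'D, hne'a, hce'a⟩ hne'v hce'v
    have hc2 : Commute (r * e * r) (a * y * a) :=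
      (hce'a.symm.mul_right hc1).mul_right hce'a.symm
    rw [← hr] at hc2
    have h4 : r * e = e * r := by
      have := hc2.eq
      calc r * e = r * e * (r * r) := by rw [hrr, mul_one]
        _ = r * e * r * r := by group
        _ = r * (r * e * r) := this
        _ = (r * r) * e * r := by group
        _ = e * r := by rw [hrr, one_mul]
    have hee : r * e * r = e := by rw [h4, mul_assoc, hrr, mul_one]
    rw [hee] at hne'a hce'a
    exact ⟨hne'a, hce'a⟩
  · rintro ⟨hea, hae⟩
    have := L1 e ⟨heD, hea, hae⟩ hev hve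
    exact ⟨fun h => hnay (by rw [← h]; exact hae), this.symm⟩

/-- **Coclique lemma.** In a primitive connected class with trivial centre, if `u ≠ v` in `D_x`
have the same neighbours in `D_x` and some `y ∈ D_v` does not commute with `u`, then no two
members of `D_x` commute. -/
theorem coclique_aux [Finite G] {D : Set G} (hD : IsTT D)
    (hprim : Cfsg.IsPrimitiveUnderConj D) (hc : Conn D)
    (hZ : ∀ g : G, (∀ e ∈ D, Commute g e) → g = 1)
    {x u v y : G} (hx : x ∈ D) (hu : u ∈ Dset D x) (hv : v ∈ Dset D x) (huv : u ≠ v)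
    (htw : Tw D x u v) (hy : y ∈ D) (hyv : y ≠ v) (hvy : Commute v y) (huy : ¬ Commute u y) :
    ∀ e ∈ Dset D x, ∀ e' ∈ Dset D x, e ≠ e' → ¬ Commute e e' := by
  obtain ⟨htwv, hnxy, hnuv⟩ := factW hD hx hu hv htw huv hy hyv hvy huy
  have hxv : x ∈ Dset D v := dset_symm hx hv
  have hyv' : y ∈ Dset D v := ⟨hy, hyv, hvy⟩
  have hvD := hv.1
  have claimA : ∀ e ∈ Dset D x, ¬ Tw D x e v → ∀ y' ∈ Dset D v, Tw D v y' x → Commute e y' := by
    intro e he hne y' hy' htw'
    by_cases hy'x : y' = x
    · rw [hy'x]; exact he.2.2.symm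
    · by_contra hcon
      have := factW hD hvD hy' hxv htw' hy'x he.1 he.2.1 he.2.2 (fun h => hcon h.symm)
      exact hne this.1
  obtain ⟨T, hTdef⟩ : ∃ T : Set G,
      T = {e | e ∈ D ∧ Commute x e} ∪ {y' | y' ∈ Dset D v ∧ Tw D v y' x} := ⟨_, rfl⟩
  have hTD : T ⊆ D := by
    rw [hTdef]; rintro t (ht | ht)
    · exact ht.1
    · exact ht.1.1
  have hM : Subgroup.closure T = ⊤ := by
    have hDsub : Cfsg.IsDSubgroup D (Subgroup.closure T) := by
      unfold Cfsg.IsDSubgroup
      apply le_antisymm
      · rw [Subgroup.closure_le]; intro e he; exact he.2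
      · apply Subgroup.closure_mono
        intro t ht; exact ⟨hTD ht, Subgroup.subset_closure ht⟩
    have hle : Subgroup.closure {e : G | e ∈ D ∧ Commute x e} ≤ Subgroup.closure T := by
      apply Subgroup.closure_mono
      rw [hTdef]; exact Set.subset_union_left
    rcases maximal_D_subgroup hD hprim hc hx _ hDsub hle with h | h
    · exfalso
      have hyT : y ∈ Subgroup.closure T :=
        Subgroup.subset_closure (by rw [hTdef]; right; exact ⟨hyv', htwv⟩)
      rw [h] at hyT
      have hcent : Subgroup.closure {e : G | e ∈ D ∧ Commute x e} ≤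
          Subgroup.centralizer ({x} : Set G) := by
        rw [Subgroup.closure_le]
        intro t ht
        rw [SetLike.mem_coe, Subgroup.mem_centralizer_iff]
        intro h' hh
        rw [Set.mem_singleton_iff] at hh
        rw [hh]; exact ht.2.eq
      have := (Subgroup.mem_centralizer_iff.mp (hcent hyT)) x rfl
      exact hnxy this
    · exact h
  obtain ⟨S, hSdef⟩ : ∃ S : Set G, S = {e | e ∈ Dset D x ∧ ¬ Tw D x e v} := ⟨_, rfl⟩
  have hSmem : ∀ e, e ∈ S ↔ e ∈ Dset D x ∧ ¬ Tw D x e v := by
    intro e; rw [hSdef]; rfl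
  have hRn : (Subgroup.closure S).Normal := by
    apply normal_of_gens T S hM
    intro t ht s hs
    have hti : t⁻¹ = t := hD.inv_eq (hTD ht)
    rw [hti]
    have hgoal : t * s * t ∈ Subgroup.closure S := by
      obtain ⟨hsx, hsn⟩ := (hSmem s).mp hs
      rw [hTdef] at ht
      rcases ht with ht | ht
      · by_cases htx : t = x
        · have : t * s * t = s := by
            rw [htx, hsx.2.2.eq, mul_assoc, hD.sq x hx, mul_one]
          rw [this]; exact Subgroup.subset_closure hs
        · have htx' : t ∈ Dset D x := ⟨ht.1, htx, ht.2⟩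
          have htt := hD.sq t ht.1
          have hcc : ∀ w : G, t * (t * w * t) * t = w := by
            intro w
            calc t * (t * w * t) * t = (t * t) * w * (t * t) := by group
              _ = w := by rw [htt]; simp
          by_cases htU : Tw D x t v
          · apply Subgroup.subset_closure
            rw [hSmem]
            have hts : t * s * t ∈ Dset D x := by
              refine ⟨?_, ?_, ?_⟩
              · have := hD.conj_mem s hsx.1 t; rwa [hti] at this
              · intro h; apply hsx.2.1
                calc s = t * (t * s * t) * t := (hcc s).symm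
                  _ = t * x * t := by rw [h]
                  _ = x := by rw [← ht.2.eq, mul_assoc, htt, mul_one]
              · exact (ht.2.mul_right hsx.2.2).mul_right ht.2
            refine ⟨hts, ?_⟩
            intro hcon
            have h1 := Tw.conj hD htt ht.2 hcon
            have h2 := Tw.conj hD htt ht.2 htU
            have e2 : t * t * t = t := by rw [htt, one_mul]
            rw [hcc s] at h1; rw [e2] at h2
            exact hsn ((h1.trans h2.symm).trans htU)
          · have htS : t ∈ Subgroup.closure S :=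
              Subgroup.subset_closure ((hSmem t).mpr ⟨htx', htU⟩)
            have hsS : s ∈ Subgroup.closure S := Subgroup.subset_closure hs
            exact mul_mem (mul_mem htS hsS) htS
      · have hcomm : Commute s t := claimA s hsx hsn t ht.1 ht.2
        have : t * s * t = s := by rw [← hcomm.eq, mul_assoc, hD.sq t ht.1.1, mul_one]
        rw [this]; exact Subgroup.subset_closure hs
    exact ⟨hgoal, hgoal⟩
  have hS0 : ∀ s ∈ S, False := by
    intro s hs
    have hsR : s ∈ Subgroup.closure S := Subgroup.subset_closure hs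
    have hcomm : ∀ r ∈ Subgroup.closure S, Commute r x := by
      intro r hr
      have hle : Subgroup.closure S ≤ Subgroup.closure (Dset D x) := by
        apply Subgroup.closure_mono; intro e he; exact ((hSmem e).mp he).1
      exact closure_dset_commute (hle hr)
    have hs1 : s = 1 := by
      apply hZ
      intro e he
      obtain ⟨g, rfl⟩ := hD.isConj x hx e he
      have h1 : g⁻¹ * s * g ∈ Subgroup.closure S := by
        have := hRn.conj_mem s hsR g⁻¹
        simpa using this
      have h2 := hcomm _ h1
      exact ((commute_conj_iff g x s).mpr h2.symm).symm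
    have hsx := ((hSmem s).mp hs).1
    apply hsx.2.1
    obtain ⟨g, hg⟩ := hD.isConj s hsx.1 x hx
    rw [← hg, hs1]; simp
  have hall : ∀ e ∈ Dset D x, Tw D x e v := by
    intro e he
    by_contra hcon
    exact hS0 e ((hSmem e).mpr ⟨he, hcon⟩)
  intro e he e' he' hee' hcomm
  have h1 : Tw D x e e' := (hall e he).trans (hall e' he').symm
  have := (h1 e' he').mp ⟨fun h => hee' h.symm, hcomm⟩
  exact this.1 rfl

/-- **Coclique theorem.** In a primitive connected class with trivial centre and trivial
`W`-classes, if `d ≠ b` in `D_x` have the same neighbours in `D_x`, then no two members of any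
`D_a` commute, and there is a path `x, y, u, v` of type `A₄`. -/
theorem coclique_of_tw [Finite G] {D : Set G} (hD : IsTT D)
    (hprim : Cfsg.IsPrimitiveUnderConj D) (hc : Conn D)
    (hZ : ∀ g : G, (∀ e ∈ D, Commute g e) → g = 1)
    (hW : ∀ a ∈ D, ∀ b ∈ D, Dset D a = Dset D b → a = b)
    {x d b : G} (hx : x ∈ D) (hd : d ∈ Dset D x) (hb : b ∈ Dset D x) (hdb : d ≠ b)
    (htw : Tw D x d b) :
    (∀ a ∈ D, ∀ e ∈ Dset D a, ∀ e' ∈ Dset D a, e ≠ e' → ¬ Commute e e') ∧
    ∃ u ∈ Dset D x, ∃ v ∈ Dset D x, ∃ y ∈ D, ¬ Commute u v ∧ Commute v y ∧ ¬ Commute u y ∧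
      ¬ Commute x y := by
  have hnc : ¬ Commute d b := by
    intro hcm
    have := (htw b hb).mp ⟨fun h => hdb h.symm, hcm⟩
    exact this.1 rfl
  -- the path
  have hpath : ∃ u ∈ Dset D x, ∃ v ∈ Dset D x, ∃ y ∈ D, u ≠ v ∧ Tw D x u v ∧ y ≠ v ∧
      Commute v y ∧ ¬ Commute u y := by
    have hne : Dset D d ≠ Dset D b := fun h => hdb (hW d hd.1 b hb.1 h)
    have : ∃ y, (y ∈ Dset D d ∧ y ∉ Dset D b) ∨ (y ∈ Dset D b ∧ y ∉ Dset D d) := by
      by_contra hcon
      push Not at hcon
      apply hne
      ext y
      constructor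
      · intro hy; exact (hcon y).1 hy
      · intro hy; exact (hcon y).2 hy
    obtain ⟨y, hy | hy⟩ := this
    · obtain ⟨⟨hyD, hyd, hdy⟩, hyb⟩ := hy
      refine ⟨b, hb, d, hd, y, hyD, fun h => hdb h.symm, htw.symm, hyd, hdy, ?_⟩
      intro hby
      apply hyb
      refine ⟨hyD, ?_, hby⟩
      rintro rfl
      exact hnc hdy
    · obtain ⟨⟨hyD, hyb, hby⟩, hyd⟩ := hy
      refine ⟨d, hd, b, hb, y, hyD, hdb, htw, hyb, hby, ?_⟩
      intro hdy
      apply hyd
      refine ⟨hyD, ?_, hdy⟩
      rintro rfl
      exact hnc hby.symm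
  obtain ⟨u, hu, v, hv, y, hyD, huv, htw', hyv, hvy, huy⟩ := hpath
  have hco := coclique_aux hD hprim hc hZ hx hu hv huv htw' hyD hyv hvy huy
  obtain ⟨-, hnxy, hnuv⟩ := factW hD hx hu hv htw' huv hyD hyv hvy huy
  refine ⟨?_, u, hu, v, hv, y, hyD, hnuv, hvy, huy, hnxy⟩
  intro a ha e he e' he' hee' hcomm
  obtain ⟨g, rfl⟩ := hD.isConj x hx a ha
  have h1 := (dset_equivariant hD g x e).mp he
  have h2 := (dset_equivariant hD g x e').mp he'
  apply hco _ h1 _ h2
  · intro h
    apply hee'
    calc e = g * (g⁻¹ * e * g) * g⁻¹ := by group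
      _ = g * (g⁻¹ * e' * g) * g⁻¹ := by rw [h]
      _ = e' := by group
  · show g⁻¹ * e * g * (g⁻¹ * e' * g) = g⁻¹ * e' * g * (g⁻¹ * e * g)
    calc g⁻¹ * e * g * (g⁻¹ * e' * g) = g⁻¹ * (e * e') * g := by group
      _ = g⁻¹ * (e' * e) * g := by rw [hcomm.eq]
      _ = g⁻¹ * e' * g * (g⁻¹ * e * g) := by group

end Cfsg.Agent.Helper14.TT
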