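import Mathlib
import Cfsg.Agent.Helper14.ThreeTrans14
import Cfsg.Agent.Helper14.SrgSquare
import Cfsg.Agent.Helper14.ThreeTrans2

/-!
# 3-transpositions: a triangle-free commuting graph has valency three (helper14)

* `dset_conj_mem`: `D_z` is closed under conjugation by its members.
* `coclique_three`: in a rank 3 class where no two members of any `D_a` commute, and some two
  non-commuting members have a common neighbour, `|D_x| = 3`.
-/

set_option autoImplicit false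

namespace Cfsg.Agent.Helper14.TT

variable {G : Type*} [Group G]

theorem dset_conj_mem {D : Set G} (hD : IsTT D) {z u v : G} (hu : u ∈ Dset D z)
    (hv : v ∈ Dset D z) : u * v * u ∈ Dset D z := by
  have hui := hD.inv_eq hu.1
  refine ⟨?_, ?_, ?_⟩
  · have := hD.conj_mem v hv.1 u; rwa [hui] at this
  · intro h
    apply hv.2.1
    calc v = u * (u * v * u) * u := by
          rw [show u * (u * v * u) * u = (u * u) * v * (u * u) by group, hD.sq u hu.1]; simp
      _ = u * z * u := by rw [h]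
      _ = z := by rw [← hu.2.2.eq, mul_assoc, hD.sq u hu.1, mul_one]
  · exact (hu.2.2.mul_right hv.2.2).mul_right hu.2.2

/-- **Valency three.** If no two members of any `D_a` commute, then `|D_x| = 3`. -/
theorem coclique_three [Finite G] {D : Set G} (hD : IsTT D) (hs : IsSimpleGroup (commutator G))
    (hDa : ∀ a ∈ D, ∃ b ∈ D, b ≠ a ∧ Commute a b)
    (hco : ∀ a ∈ D, ∀ e ∈ Dset D a, ∀ e' ∈ Dset D a, e ≠ e' → ¬ Commute e e')
    {x y b d : G} (hx : x ∈ D) (hy : y ∈ D) (hxy : ¬ Commute x y)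
    (hd : d ∈ Dset D x) (hdy : Commute d y) (hb : b ∈ Dset D x) (hby : ¬ Commute b y) :
    (Dset D x).ncard = 3 := by
  classical
  have : Fintype ↥D := Fintype.ofFinite _
  have : Nonempty ↥D := ⟨⟨x, hx⟩⟩
  obtain ⟨Cm, hCm⟩ : ∃ Cm : G → G → Set G,
      Cm = fun a c => {e | e ∈ Dset D a ∧ e ∈ Dset D c} := ⟨_, rfl⟩
  have hCmem : ∀ a c e, e ∈ Cm a c ↔ e ∈ Dset D a ∧ e ∈ Dset D c := by
    intro a c e; rw [hCm]; rfl
  obtain ⟨adj, hadj⟩ : ∃ adj : D → D → Prop,
      adj = fun (a c : ↥D) => (c : G) ≠ (a : G) ∧ Commute (a : G) (c : G) := ⟨_, rfl⟩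
  have hadj' : ∀ a c : D, adj a c ↔ (c : G) ∈ Dset D a := by
    intro a c; rw [hadj]; exact ⟨fun h => ⟨c.2, h.1, h.2⟩, fun h => ⟨h.2.1, h.2.2⟩⟩
  have T1 : ∀ p : G → Prop, {c : D | p c}.ncard = {g | g ∈ D ∧ p g}.ncard := by
    intro p
    rw [← Set.ncard_image_of_injective _ Subtype.val_injective]
    congr 1
    ext g
    constructor
    · rintro ⟨c, hc, rfl⟩; exact ⟨c.2, hc⟩
    · rintro ⟨hg, hp⟩; exact ⟨⟨g, hg⟩, hp, rfl⟩
  have hbr : ∀ z ∈ D, ∀ u ∈ Dset D z, ∀ v ∈ Dset D z, u * v * u = v * u * v := by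
    intro z hz u hu v hv
    by_cases huv : u = v
    · rw [huv]
    · exact hD.braid u hu.1 v hv.1 (hco z hz u hu v hv huv)
  obtain ⟨j, hj⟩ := ncard_three_pow (Dset D x) ⟨d, hd⟩ (fun u hu => hD.sq u hu.1)
    (fun u hu v hv => dset_conj_mem hD hu hv) (hbr x hx)
  have hdy' : d ∈ Dset D y := ⟨hd.1, fun h => hxy (by rw [← h]; exact hd.2.2), hdy.symm⟩
  obtain ⟨i, hi⟩ := ncard_three_pow (Cm x y) ⟨d, (hCmem x y d).mpr ⟨hd, hdy'⟩⟩
    (fun u hu => hD.sq u ((hCmem x y u).mp hu).1.1)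
    (fun u hu v hv => (hCmem x y _).mpr
      ⟨dset_conj_mem hD ((hCmem x y u).mp hu).1 ((hCmem x y v).mp hv).1,
        dset_conj_mem hD ((hCmem x y u).mp hu).2 ((hCmem x y v).mp hv).2⟩)
    (fun u hu v hv => hbr x hx u ((hCmem x y u).mp hu).1 v ((hCmem x y v).mp hv).1)
  have hlt : (Cm x y).ncard < (Dset D x).ncard := by
    apply Set.ncard_lt_ncard _ (Set.toFinite _)
    refine ⟨fun e he => ((hCmem x y e).mp he).1, fun hsub => ?_⟩
    have := (hCmem x y b).mp (hsub hb)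
    exact hby this.2.2.2.symm
  have hij : i < j := by
    rw [hi, hj] at hlt
    exact (Nat.pow_lt_pow_iff_right (by norm_num : 1 < 3)).mp hlt
  have hirr : ∀ a : D, ¬ adj a a := by
    intro a h
    exact ((hadj' a a).mp h).2.1 rfl
  have hk : ∀ a : D, {c : D | adj a c}.ncard = 3 ^ j := by
    intro a
    rw [← hj, ← ncard_dset_eq hD hx a.2]
    have e1 : {c : D | adj a c} = {c : D | (fun g => g ∈ Dset D (a : G)) (c : G)} := by
      ext c; exact hadj' a c
    rw [e1, T1]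
    congr 1
    ext g
    exact ⟨fun h => h.2, fun h => ⟨h.1, h⟩⟩
  have hkk : ∀ a : D, {c : D | adj a c ∧ adj c a}.ncard = 3 ^ j := by
    intro a
    rw [← hk a]
    congr 1
    ext c
    constructor
    · intro h; exact h.1
    · intro h
      refine ⟨h, ?_⟩
      have h1 := (hadj' a c).mp h
      exact (hadj' c a).mpr (dset_symm a.2 h1)
  have h0 : ∀ a b : D, adj a b → {c : D | adj a c ∧ adj c b}.ncard = 0 := by
    intro a b hab
    have : {c : D | adj a c ∧ adj c b} = ∅ := by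
      rw [Set.eq_empty_iff_forall_notMem]
      rintro c ⟨h1, h2⟩
      have h1' := (hadj' a c).mp h1
      have h2' := (hadj' c b).mp h2
      have h3' := (hadj' a b).mp hab
      exact hco a a.2 c h1' b h3' (fun h => h2'.2.1 h.symm) h2'.2.2
    rw [this, Set.ncard_empty]
  have hμ : ∀ a b : D, a ≠ b → ¬ adj a b → {c : D | adj a c ∧ adj c b}.ncard = 3 ^ i := by
    intro a b hab hnadj
    have hnc : ¬ Commute (a : G) b := fun hc =>
      hnadj ((hadj' a b).mpr ⟨b.2, fun h => hab (Subtype.ext h.symm), hc⟩)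
    have e1 : {c : D | adj a c ∧ adj c b} = {c : D | (fun g => g ∈ Cm (a : G) b) (c : G)} := by
      ext c
      show adj a c ∧ adj c b ↔ (c : G) ∈ Cm a b
      rw [hadj', hadj', hCmem]
      constructor
      · rintro ⟨h1, h2⟩; exact ⟨h1, dset_symm c.2 h2⟩
      · rintro ⟨h1, h2⟩; exact ⟨h1, dset_symm b.2 h2⟩
    rw [e1, T1]
    have e2 : {g | g ∈ D ∧ g ∈ Cm (a : G) b} = Cm (a : G) b := by
      ext g
      exact ⟨fun h => h.2, fun h => ⟨((hCmem _ _ g).mp h).1.1, h⟩⟩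
    rw [e2, ← hi]
    -- conjugate the pair `(x, y)` to `(a, b)`
    obtain ⟨g₁, hg₁⟩ := hD.isConj x hx a a.2
    have hc1 : Conj2 x y (a : G) (g₁ * y * g₁⁻¹) := ⟨g₁, hg₁, rfl⟩
    have hy' : g₁ * y * g₁⁻¹ ∈ D := hD.conj_mem y hy g₁
    have hnc' : ¬ Commute (a : G) (g₁ * y * g₁⁻¹) := fun h => hxy ((conj2_commute_iff hc1).mpr h)
    have hc2 := trans_noncomm hD hs a.2 (hDa a a.2) _ hy' b b.2 hnc' hnc
    obtain ⟨g, hga, hgb⟩ := conj2_trans hc1 hc2
    apply ncard_conj_eq g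
    intro e
    rw [hCmem, hCmem, ← dset_equivariant hD g x e, ← dset_equivariant hD g y e, hga, hgb]
  have hsq := Cfsg.Agent.Helper14.Srg.srg_isSquare adj (3 ^ j) (3 ^ i) hirr hk hkk h0 hμ
    (Odd.pow (by decide)) (Odd.pow (by decide)) (Nat.pow_le_pow_right (by norm_num) hij.le)
  have hj1 := Cfsg.Agent.Helper14.Srg.three_pow_square hij hsq
  rw [hj, hj1]; norm_num

end Cfsg.Agent.Helper14.TT
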