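import Cfsg.Agent.Helper14.ThreeTrans
import Cfsg.Agent.S0215
import Cfsg.Agent.Helper72.Kazarin
import Cfsg.Agent.Helper35.CoprimeSylow
import Cfsg.Agent.Helper59.MinNormal2
import Cfsg.Agent.Helper3.Burnside2

/-!
# 3-transposition classes in groups with trivial solvable radical (helper14)

Let `D` be a conjugacy class of 3-transpositions generating the finite group `G`.  If `G` has
no non-trivial solvable normal subgroup and its commutator subgroup is perfect, then the
commutator subgroup is a non-abelian simple group (`commutator_simple`):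

* a minimal normal subgroup `L` is simple (`minNormal_simple`): otherwise some member of `D`
  moves a direct factor `T` to a commuting one, and then every element of `T` has order at most
  three, so that `T` is solvable by Burnside's theorem;
* commuting members of `D` are congruent modulo `L` (`width_one`);
* hence no two distinct members of the image of `D` in `G/L` commute, the Z*-theorem and
  Kazarin's theorem make the commutator subgroup of `G/L` a `3`-group, and it is perfect.
-/

set_option autoImplicit false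

namespace Cfsg.Agent.Helper14.TT

open scoped commutatorElement

variable {G : Type*} [Group G]

theorem IsTT.sq_or_cube {D : Set G} (hD : IsTT D) {d e : G} (hd : d ∈ D) (he : e ∈ D) :
    (d * e) ^ 2 = 1 ∨ (d * e) ^ 3 = 1 := by
  by_cases hc : Commute d e
  · left
    calc (d * e) ^ 2 = d * (e * d) * e := by rw [pow_two]; group
      _ = d * (d * e) * e := by rw [hc.eq]
      _ = (d * d) * (e * e) := by group
      _ = 1 := by rw [hD.sq d hd, hD.sq e he, mul_one]
  · right
    have hb := hD.braid d hd e he hc
    calc (d * e) ^ 3 = (d * e) * (d * e) * (d * e) := by rw [pow_succ, pow_succ, pow_one]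
      _ = (d * e * d) * (e * d * e) := by group
      _ = (e * d * e) * (e * d * e) := by rw [hb]
      _ = e * d * (e * e) * d * e := by group
      _ = e * (d * d) * e := by rw [hD.sq e he]; group
      _ = 1 := by rw [hD.sq d hd]; simp [hD.sq e he]

/-- The image of a class of 3-transpositions under a surjective homomorphism. -/
theorem IsTT.map {H : Type*} [Group H] {D : Set G} (hD : IsTT D) (f : G →* H)
    (hf : Function.Surjective f) : IsTT (f '' D) := by
  refine ⟨?_, ?_, ?_, ?_, ?_⟩
  · rintro _ ⟨d, hd, rfl⟩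
    rw [← map_mul, hD.sq d hd, map_one]
  · rintro _ ⟨d, hd, rfl⟩ h
    obtain ⟨g, rfl⟩ := hf h
    exact ⟨g * d * g⁻¹, hD.conj_mem d hd g, by simp⟩
  · rintro _ ⟨d, hd, rfl⟩ _ ⟨e, he, rfl⟩ hde
    have hde' : ¬ Commute d e := fun h => hde (h.map f)
    have hb := hD.braid d hd e he hde'
    rw [← map_mul, ← map_mul, ← map_mul, ← map_mul, hb]
  · rintro _ ⟨d, hd, rfl⟩ _ ⟨e, he, rfl⟩
    obtain ⟨g, rfl⟩ := hD.isConj d hd e he
    exact ⟨f g, by simp⟩
  · rw [← MonoidHom.map_closure, hD.gen]
    exact Subgroup.map_top_of_surjective f hf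

/-- A group generated by pairwise commuting elements is commutative. -/
theorem comm_of_closure_comm {K : Type*} [Group K] (S : Set K) (hS : Subgroup.closure S = ⊤)
    (hc : ∀ s ∈ S, ∀ t ∈ S, s * t = t * s) : ∀ x y : K, x * y = y * x := by
  have h1 : ∀ x : K, ∀ s ∈ S, s * x = x * s := by
    intro x s hs
    have hle : Subgroup.closure S ≤ Subgroup.centralizer ({s} : Set K) := by
      rw [Subgroup.closure_le]
      intro t ht
      rw [SetLike.mem_coe, Subgroup.mem_centralizer_iff]
      intro h hh
      rw [Set.mem_singleton_iff] at hh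
      rw [hh]; exact hc s hs t ht
    have hx : x ∈ Subgroup.centralizer ({s} : Set K) := hle (by rw [hS]; exact Subgroup.mem_top x)
    exact (Subgroup.mem_centralizer_iff.mp hx) s rfl
  intro x y
  have hle : Subgroup.closure S ≤ Subgroup.centralizer ({x} : Set K) := by
    rw [Subgroup.closure_le]
    intro t ht
    rw [SetLike.mem_coe, Subgroup.mem_centralizer_iff]
    intro h hh
    rw [Set.mem_singleton_iff] at hh
    rw [hh]; exact (h1 x t ht).symm
  have hy : y ∈ Subgroup.centralizer ({x} : Set K) := hle (by rw [hS]; exact Subgroup.mem_top y)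
  exact (Subgroup.mem_centralizer_iff.mp hy) x rfl

/-- If the generators commute modulo the normal subgroup `N`, the commutator subgroup lies in
`N`. -/
theorem commutator_le_of_generators {K : Type*} [Group K] (N : Subgroup K) [N.Normal]
    (S : Set K) (hS : Subgroup.closure S = ⊤) (hc : ∀ s ∈ S, ∀ t ∈ S, ⁅s, t⁆ ∈ N) :
    commutator K ≤ N := by
  have hS' : Subgroup.closure ((QuotientGroup.mk' N) '' S) = ⊤ := by
    rw [← MonoidHom.map_closure, hS]
    exact Subgroup.map_top_of_surjective _ (QuotientGroup.mk'_surjective N)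
  have hcomm := comm_of_closure_comm ((QuotientGroup.mk' N) '' S) hS' (by
    rintro _ ⟨s, hs, rfl⟩ _ ⟨t, ht, rfl⟩
    have h := hc s hs t ht
    have h1 : (QuotientGroup.mk' N) ⁅s, t⁆ = 1 := by
      rw [QuotientGroup.mk'_apply, QuotientGroup.eq_one_iff]; exact h
    rw [map_commutatorElement] at h1
    exact (commutatorElement_eq_one_iff_commute.mp h1).eq)
  rw [commutator_def, Subgroup.commutator_le]
  intro g₁ _ g₂ _
  have h1 : (QuotientGroup.mk' N) ⁅g₁, g₂⁆ = 1 := by
    rw [map_commutatorElement]
    exact commutatorElement_eq_one_iff_commute.mpr (hcomm _ _)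
  rw [QuotientGroup.mk'_apply, QuotientGroup.eq_one_iff] at h1
  exact h1

/-- A perfect solvable subgroup is trivial. -/
theorem eq_bot_of_solvable_of_perfect (M : Subgroup G) (hM : Group.IsSolvable M)
    (hperf : ⁅M, M⁆ = M) : M = ⊥ := by
  by_contra hne
  have : Nontrivial M := (Subgroup.nontrivial_iff_ne_bot M).mpr hne
  have hlt := Group.IsSolvable.commutator_lt_top_of_nontrivial M
  have h1 : Subgroup.map M.subtype (commutator M) = ⁅M, M⁆ := Subgroup.map_subtype_commutator M
  have h2 : Subgroup.map M.subtype ⊤ = M := by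
    rw [← MonoidHom.range_eq_map, Subgroup.range_subtype]
  have h3 : Subgroup.map M.subtype (commutator M) = Subgroup.map M.subtype ⊤ := by
    rw [h1, h2, hperf]
  exact hlt.ne (Subgroup.map_injective M.subtype_injective h3)

/-- If no member of `D` other than `a` commutes with `a`, the class of `a` has `3`-power size. -/
theorem index_centralizer_eq_three_pow [Finite G] {D : Set G} (hD : IsTT D) {a : G} (ha : a ∈ D)
    (ha2 : orderOf a = 2) (hcon : ∀ b ∈ D, b ≠ a → ¬ Commute a b) :
    ∃ k : ℕ, (Subgroup.centralizer ({a} : Set G)).index = 3 ^ k := by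
  have hai := hD.inv_eq ha
  have : Fact (Nat.Prime 2) := ⟨Nat.prime_two⟩
  have : Fact (Nat.Prime 3) := ⟨Nat.prime_three⟩
  have hcube : ∀ d ∈ D, d ≠ a → (a * d) ^ 3 = 1 := by
    intro d hd hda
    have hb := hD.braid a ha d hd (hcon d hd hda)
    calc (a * d) ^ 3 = (a * d) * (a * d) * (a * d) := by rw [pow_succ, pow_succ, pow_one]
      _ = (a * d * a) * (d * a * d) := by group
      _ = (d * a * d) * (d * a * d) := by rw [hb]
      _ = d * a * (d * d) * a * d := by group
      _ = d * (a * a) * d := by rw [hD.sq d hd]; group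
      _ = 1 := by rw [hD.sq a ha]; simp [hD.sq d hd]
  have hkey : ∀ d ∈ D, ∀ r : ℕ, r.Prime → r ≠ 3 → (∃ n : ℕ, (a * d) ^ (r ^ n) = 1) → d = a := by
    rintro d hd r hr hr3 ⟨n, hn⟩
    by_contra hda
    have h3 := hcube d hd hda
    have hcop : Nat.Coprime 3 (r ^ n) :=
      Nat.Coprime.pow_right n ((Nat.coprime_primes Nat.prime_three hr).mpr (Ne.symm hr3))
    have h1 : a * d = 1 := by
      have d1 := orderOf_dvd_of_pow_eq_one h3
      have d2 := orderOf_dvd_of_pow_eq_one hn
      have d3 : orderOf (a * d) ∣ 1 := by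
        rw [← Nat.Coprime.gcd_eq_one hcop]; exact Nat.dvd_gcd d1 d2
      exact orderOf_eq_one_iff.mp (Nat.dvd_one.mp d3)
    apply hda
    have : d = a⁻¹ := eq_inv_of_mul_eq_one_right h1
    rw [this, hai]
  obtain ⟨P, hP⟩ : ∃ P : Sylow 2 G, a ∈ P := by
    have hz : IsPGroup 2 (Subgroup.zpowers a) := by
      apply IsPGroup.of_card (n := 1)
      rw [Nat.card_zpowers, ha2, pow_one]
    obtain ⟨P, hP⟩ := hz.exists_le_sylow
    exact ⟨P, hP (Subgroup.mem_zpowers a)⟩
  have hiso : ∀ g : G, g * a * g⁻¹ ∈ P → g * a * g⁻¹ = a := by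
    intro g hg
    have hdD := hD.conj_mem a ha g
    have hmem : a * (g * a * g⁻¹) ∈ (P : Subgroup G) := mul_mem hP hg
    obtain ⟨n, hn⟩ := P.isPGroup' ⟨_, hmem⟩
    exact hkey _ hdD 2 Nat.prime_two (by norm_num) ⟨n, by simpa using congrArg Subtype.val hn⟩
  obtain ⟨N, hNn, hNodd, hNcomm⟩ := Cfsg.Agent.S0215.result P a ha2 hP hiso
  have := hNn
  have hsup : N ⊔ Subgroup.zpowers a = ⊤ := by
    rw [eq_top_iff, ← hD.gen, Subgroup.closure_le]
    intro d hd
    obtain ⟨g, rfl⟩ := hD.isConj a ha d hd
    have h1 : g * a * g⁻¹ * a⁻¹ ∈ N := by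
      have := inv_mem (hNcomm g)
      have e : (a * g * a⁻¹ * g⁻¹)⁻¹ = g * a * g⁻¹ * a⁻¹ := by group
      rwa [e] at this
    have e : g * a * g⁻¹ = (g * a * g⁻¹ * a⁻¹) * a := by group
    rw [SetLike.mem_coe, e]
    exact Subgroup.mul_mem_sup h1 (Subgroup.mem_zpowers a)
  have hNidx : N.index ∣ 2 := by
    have h1 : N.relIndex (N ⊔ Subgroup.zpowers a) = N.relIndex (Subgroup.zpowers a) :=
      Subgroup.relIndex_sup_left _ _
    rw [hsup, Subgroup.relIndex_top_right] at h1
    rw [h1]
    have h2 := Subgroup.relIndex_dvd_card N (Subgroup.zpowers a)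
    rwa [Nat.card_zpowers, ha2] at h2
  have hprime : ∀ r : ℕ, r.Prime → r ∣ (Subgroup.centralizer ({a} : Set G)).index → r = 3 := by
    intro r hr hdvd
    by_contra hr3
    have : Fact r.Prime := ⟨hr⟩
    by_cases hr2 : r = 2
    · subst hr2
      have hPC : (P : Subgroup G) ≤ Subgroup.centralizer ({a} : Set G) := by
        intro x hx
        rw [Subgroup.mem_centralizer_iff]
        intro h hh
        rw [Set.mem_singleton_iff] at hh
        rw [hh]
        have h1 : x * a * x⁻¹ ∈ (P : Subgroup G) := mul_mem (mul_mem hx hP) (inv_mem hx)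
        have h2 := hiso x h1
        calc a * x = (x * a * x⁻¹) * x := by rw [h2]
          _ = x * a := by group
      exact (Sylow.not_dvd_index P) (dvd_trans hdvd (Subgroup.index_dvd_of_le hPC))
    · have hAK : Subgroup.zpowers a ≤ Subgroup.normalizer (N : Set G) := by
        rw [Subgroup.normalizer_eq_top]; exact le_top
      have hcop : (Nat.card (Subgroup.zpowers a)).Coprime (Nat.card N) := by
        rw [Nat.card_zpowers, ha2]; exact Nat.coprime_two_left.mpr hNodd
      have hsolv : Group.IsSolvable (Subgroup.zpowers a) := by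
        apply Group.isSolvable_of_comm
        rintro ⟨x, hx⟩ ⟨y, hy⟩
        obtain ⟨i, rfl⟩ := Subgroup.mem_zpowers_iff.mp hx
        obtain ⟨j, rfl⟩ := Subgroup.mem_zpowers_iff.mp hy
        apply Subtype.ext
        show a ^ i * a ^ j = a ^ j * a ^ i
        rw [← zpow_add, ← zpow_add, add_comm]
      obtain ⟨R, hR, hRa⟩ := Cfsg.Agent.Helper35.exists_invariant_sylow hAK hcop (Or.inl hsolv) r
      have hRp : IsPGroup r R := IsPGroup.of_card hR.2
      have haR : a ∈ Subgroup.normalizer (R : Set G) := hRa (Subgroup.mem_zpowers a)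
      have hRC : R ≤ Subgroup.centralizer ({a} : Set G) := by
        intro x hx
        rw [Subgroup.mem_centralizer_iff]
        intro h hh
        rw [Set.mem_singleton_iff] at hh
        rw [hh]
        have h1 : a * x * a⁻¹ ∈ R := (Subgroup.mem_normalizer_iff.mp haR x).mp hx
        have h2 : a * (x * a * x⁻¹) ∈ R := by
          have := mul_mem h1 (inv_mem hx)
          have e : a * x * a⁻¹ * x⁻¹ = a * (x * a * x⁻¹) := by rw [hai]; group
          rwa [e] at this
        obtain ⟨n, hn⟩ := hRp ⟨_, h2⟩
        have h3 : x * a * x⁻¹ = a :=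
          hkey _ (hD.conj_mem a ha x) r hr hr3 ⟨n, by simpa using congrArg Subtype.val hn⟩
        calc a * x = (x * a * x⁻¹) * x := by rw [h3]
          _ = x * a := by group
      have hdvd2 : r ∣ R.index := dvd_trans hdvd (Subgroup.index_dvd_of_le hRC)
      have hcardN : Nat.card N ≠ 0 := Nat.card_pos.ne'
      have h4 : r ^ ((Nat.card N).factorization r + 1) ∣ Nat.card N * N.index := by
        rw [Subgroup.card_mul_index, ← Subgroup.index_mul_card R, hR.2, pow_succ, mul_comm]
        exact Nat.mul_dvd_mul_right hdvd2 _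
      have hcop2 : Nat.Coprime (r ^ ((Nat.card N).factorization r + 1)) N.index := by
        apply Nat.Coprime.pow_left
        apply Nat.Coprime.coprime_dvd_right hNidx
        exact (Nat.coprime_primes hr Nat.prime_two).mpr hr2
      exact Nat.pow_succ_factorization_not_dvd hcardN hr (hcop2.dvd_of_dvd_mul_right h4)
  exact ⟨_, Nat.eq_prime_pow_of_unique_prime_dvd Subgroup.index_ne_zero_of_finite
      (fun {d} hd hdv => hprime d hd hdv)⟩

end Cfsg.Agent.Helper14.TT
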