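import Cfsg.Agent.Helper14.ThreeTrans4

/-!
# Simplicity of the commutator subgroup of a 3-transposition group (helper14)

See `ThreeTrans4.lean` for the plan.  Main result: `commutator_simple`.
-/

set_option autoImplicit false

namespace Cfsg.Agent.Helper14.TT

open scoped commutatorElement

variable {G : Type*} [Group G]

/-- A non-commutative minimal normal subgroup is perfect. -/
theorem minNormal_perfect (L : Subgroup G) (hLn : L.Normal)
    (hLmin : ∀ M : Subgroup G, M.Normal → M ≠ ⊥ → M ≤ L → M = L)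
    (hLnc : ¬ ∀ x ∈ L, ∀ y ∈ L, x * y = y * x) : ⁅L, L⁆ = L := by
  have := hLn
  apply hLmin _ (Subgroup.commutator_normal L L) _ (Subgroup.commutator_le_left L L)
  intro h
  apply hLnc
  intro x hx y hy
  have hle := Subgroup.commutator_eq_bot_iff_le_centralizer.mp h
  exact (Subgroup.mem_centralizer_iff.mp (hle hy)) x hx

/-- A minimal normal subgroup of a 3-transposition group without solvable normal subgroups is
simple. -/
theorem minNormal_simple [Finite G] {D : Set G} (hD : IsTT D)
    (hsol : ∀ N : Subgroup G, N.Normal → Group.IsSolvable ↥N → N = ⊥)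
    (L : Subgroup G) (hLn : L.Normal) (hL1 : L ≠ ⊥)
    (hLmin : ∀ M : Subgroup G, M.Normal → M ≠ ⊥ → M ≤ L → M = L) : IsSimpleGroup L := by
  by_contra hns
  have hLnc : ¬ ∀ x ∈ L, ∀ y ∈ L, x * y = y * x := by
    intro hc
    apply hL1
    apply hsol L hLn
    apply Group.isSolvable_of_comm
    rintro ⟨x, hx⟩ ⟨y, hy⟩
    exact Subtype.ext (hc x hx y hy)
  obtain ⟨T, hTL, hT1, hTinv, hTZ, hTconj, ⟨g₀, hg₀⟩, hTC⟩ :=
    Cfsg.Agent.Helper59.exists_TC L hLn hL1 hLmin hLnc hns
  -- some member of `D` moves `T`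
  obtain ⟨d, hdD, hdT⟩ : ∃ d ∈ D, T.map (MulAut.conj d).toMonoidHom ≠ T := by
    by_contra hall
    push Not at hall
    have hDN : D ⊆ Subgroup.normalizer (T : Set G) := by
      intro d hd
      rw [SetLike.mem_coe, Subgroup.mem_normalizer_iff]
      intro h
      constructor
      · intro hh
        have : (MulAut.conj d).toMonoidHom h ∈ T.map (MulAut.conj d).toMonoidHom :=
          Subgroup.mem_map_of_mem _ hh
        rw [hall d hd] at this
        simpa using this
      · intro hh
        rw [← hall d hd] at hh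
        obtain ⟨t, ht, hte⟩ := Subgroup.mem_map.mp hh
        have : t = h := by simpa using hte
        rw [← this]; exact ht
    have htop : Subgroup.normalizer (T : Set G) = ⊤ := by
      rw [eq_top_iff, ← hD.gen]
      exact (Subgroup.closure_le _).mpr hDN
    apply hg₀
    have hg₀N : g₀ ∈ Subgroup.normalizer (T : Set G) := by rw [htop]; exact Subgroup.mem_top _
    have hg₀N' : g₀⁻¹ ∈ Subgroup.normalizer (T : Set G) := inv_mem hg₀N
    ext x
    rw [Subgroup.mem_map]
    constructor
    · rintro ⟨t, ht, rfl⟩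
      have := (Subgroup.mem_normalizer_iff.mp hg₀N t).mp ht
      simpa using this
    · intro hx
      refine ⟨g₀⁻¹ * x * g₀, ?_, ?_⟩
      · have := (Subgroup.mem_normalizer_iff.mp hg₀N' x).mp hx
        simpa using this
      · simp [mul_assoc]
  have hcomm := hTconj d hdT
  have hdi := hD.inv_eq hdD
  -- every element of `T` has order at most three
  have hexp : ∀ x ∈ T, x ^ 2 = 1 ∨ x ^ 3 = 1 := by
    intro x hx
    have hy : d * x * d⁻¹ ∈ T.map (MulAut.conj d).toMonoidHom :=
      Subgroup.mem_map.mpr ⟨x, hx, by simp⟩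
    have hc : Commute (d * x * d⁻¹) x⁻¹ := (hcomm x⁻¹ (inv_mem hx) _ hy).symm
    have hprod : d * (x * d * x⁻¹) = (d * x * d⁻¹) * x⁻¹ := by rw [hdi]; group
    have hpow : ∀ n : ℕ, (d * (x * d * x⁻¹)) ^ n = 1 → x ^ n = 1 := by
      intro n hn
      rw [hprod, hc.mul_pow, inv_pow] at hn
      have h1 : (d * x * d⁻¹) ^ n = x ^ n := by
        have := eq_inv_of_mul_eq_one_left hn
        rwa [inv_inv] at this
      have h2 : x ^ n ∈ T.map (MulAut.conj d).toMonoidHom := by
        rw [← h1]; exact pow_mem hy n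
      have h3 : x ^ n ∈ T ⊓ Subgroup.centralizer (T : Set G) := by
        refine Subgroup.mem_inf.mpr ⟨pow_mem hx n, ?_⟩
        rw [Subgroup.mem_centralizer_iff]
        intro t ht
        exact hcomm t ht _ h2
      rw [hTZ, Subgroup.mem_bot] at h3
      exact h3
    rcases hD.sq_or_cube hdD (hD.conj_mem d hdD x) with h | h
    · exact Or.inl (hpow 2 h)
    · exact Or.inr (hpow 3 h)
  -- hence `T` is a `{2,3}`-group, solvable by Burnside
  have hTsol : Group.IsSolvable T := by
    have hcard0 : Nat.card T ≠ 0 := Nat.card_pos.ne'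
    obtain ⟨i, m, hm, hcard⟩ := Nat.exists_eq_two_pow_mul_odd hcard0
    have hprimes : ∀ p : ℕ, p.Prime → p ∣ Nat.card T → p = 2 ∨ p = 3 := by
      intro p hp hdvd
      have : Fact p.Prime := ⟨hp⟩
      obtain ⟨x, hx⟩ := exists_prime_orderOf_dvd_card' p hdvd
      rcases hexp x x.2 with h | h
      · left
        have h' : x ^ 2 = 1 := Subtype.ext (by simpa using h)
        have := orderOf_dvd_of_pow_eq_one h'
        rw [hx] at this
        exact (Nat.prime_dvd_prime_iff_eq hp Nat.prime_two).mp this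
      · right
        have h' : x ^ 3 = 1 := Subtype.ext (by simpa using h)
        have := orderOf_dvd_of_pow_eq_one h'
        rw [hx] at this
        exact (Nat.prime_dvd_prime_iff_eq hp Nat.prime_three).mp this
    have hm0 : m ≠ 0 := by rintro rfl; simp at hcard; exact hcard0 hcard
    have hm3 : m = 3 ^ m.primeFactorsList.length := by
      apply Nat.eq_prime_pow_of_unique_prime_dvd hm0
      intro p hp hdvd
      rcases hprimes p hp (hcard ▸ Dvd.dvd.mul_left hdvd _) with h | h
      · exfalso
        subst h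
        exact (Nat.not_even_iff_odd.mpr hm) (even_iff_two_dvd.mpr hdvd)
      · exact h
    rw [hm3] at hcard
    exact Cfsg.Agent.Helper3.isSolvable_of_card_eq 2 3 _ _ Nat.prime_two Nat.prime_three hcard
  -- but `T` is perfect
  have hLperf := minNormal_perfect L hLn hLmin hLnc
  have hTT : ⁅T, T⁆ ≤ T := by
    rw [Subgroup.commutator_le]
    intro g₁ h₁ g₂ h₂
    rw [commutatorElement_def]
    exact mul_mem (mul_mem (mul_mem h₁ h₂) (inv_mem h₁)) (inv_mem h₂)
  have hdecomp : ∀ x ∈ ⁅L, L⁆, ∃ c ∈ Subgroup.centralizer (T : Set G), ∃ s ∈ ⁅T, T⁆, x = c * s := by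
    intro x hx
    rw [Subgroup.commutator_def] at hx
    induction hx using Subgroup.closure_induction with
    | mem x hx =>
      obtain ⟨n, hn, n', hn', rfl⟩ := hx
      obtain ⟨c, _, hc, τ, hτ, rfl⟩ := hTC n hn
      obtain ⟨c', _, hc', τ', hτ', rfl⟩ := hTC n' hn'
      have hcC : c ∈ Subgroup.centralizer (T : Set G) := by
        rw [Subgroup.mem_centralizer_iff]; intro t ht; exact (hc t ht).symm
      have hc'C : c' ∈ Subgroup.centralizer (T : Set G) := by
        rw [Subgroup.mem_centralizer_iff]; intro t ht; exact (hc' t ht).symm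
      refine ⟨⁅c, c'⁆, ?_, ⁅τ, τ'⁆, Subgroup.commutator_mem_commutator hτ hτ', ?_⟩
      · rw [commutatorElement_def]
        exact mul_mem (mul_mem (mul_mem hcC hc'C) (inv_mem hcC)) (inv_mem hc'C)
      · have e1 : Commute c τ := hc τ hτ
        have e2 : Commute c τ' := hc τ' hτ'
        have e3 : Commute c' τ := hc' τ hτ
        have e4 : Commute c' τ' := hc' τ' hτ'
        rw [commutatorElement_def, commutatorElement_def, commutatorElement_def]
        have i1 : (c * τ)⁻¹ = c⁻¹ * τ⁻¹ := by rw [mul_inv_rev]; exact (e1.inv_inv).eq.symm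
        have i2 : (c' * τ')⁻¹ = c'⁻¹ * τ'⁻¹ := by rw [mul_inv_rev]; exact (e4.inv_inv).eq.symm
        rw [i1, i2]
        calc c * τ * (c' * τ') * (c⁻¹ * τ⁻¹) * (c'⁻¹ * τ'⁻¹)
            = c * (τ * c') * τ' * c⁻¹ * (τ⁻¹ * c'⁻¹) * τ'⁻¹ := by group
          _ = c * (c' * τ) * τ' * c⁻¹ * (c'⁻¹ * τ⁻¹) * τ'⁻¹ := by
              rw [e3.eq, (e3.inv_inv).eq]
          _ = c * c' * (τ * τ' * c⁻¹) * c'⁻¹ * τ⁻¹ * τ'⁻¹ := by group
          _ = c * c' * (c⁻¹ * (τ * τ')) * c'⁻¹ * τ⁻¹ * τ'⁻¹ := by
              rw [((e1.mul_right e2).inv_left).eq]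
          _ = c * c' * c⁻¹ * (τ * τ' * c'⁻¹) * τ⁻¹ * τ'⁻¹ := by group
          _ = c * c' * c⁻¹ * (c'⁻¹ * (τ * τ')) * τ⁻¹ * τ'⁻¹ := by
              rw [((e3.mul_right e4).inv_left).eq]
          _ = c * c' * c⁻¹ * c'⁻¹ * (τ * τ' * τ⁻¹ * τ'⁻¹) := by group
    | one => exact ⟨1, one_mem _, 1, one_mem _, by simp⟩
    | mul x y _ _ hx hy =>
      obtain ⟨c, hc, s, hs, rfl⟩ := hx
      obtain ⟨c', hc', s', hs', rfl⟩ := hy
      refine ⟨c * c', mul_mem hc hc', s * s', mul_mem hs hs', ?_⟩
      have e : s * c' = c' * s := (Subgroup.mem_centralizer_iff.mp hc') s (hTT hs)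
      calc c * s * (c' * s') = c * (s * c') * s' := by group
        _ = c * (c' * s) * s' := by rw [e]
        _ = c * c' * (s * s') := by group
    | inv x _ hx =>
      obtain ⟨c, hc, s, hs, rfl⟩ := hx
      refine ⟨c⁻¹, inv_mem hc, s⁻¹, inv_mem hs, ?_⟩
      have e : Commute s c := (Subgroup.mem_centralizer_iff.mp hc) s (hTT hs)
      rw [mul_inv_rev]
      exact (e.inv_inv).eq
  have hTperf : ⁅T, T⁆ = T := by
    apply le_antisymm hTT
    intro t ht
    have htL : t ∈ ⁅L, L⁆ := by rw [hLperf]; exact hTL ht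
    obtain ⟨c, hc, s, hs, hts⟩ := hdecomp t htL
    have hcT : c ∈ T := by
      have : c = t * s⁻¹ := by rw [hts]; group
      rw [this]; exact mul_mem ht (inv_mem (hTT hs))
    have hc1 : c ∈ T ⊓ Subgroup.centralizer (T : Set G) := Subgroup.mem_inf.mpr ⟨hcT, hc⟩
    rw [hTZ, Subgroup.mem_bot] at hc1
    rw [hts, hc1, one_mul]; exact hs
  exact hT1 (eq_bot_of_solvable_of_perfect T hTsol hTperf)

/-- For a simple normal subgroup `L` and any element `a`: either `a` centralises `L` or `L` lies
in the subgroup generated by the `L`-conjugates of `a`. -/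
theorem centralizes_or_le_closure (L : Subgroup G) (hLn : L.Normal) (hLs : IsSimpleGroup L)
    (a : G) : (∀ l ∈ L, Commute a l) ∨
      L ≤ Subgroup.closure {x | ∃ l ∈ L, x = l * a * l⁻¹} := by
  obtain ⟨A, hA⟩ : ∃ A : Subgroup G, A = Subgroup.closure {x | ∃ l ∈ L, x = l * a * l⁻¹} :=
    ⟨_, rfl⟩
  rw [← hA]
  have hAconj : ∀ n ∈ L, ∀ x ∈ A, n * x * n⁻¹ ∈ A := by
    intro n hn x hx
    rw [hA] at hx
    induction hx using Subgroup.closure_induction with
    | mem x hx =>
      obtain ⟨l, hl, rfl⟩ := hx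
      rw [hA]
      exact Subgroup.subset_closure ⟨n * l, mul_mem hn hl, by group⟩
    | one => simp
    | mul x y _ _ hx hy =>
      have e : n * (x * y) * n⁻¹ = (n * x * n⁻¹) * (n * y * n⁻¹) := by group
      rw [e]; exact mul_mem hx hy
    | inv x _ hx =>
      have e : n * x⁻¹ * n⁻¹ = (n * x * n⁻¹)⁻¹ := by group
      rw [e]; exact inv_mem hx
  have hnorm : (A.subgroupOf L).Normal := by
    constructor
    intro x hx n
    rw [Subgroup.mem_subgroupOf] at hx ⊢
    have := hAconj n n.2 x hx
    simpa using this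
  rcases hnorm.eq_bot_or_eq_top with h | h
  · left
    intro l hl
    have haA : a ∈ A := by
      rw [hA]; exact Subgroup.subset_closure ⟨1, one_mem _, by simp⟩
    have hcA : a * (l * a * l⁻¹)⁻¹ ∈ A := by
      apply mul_mem haA (inv_mem _)
      rw [hA]; exact Subgroup.subset_closure ⟨l, hl, rfl⟩
    have hcL : a * (l * a * l⁻¹)⁻¹ ∈ L := by
      have e : a * (l * a * l⁻¹)⁻¹ = (a * l * a⁻¹) * l⁻¹ := by group
      rw [e]; exact mul_mem (hLn.conj_mem l hl a) (inv_mem hl)
    have hm : (⟨a * (l * a * l⁻¹)⁻¹, hcL⟩ : L) ∈ A.subgroupOf L := by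
      rw [Subgroup.mem_subgroupOf]; exact hcA
    rw [h, Subgroup.mem_bot] at hm
    have h1 : a * (l * a * l⁻¹)⁻¹ = 1 := congrArg Subtype.val hm
    have h2 : a = l * a * l⁻¹ := by
      have := eq_inv_of_mul_eq_one_left h1
      rwa [inv_inv] at this
    show a * l = l * a
    calc a * l = (l * a * l⁻¹) * l := by rw [← h2]
      _ = l * a := by group
  · right
    exact Subgroup.subgroupOf_eq_top.mp h

/-- No member of `D` centralises a non-commutative normal subgroup. -/
theorem not_centralizes {D : Set G} (hD : IsTT D) (L : Subgroup G) (hLn : L.Normal)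
    (hLnc : ¬ ∀ x ∈ L, ∀ y ∈ L, x * y = y * x) {d : G} (hd : d ∈ D) :
    ¬ ∀ l ∈ L, Commute d l := by
  intro hc
  apply hLnc
  have hDC : D ⊆ Subgroup.centralizer (L : Set G) := by
    intro e he
    obtain ⟨g, rfl⟩ := hD.isConj d hd e he
    rw [SetLike.mem_coe, Subgroup.mem_centralizer_iff]
    intro l hl
    have h1 : Commute d (g⁻¹ * l * g) := by
      apply hc
      have := hLn.conj_mem l hl g⁻¹
      rwa [inv_inv] at this
    exact (((commute_conj_iff g d l).mpr h1).eq).symm
  have htop : Subgroup.centralizer (L : Set G) = ⊤ := by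
    rw [eq_top_iff, ← hD.gen]
    exact (Subgroup.closure_le _).mpr hDC
  intro x hx y hy
  have : y ∈ Subgroup.centralizer (L : Set G) := by rw [htop]; exact Subgroup.mem_top y
  exact (Subgroup.mem_centralizer_iff.mp this) x hx

/-- Commuting members of `D` are congruent modulo a simple non-commutative normal subgroup. -/
theorem width_one {D : Set G} (hD : IsTT D) (L : Subgroup G) (hLn : L.Normal)
    (hLs : IsSimpleGroup L) (hLnc : ¬ ∀ x ∈ L, ∀ y ∈ L, x * y = y * x) {a b : G} (ha : a ∈ D)
    (hb : b ∈ D) (hab : Commute a b) : a * b ∈ L := by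
  by_contra hnL
  have := hLn
  have hker : ∀ x : G, (QuotientGroup.mk' L) x = 1 ↔ x ∈ L := by
    intro x; rw [QuotientGroup.mk'_apply, QuotientGroup.eq_one_iff]
  -- `L`-conjugates of `a` commute with `L`-conjugates of `b`
  have step1 : ∀ l ∈ L, ∀ l' ∈ L, Commute (l * a * l⁻¹) (l' * b * l'⁻¹) := by
    intro l hl l' hl'
    have ha' := hD.conj_mem a ha l
    have hb' := hD.conj_mem b hb l'
    rcases hD.sq_or_cube ha' hb' with h | h
    · have h1 : (l * a * l⁻¹) * (l' * b * l'⁻¹) = ((l * a * l⁻¹) * (l' * b * l'⁻¹))⁻¹ := by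
        rw [pow_two] at h; exact eq_inv_of_mul_eq_one_left h
      rw [mul_inv_rev, hD.inv_eq ha', hD.inv_eq hb'] at h1
      exact h1
    · exfalso
      apply hnL
      have hq : (QuotientGroup.mk' L) ((l * a * l⁻¹) * (l' * b * l'⁻¹))
          = (QuotientGroup.mk' L) (a * b) := by
        have e1 : (QuotientGroup.mk' L) l = 1 := (hker l).mpr hl
        have e2 : (QuotientGroup.mk' L) l' = 1 := (hker l').mpr hl'
        simp only [map_mul, map_inv, e1, e2, one_mul, mul_one, inv_one]
      have h3 : ((QuotientGroup.mk' L) (a * b)) ^ 3 = 1 := by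
        rw [← hq, ← map_pow, h, map_one]
      have h2 : ((QuotientGroup.mk' L) (a * b)) ^ 2 = 1 := by
        have : (a * b) ^ 2 = 1 := by
          rw [hab.mul_pow, pow_two, pow_two, hD.sq a ha, hD.sq b hb, mul_one]
        rw [← map_pow, this, map_one]
      have h1 : (QuotientGroup.mk' L) (a * b) = 1 := by
        have e : ((QuotientGroup.mk' L) (a * b)) ^ 3
            = ((QuotientGroup.mk' L) (a * b)) ^ 2 * (QuotientGroup.mk' L) (a * b) := pow_succ _ 2
        rw [h3, h2, one_mul] at e
        exact e.symm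
      exact (hker _).mp h1
  rcases centralizes_or_le_closure L hLn hLs a with hca | hLA
  · exact not_centralizes hD L hLn hLnc ha hca
  rcases centralizes_or_le_closure L hLn hLs b with hcb | hLB
  · exact not_centralizes hD L hLn hLnc hb hcb
  -- the two closures commute elementwise
  have hAc : Subgroup.closure {x | ∃ l ∈ L, x = l * a * l⁻¹}
      ≤ Subgroup.centralizer {x | ∃ l ∈ L, x = l * b * l⁻¹} := by
    rw [Subgroup.closure_le]
    rintro _ ⟨l, hl, rfl⟩
    rw [SetLike.mem_coe, Subgroup.mem_centralizer_iff]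
    rintro _ ⟨l', hl', rfl⟩
    exact ((step1 l hl l' hl').eq).symm
  have hBc : Subgroup.closure {x | ∃ l ∈ L, x = l * b * l⁻¹}
      ≤ Subgroup.centralizer (Subgroup.closure {x | ∃ l ∈ L, x = l * a * l⁻¹} : Set G) := by
    rw [Subgroup.closure_le]
    intro y hy
    rw [SetLike.mem_coe, Subgroup.mem_centralizer_iff]
    intro x hx
    exact ((Subgroup.mem_centralizer_iff.mp (hAc hx)) y hy).symm
  apply hLnc
  intro x hx y hy
  exact (Subgroup.mem_centralizer_iff.mp (hBc (hLB hy))) x (hLA hx)

/-- **Simplicity of the commutator subgroup.** -/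
theorem commutator_simple [Finite G] {D : Set G} (hD : IsTT D) {a : G} (ha : a ∈ D)
    (ha1 : a ≠ 1) (hsol : ∀ N : Subgroup G, N.Normal → Group.IsSolvable ↥N → N = ⊥)
    (hperf : ⁅commutator G, commutator G⁆ = commutator G) :
    IsSimpleGroup (commutator G) ∧ ∃ x y : commutator G, x * y ≠ y * x := by
  -- a minimal normal subgroup
  obtain ⟨L, ⟨hLn, hL1⟩, hLcard⟩ := Set.exists_min_image {N : Subgroup G | N.Normal ∧ N ≠ ⊥}
    (fun N => Nat.card N) (Set.toFinite _) ⟨⊤, inferInstance, by
      intro h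
      have : a ∈ (⊤ : Subgroup G) := Subgroup.mem_top a
      rw [h, Subgroup.mem_bot] at this
      exact ha1 this⟩
  have hLmin : ∀ M : Subgroup G, M.Normal → M ≠ ⊥ → M ≤ L → M = L := by
    intro M hMn hM1 hML
    exact Subgroup.eq_of_le_of_card_ge hML (hLcard M ⟨hMn, hM1⟩)
  have hLs := minNormal_simple hD hsol L hLn hL1 hLmin
  have hLnc : ¬ ∀ x ∈ L, ∀ y ∈ L, x * y = y * x := by
    intro hc
    apply hL1
    apply hsol L hLn
    apply Group.isSolvable_of_comm
    rintro ⟨x, hx⟩ ⟨y, hy⟩
    exact Subtype.ext (hc x hx y hy)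
  have hLperf := minNormal_perfect L hLn hLmin hLnc
  have hLle : L ≤ commutator G := by
    rw [← hLperf, commutator_def]
    exact Subgroup.commutator_mono le_top le_top
  have hle : commutator G ≤ L := by
    by_cases haL : a ∈ L
    · have hDL : D ⊆ L := by
        intro d hd
        obtain ⟨g, rfl⟩ := hD.isConj a ha d hd
        exact hLn.conj_mem a haL g
      have : L = ⊤ := by
        rw [eq_top_iff, ← hD.gen]; exact (Subgroup.closure_le L).mpr hDL
      rw [this]; exact le_top
    · have := hLn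
      obtain ⟨π, hπ⟩ : ∃ π : G →* G ⧸ L, π = QuotientGroup.mk' L := ⟨_, rfl⟩
      have hπs : Function.Surjective π := by rw [hπ]; exact QuotientGroup.mk'_surjective L
      have hπker : ∀ x : G, π x = 1 ↔ x ∈ L := by
        intro x; rw [hπ, QuotientGroup.mk'_apply, QuotientGroup.eq_one_iff]
      have hD' := hD.map π hπs
      have hā : π a ∈ π '' D := ⟨a, ha, rfl⟩
      have hā1 : π a ≠ 1 := fun h => haL ((hπker a).mp h)
      have : Fact (Nat.Prime 2) := ⟨Nat.prime_two⟩
      have hā2 : orderOf (π a) = 2 := by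
        apply orderOf_eq_prime _ hā1
        rw [pow_two, ← map_mul, hD.sq a ha, map_one]
      have hcon : ∀ b' ∈ π '' D, b' ≠ π a → ¬ Commute (π a) b' := by
        rintro _ ⟨b, hb, rfl⟩ hne hc
        apply hne
        have hprod : π a * π b = 1 := by
          by_cases hab : Commute a b
          · have := width_one hD L hLn hLs hLnc ha hb hab
            rw [← map_mul]; exact (hπker _).mpr this
          · have h3 : (π a * π b) ^ 3 = 1 := by
              have hb3 : (a * b) ^ 3 = 1 := by
                rcases hD.sq_or_cube ha hb with h | h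
                · exfalso; apply hab
                  have h1 : a * b = (a * b)⁻¹ := by
                    rw [pow_two] at h; exact eq_inv_of_mul_eq_one_left h
                  rw [mul_inv_rev, hD.inv_eq ha, hD.inv_eq hb] at h1
                  exact h1
                · exact h
              rw [← map_mul, ← map_pow, hb3, map_one]
            have h2 : (π a * π b) ^ 2 = 1 := by
              rw [hc.mul_pow, pow_two, pow_two, ← map_mul, ← map_mul, hD.sq a ha, hD.sq b hb,
                map_one, mul_one]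
            have e : (π a * π b) ^ 3 = (π a * π b) ^ 2 * (π a * π b) := pow_succ _ 2
            rw [h3, h2, one_mul] at e
            exact e.symm
        have h1 : π b = (π a)⁻¹ := eq_inv_of_mul_eq_one_right hprod
        rw [h1, ← map_inv, hD.inv_eq ha]
      obtain ⟨k, hk⟩ := index_centralizer_eq_three_pow hD' hā hā2 hcon
      have : Fact (Nat.Prime 3) := ⟨Nat.prime_three⟩
      have hN3 := Cfsg.Agent.Helper72.pCore_normal (G := G ⧸ L) 3
      have hcomm3 : commutator (G ⧸ L) ≤ Cfsg.pCore 3 (G ⧸ L) := by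
        apply commutator_le_of_generators _ (π '' D) hD'.gen
        rintro _ ⟨s, hs, rfl⟩ _ ⟨t, ht, rfl⟩
        obtain ⟨g, rfl⟩ := hD.isConj a ha s hs
        obtain ⟨h, rfl⟩ := hD.isConj a ha t ht
        have hk' := Cfsg.Agent.Helper72.commutator_conj_mem_pCore 3 (π a) ⟨k, hk⟩ (π g) (π h)
        rw [commutatorElement_def]
        simpa using hk'
      have hmap : Subgroup.map π (commutator G) = commutator (G ⧸ L) := by
        rw [commutator_def, commutator_def, Subgroup.map_commutator,
          Subgroup.map_top_of_surjective π hπs]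
      have hMp : IsPGroup 3 (Subgroup.map π (commutator G)) := by
        rw [hmap]
        exact (Cfsg.Agent.Helper72.pCore_isPGroup (G := G ⧸ L) 3).to_le hcomm3
      have hMperf : ⁅Subgroup.map π (commutator G), Subgroup.map π (commutator G)⁆
          = Subgroup.map π (commutator G) := by
        rw [← Subgroup.map_commutator, hperf]
      have hMsol : Group.IsSolvable (Subgroup.map π (commutator G)) := by
        have := hMp.isNilpotent
        infer_instance
      have hbot := eq_bot_of_solvable_of_perfect _ hMsol hMperf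
      rw [Subgroup.map_eq_bot_iff, hπ, QuotientGroup.ker_mk'] at hbot
      exact hbot
  have heq : L = commutator G := le_antisymm hLle hle
  subst heq
  refine ⟨hLs, ?_⟩
  push Not at hLnc
  obtain ⟨x, hx, y, hy, hxy⟩ := hLnc
  exact ⟨⟨x, hx⟩, ⟨y, hy⟩, fun h => hxy (congrArg Subtype.val h)⟩

end Cfsg.Agent.Helper14.TT
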