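import Cfsg.Agent.Helper14.ThreeTrans2
import Cfsg.Agent.Helper14.ThreeTrans3
import Cfsg.Agent.Helper31.Sylow

/-!
# Commuting sets of 3-transpositions of maximum size (helper14)

`max_commuting`: in a 3-transposition group with simple commutator subgroup, the normaliser of a
commuting set `E` of transpositions of maximum size contains a Sylow 2-subgroup and is doubly
transitive on `E`.
-/

set_option autoImplicit false

namespace Cfsg.Agent.Helper14.TT

variable {G : Type*} [Group G]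

/-- Members of `D` inside a 2-subgroup containing a maximum commuting set `E` lie in `E`. -/
theorem mem_of_mem_two_group [Finite G] {D : Set G} (hD : IsTT D) {E : Set G} (hE : E ⊆ D)
    (hmax : ∀ E' : Set G, E' ⊆ D → (∀ a ∈ E', ∀ b ∈ E', Commute a b) → E'.ncard ≤ E.ncard)
    (Q : Subgroup G) (hQ : IsPGroup 2 Q) (hEQ : E ⊆ Q) : ∀ d ∈ D, d ∈ Q → d ∈ E := by
  obtain ⟨E₁, hE₁⟩ : ∃ E₁ : Set G, E₁ = {d | d ∈ D ∧ d ∈ Q} := ⟨_, rfl⟩
  have hcomm : ∀ a ∈ E₁, ∀ b ∈ E₁, Commute a b := by
    intro a ha b hb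
    rw [hE₁] at ha hb
    by_contra hab
    have hbr := hD.braid a ha.1 b hb.1 hab
    have h3 : (a * b) ^ 3 = 1 := by
      calc (a * b) ^ 3 = (a * b) * (a * b) * (a * b) := by rw [pow_succ, pow_succ, pow_one]
        _ = (a * b * a) * (b * a * b) := by group
        _ = (b * a * b) * (b * a * b) := by rw [hbr]
        _ = b * a * (b * b) * a * b := by group
        _ = b * (a * a) * b := by rw [hD.sq b hb.1]; group
        _ = 1 := by rw [hD.sq a ha.1]; simp [hD.sq b hb.1]
    obtain ⟨n, hn⟩ := hQ ⟨a * b, mul_mem ha.2 hb.2⟩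
    have hn' : (a * b) ^ (2 ^ n) = 1 := by simpa using congrArg Subtype.val hn
    have hcop : Nat.Coprime 3 (2 ^ n) := Nat.Coprime.pow_right n (by norm_num)
    have h1 : a * b = 1 := by
      have d1 := orderOf_dvd_of_pow_eq_one h3
      have d2 := orderOf_dvd_of_pow_eq_one hn'
      have d3 : orderOf (a * b) ∣ 1 := by
        rw [← Nat.Coprime.gcd_eq_one hcop]; exact Nat.dvd_gcd d1 d2
      exact orderOf_eq_one_iff.mp (Nat.dvd_one.mp d3)
    apply hab
    have : b = a⁻¹ := eq_inv_of_mul_eq_one_right h1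
    rw [this]
    exact (Commute.refl a).inv_right
  have hsub : E ⊆ E₁ := by
    intro e he
    rw [hE₁]; exact ⟨hE he, hEQ he⟩
  have hle := hmax E₁ (by intro d hd; rw [hE₁] at hd; exact hd.1) hcomm
  have heq : E = E₁ := Set.eq_of_subset_of_ncard_le hsub hle (Set.toFinite _)
  intro d hd hdQ
  rw [heq, hE₁]; exact ⟨hd, hdQ⟩

/-- A commuting set of involutions generates a 2-group. -/
theorem isPGroup_closure_of_commuting {E : Set G} (hsq : ∀ e ∈ E, e * e = 1)
    (hc : ∀ a ∈ E, ∀ b ∈ E, Commute a b) : IsPGroup 2 (Subgroup.closure E) := by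
  have hcomm : ∀ e ∈ E, ∀ y ∈ Subgroup.closure E, Commute e y := by
    intro e he y hy
    have hle : Subgroup.closure E ≤ Subgroup.centralizer ({e} : Set G) := by
      rw [Subgroup.closure_le]
      intro t ht
      rw [SetLike.mem_coe, Subgroup.mem_centralizer_iff]
      intro h hh
      rw [Set.mem_singleton_iff] at hh
      rw [hh]; exact (hc e he t ht).eq
    exact (Subgroup.mem_centralizer_iff.mp (hle hy)) e rfl
  have hP : ∀ x ∈ Subgroup.closure E,
      x * x = 1 ∧ ∀ y ∈ Subgroup.closure E, Commute x y := by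
    intro x hx
    induction hx using Subgroup.closure_induction with
    | mem x hx => exact ⟨hsq x hx, hcomm x hx⟩
    | one => exact ⟨by simp, fun y _ => Commute.one_left y⟩
    | mul x y hx hy ihx ihy =>
      refine ⟨?_, fun z hz => (ihx.2 z hz).mul_left (ihy.2 z hz)⟩
      have e : Commute x y := ihx.2 y hy
      calc x * y * (x * y) = x * (y * x) * y := by group
        _ = x * (x * y) * y := by rw [e.eq]
        _ = (x * x) * (y * y) := by group
        _ = 1 := by rw [ihx.1, ihy.1, mul_one]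
    | inv x hx ih =>
      refine ⟨?_, fun z hz => (ih.2 z hz).inv_left⟩
      have : x⁻¹ = x := inv_eq_of_mul_eq_one_right ih.1
      rw [this]; exact ih.1
  intro g
  refine ⟨1, ?_⟩
  apply Subtype.ext
  have := (hP g g.2).1
  simpa [pow_two] using this

/-- Sylow's theorem inside a subgroup `X`, stated in the ambient group. -/
theorem exists_two_group_conj [Finite G] (X Q₁ Q₂ : Subgroup G) (h₁ : IsPGroup 2 Q₁)
    (h₂ : IsPGroup 2 Q₂) (h₁X : Q₁ ≤ X) (h₂X : Q₂ ≤ X) :
    ∃ h ∈ X, ∃ T : Subgroup G, IsPGroup 2 T ∧ Q₁ ≤ T ∧ ∀ q ∈ Q₂, h * q * h⁻¹ ∈ T := by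
  have : Fact (Nat.Prime 2) := ⟨Nat.prime_two⟩
  obtain ⟨P, hP⟩ := (h₁.comap_subtype (K := X)).exists_le_sylow
  obtain ⟨g, hg⟩ := Cfsg.Agent.Helper31.exists_conj_le_sylow P (h₂.comap_subtype (K := X))
  refine ⟨g, g.2, (P : Subgroup X).map X.subtype, P.isPGroup'.map _, ?_, ?_⟩
  · intro q hq
    exact Subgroup.mem_map.mpr ⟨⟨q, h₁X hq⟩, hP (Subgroup.mem_subgroupOf.mpr hq), rfl⟩
  · intro q hq
    have := hg ⟨q, h₂X hq⟩ (Subgroup.mem_subgroupOf.mpr hq)
    exact Subgroup.mem_map.mpr ⟨_, this, by simp⟩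

/-- An element mapping the finite set `E` into itself by conjugation normalises it. -/
theorem mem_normalizer_of_mapsTo [Finite G] {E : Set G} {g : G}
    (h : ∀ e ∈ E, g * e * g⁻¹ ∈ E) : g ∈ Subgroup.normalizer E := by
  have himg : (fun x => g * x * g⁻¹) '' E = E := by
    apply Set.eq_of_subset_of_ncard_le
    · rintro _ ⟨e, he, rfl⟩; exact h e he
    · rw [Set.ncard_image_of_injective _ (fun a b hab => by simpa using hab)]
    · exact Set.toFinite _
  rw [Subgroup.mem_set_normalizer_iff]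
  intro n
  constructor
  · exact h n
  · intro hn
    rw [← himg] at hn
    obtain ⟨e, he, hen⟩ := hn
    have : e = n := by simpa using hen
    rw [← this]; exact he

/-- Fusion of maximum commuting sets is controlled inside any subgroup containing them. -/
theorem fusion_max_commuting [Finite G] {D : Set G} (hD : IsTT D) {E : Set G} (hE : E ⊆ D)
    (hc : ∀ a ∈ E, ∀ b ∈ E, Commute a b)
    (hmax : ∀ E' : Set G, E' ⊆ D → (∀ a ∈ E', ∀ b ∈ E', Commute a b) → E'.ncard ≤ E.ncard)
    (X : Subgroup G) (hEX : E ⊆ X) (k : G) (hkX : ∀ e ∈ E, k * e * k⁻¹ ∈ X) :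
    ∃ h ∈ X, h * k ∈ Subgroup.normalizer E := by
  obtain ⟨E₂, hE₂⟩ : ∃ E₂ : Set G, E₂ = {x | ∃ e ∈ E, x = k * e * k⁻¹} := ⟨_, rfl⟩
  have hQ₁ : IsPGroup 2 (Subgroup.closure E) :=
    isPGroup_closure_of_commuting (fun e he => hD.sq e (hE he)) hc
  have hQ₂ : IsPGroup 2 (Subgroup.closure E₂) := by
    apply isPGroup_closure_of_commuting
    · intro x hx
      rw [hE₂] at hx
      obtain ⟨e, he, rfl⟩ := hx
      exact hD.sq _ (hD.conj_mem e (hE he) k)
    · intro x hx y hy
      rw [hE₂] at hx hy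
      obtain ⟨e, he, rfl⟩ := hx
      obtain ⟨e', he', rfl⟩ := hy
      rw [commute_conj_iff]
      have e1 : k⁻¹ * (k * e' * k⁻¹) * k = e' := by group
      rw [e1]; exact hc e he e' he'
  have h₁X : Subgroup.closure E ≤ X := (Subgroup.closure_le X).mpr hEX
  have h₂X : Subgroup.closure E₂ ≤ X := by
    rw [Subgroup.closure_le]
    intro x hx
    rw [hE₂] at hx
    obtain ⟨e, he, rfl⟩ := hx
    exact hkX e he
  obtain ⟨h, hhX, T, hT, hQT, hconj⟩ := exists_two_group_conj X _ _ hQ₁ hQ₂ h₁X h₂X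
  have hET : E ⊆ T := fun e he => hQT (Subgroup.subset_closure he)
  have hDT := mem_of_mem_two_group hD hE hmax T hT hET
  refine ⟨h, hhX, mem_normalizer_of_mapsTo ?_⟩
  intro e he
  have e1 : h * k * e * (h * k)⁻¹ = h * (k * e * k⁻¹) * h⁻¹ := by group
  rw [e1]
  apply hDT
  · exact hD.conj_mem _ (hD.conj_mem e (hE he) k) h
  · apply hconj
    apply Subgroup.subset_closure
    rw [hE₂]; exact ⟨e, he, rfl⟩

/-- **Maximum commuting sets of transpositions.** -/
theorem max_commuting [Finite G] {D : Set G} (hD : IsTT D) (hs : IsSimpleGroup (commutator G))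
    (hnonab : ∃ x y : commutator G, x * y ≠ y * x) {E : Set G} (hE : E ⊆ D)
    (hc : ∀ a ∈ E, ∀ b ∈ E, Commute a b)
    (hmax : ∀ E' : Set G, E' ⊆ D → (∀ a ∈ E', ∀ b ∈ E', Commute a b) → E'.ncard ≤ E.ncard) :
    (∃ P : Sylow 2 G, (P : Subgroup G) ≤ Subgroup.normalizer E) ∧
    ∀ a ∈ E, ∀ b ∈ E, ∀ c ∈ E, ∀ d ∈ E, a ≠ b → c ≠ d →
      ∃ g ∈ Subgroup.normalizer E, g * a * g⁻¹ = c ∧ g * b * g⁻¹ = d := by
  have : Fact (Nat.Prime 2) := ⟨Nat.prime_two⟩
  constructor
  · have hQ₁ : IsPGroup 2 (Subgroup.closure E) :=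
      isPGroup_closure_of_commuting (fun e he => hD.sq e (hE he)) hc
    obtain ⟨P, hP⟩ := hQ₁.exists_le_sylow
    have hEP : E ⊆ (P : Subgroup G) := fun e he => hP (Subgroup.subset_closure he)
    have hDP := mem_of_mem_two_group hD hE hmax P P.isPGroup' hEP
    refine ⟨P, fun g hg => mem_normalizer_of_mapsTo ?_⟩
    intro e he
    exact hDP _ (hD.conj_mem e (hE he) g) (mul_mem (mul_mem hg (hEP he)) (inv_mem hg))
  · intro a ha b hb c hc' d hd hab hcd
    -- move `a` to `c`
    obtain ⟨k, hk⟩ := hD.isConj a (hE ha) c (hE hc')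
    obtain ⟨h₁, hh₁, hg₁⟩ := fusion_max_commuting hD hE hc hmax
      (Subgroup.centralizer ({c} : Set G))
      (by
        intro e he
        rw [SetLike.mem_coe, Subgroup.mem_centralizer_iff]
        intro x hx
        rw [Set.mem_singleton_iff] at hx
        rw [hx]; exact (hc c hc' e he).eq)
      k
      (by
        intro e he
        rw [Subgroup.mem_centralizer_iff]
        intro x hx
        rw [Set.mem_singleton_iff] at hx
        rw [hx, ← hk]
        have : Commute (k * a * k⁻¹) (k * e * k⁻¹) := by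
          rw [commute_conj_iff]
          have e1 : k⁻¹ * (k * e * k⁻¹) * k = e := by group
          rw [e1]; exact hc a ha e he
        exact this.eq)
    have hh₁c : h₁ * c * h₁⁻¹ = c := by
      have := (Subgroup.mem_centralizer_iff.mp hh₁) c rfl
      rw [← this, mul_assoc, mul_inv_cancel, mul_one]
    have hg₁a : (h₁ * k) * a * (h₁ * k)⁻¹ = c := by
      have e1 : (h₁ * k) * a * (h₁ * k)⁻¹ = h₁ * (k * a * k⁻¹) * h₁⁻¹ := by group
      rw [e1, hk, hh₁c]
    -- the image of `b`
    obtain ⟨b', hb'def⟩ : ∃ b' : G, b' = (h₁ * k) * b * (h₁ * k)⁻¹ := ⟨_, rfl⟩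
    have hb'E : b' ∈ E := by
      rw [hb'def]; exact (Subgroup.mem_set_normalizer_iff.mp hg₁ b).mp hb
    have hb'c : b' ≠ c := by
      intro h
      apply hab
      rw [hb'def, ← hg₁a] at h
      have : b = a := by simpa using h
      exact this.symm
    -- move `b'` to `d` inside the centraliser of `c`
    obtain ⟨c₀, hc₀D, hc₀⟩ := exists_noncommuting hD hnonab (hE hc')
    have hdc : d ≠ c := fun h => hcd h.symm
    obtain ⟨k₂, hk₂c, hk₂b⟩ := trans_comm hD hs (hE hc') ⟨c₀, hc₀D, hc₀⟩ b' (hE hb'E) d (hE hd)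
      hb'c hdc (hc c hc' b' hb'E) (hc c hc' d hd)
    obtain ⟨h₂, hh₂, hg₂⟩ := fusion_max_commuting hD hE hc hmax
      (Subgroup.centralizer ({c, d} : Set G))
      (by
        intro e he
        rw [SetLike.mem_coe, Subgroup.mem_centralizer_iff]
        intro x hx
        rcases hx with hx | hx
        · rw [hx]; exact (hc c hc' e he).eq
        · rw [Set.mem_singleton_iff] at hx
          rw [hx]; exact (hc d hd e he).eq)
      k₂
      (by
        intro e he
        rw [Subgroup.mem_centralizer_iff]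
        intro x hx
        have hconj : ∀ y ∈ E, Commute (k₂ * y * k₂⁻¹) (k₂ * e * k₂⁻¹) := by
          intro y hy
          rw [commute_conj_iff]
          have e1 : k₂⁻¹ * (k₂ * e * k₂⁻¹) * k₂ = e := by group
          rw [e1]; exact hc y hy e he
        rcases hx with hx | hx
        · rw [hx]
          have := hconj c hc'
          rw [hk₂c] at this
          exact this.eq
        · rw [Set.mem_singleton_iff] at hx
          rw [hx]
          have := hconj b' hb'E
          rw [hk₂b] at this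
          exact this.eq)
    have hh₂c : h₂ * c * h₂⁻¹ = c := by
      have := (Subgroup.mem_centralizer_iff.mp hh₂) c (Set.mem_insert c _)
      rw [← this, mul_assoc, mul_inv_cancel, mul_one]
    have hh₂d : h₂ * d * h₂⁻¹ = d := by
      have := (Subgroup.mem_centralizer_iff.mp hh₂) d (Set.mem_insert_of_mem c rfl)
      rw [← this, mul_assoc, mul_inv_cancel, mul_one]
    refine ⟨(h₂ * k₂) * (h₁ * k), mul_mem hg₂ hg₁, ?_, ?_⟩
    · have e1 : (h₂ * k₂) * (h₁ * k) * a * ((h₂ * k₂) * (h₁ * k))⁻¹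
          = h₂ * (k₂ * ((h₁ * k) * a * (h₁ * k)⁻¹) * k₂⁻¹) * h₂⁻¹ := by group
      rw [e1, hg₁a, hk₂c, hh₂c]
    · have e1 : (h₂ * k₂) * (h₁ * k) * b * ((h₂ * k₂) * (h₁ * k))⁻¹
          = h₂ * (k₂ * ((h₁ * k) * b * (h₁ * k)⁻¹) * k₂⁻¹) * h₂⁻¹ := by group
      rw [e1, ← hb'def, hk₂b, hh₂d]

end Cfsg.Agent.Helper14.TT
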