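import Cfsg.Agent.Helper14.ThreeTrans5
import Cfsg.Agent.Helper22.Bender
import Cfsg.Agent.Helper52.Basic
import Cfsg.Agent.Helper89.WidthOne

/-!
# 3-transpositions and quasisimple normal subgroups (helper14)

Let `D` be a generating conjugacy class of 3-transpositions of the finite group `G`.

* `qs_dichotomy`, `centralizes_of_solvable`, `centralizes_of_comm`, `centralizes_of_cube`: an
  element `d` whose conjugates under a quasisimple normal subgroup `K` all commute with `d`, or
  all have a product of order three with `d`, centralises `K`.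
* `component_normal`, `component_unique`: a component of `G` is normal, and `G` has at most one.
* `width_one_qs`: commuting members of `D` are congruent modulo a quasisimple normal subgroup.
-/

set_option autoImplicit false

namespace Cfsg.Agent.Helper14.TT

open scoped commutatorElement

variable {G : Type*} [Group G]

/-- A finite group in which every element has order at most three is solvable (Burnside). -/
theorem isSolvable_of_sq_or_cube {Q : Type*} [Group Q] [Finite Q]
    (hexp : ∀ x : Q, x ^ 2 = 1 ∨ x ^ 3 = 1) : Group.IsSolvable Q := by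
  have hcard0 : Nat.card Q ≠ 0 := Nat.card_pos.ne'
  obtain ⟨i, m, hm, hcard⟩ := Nat.exists_eq_two_pow_mul_odd hcard0
  have hprimes : ∀ p : ℕ, p.Prime → p ∣ Nat.card Q → p = 2 ∨ p = 3 := by
    intro p hp hdvd
    have : Fact p.Prime := ⟨hp⟩
    obtain ⟨x, hx⟩ := exists_prime_orderOf_dvd_card' p hdvd
    rcases hexp x with h | h
    · left
      have := orderOf_dvd_of_pow_eq_one h
      rw [hx] at this
      exact (Nat.prime_dvd_prime_iff_eq hp Nat.prime_two).mp this
    · right
      have := orderOf_dvd_of_pow_eq_one h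
      rw [hx] at this
      exact (Nat.prime_dvd_prime_iff_eq hp Nat.prime_three).mp this
  have hm0 : m ≠ 0 := by rintro rfl; simp at hcard; exact hcard0 hcard
  have hm3 : m = 3 ^ m.primeFactorsList.length := by
    apply Nat.eq_prime_pow_of_unique_prime_dvd hm0
    intro p hp hdvd
    rcases hprimes p hp (hcard ▸ Dvd.dvd.mul_left hdvd _) with h | h
    · exfalso
      subst h
      exact (Nat.not_even_iff_odd.mpr hm) (even_iff_two_dvd.mpr hdvd)
    · exact h
  rw [hm3] at hcard
  exact Cfsg.Agent.Helper3.isSolvable_of_card_eq 2 3 _ _ Nat.prime_two Nat.prime_three hcard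

/-- A quasisimple group is not solvable. -/
theorem qs_not_solvable {Q : Type*} [Group Q] (hQ : Cfsg.IsQuasisimple Q) :
    ¬ Group.IsSolvable Q := by
  have := hQ.1
  have := Cfsg.Agent.Helper22.quasisimple_nontrivial hQ
  exact Group.IsPerfect.not_isSolvable Q

/-- A quasisimple subgroup is not commutative. -/
theorem qs_not_comm {K : Subgroup G} (hK : Cfsg.IsQuasisimple K) :
    ¬ ∀ x ∈ K, ∀ y ∈ K, x * y = y * x := by
  intro hc
  apply qs_not_solvable hK
  apply Group.isSolvable_of_comm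
  rintro ⟨x, hx⟩ ⟨y, hy⟩
  exact Subtype.ext (hc x hx y hy)

/-- Let `K` be a quasisimple normal subgroup, `d` an element and `N` a subgroup normalised by `K`
that contains all the commutators `[d, l]`, `l ∈ K`.  Then `K ≤ N` or `d` centralises `K`. -/
theorem qs_dichotomy (K : Subgroup G) (hKn : K.Normal) (hK : Cfsg.IsQuasisimple K) (d : G)
    (N : Subgroup G) (hNK : ∀ l ∈ K, ∀ x ∈ N, l * x * l⁻¹ ∈ N)
    (hN : ∀ l ∈ K, d * l * d⁻¹ * l⁻¹ ∈ N) : K ≤ N ∨ ∀ l ∈ K, d * l * d⁻¹ = l := by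
  have hn : (N.subgroupOf K).Normal := by
    refine ⟨fun n hn g => ?_⟩
    rw [Subgroup.mem_subgroupOf] at hn ⊢
    exact hNK g g.2 n hn
  rcases Cfsg.Agent.Helper22.quasisimple_normal hK _ hn with h | h
  · left
    exact Subgroup.subgroupOf_eq_top.mp h
  · right
    have := hKn
    have hcent : ∀ x : K, x⁻¹ * (MulAut.conjNormal d : MulAut K).toMonoidHom x ∈
        Subgroup.center K := by
      intro x
      apply h
      rw [Subgroup.mem_subgroupOf]
      have h1 := hNK (x : G)⁻¹ (inv_mem x.2) _ (hN x x.2)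
      have e : (x : G)⁻¹ * (d * x * d⁻¹ * (x : G)⁻¹) * (x : G)⁻¹⁻¹ = (x : G)⁻¹ * (d * x * d⁻¹) := by
        group
      rw [e] at h1
      simpa using h1
    have hfix := Cfsg.Agent.Helper52.perfect_central_hom hK.1
      (MulAut.conjNormal d : MulAut K).toMonoidHom hcent
    intro l hl
    have := congrArg Subtype.val (hfix ⟨l, hl⟩)
    simpa using this

/-- In the situation of `qs_dichotomy`, if `N` is solvable then `d` centralises `K`. -/
theorem centralizes_of_solvable (K : Subgroup G) (hKn : K.Normal) (hK : Cfsg.IsQuasisimple K)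
    (d : G) (N : Subgroup G) (hNK : ∀ l ∈ K, ∀ x ∈ N, l * x * l⁻¹ ∈ N) (hNsol : Group.IsSolvable N)
    (hN : ∀ l ∈ K, d * l * d⁻¹ * l⁻¹ ∈ N) : ∀ l ∈ K, d * l * d⁻¹ = l := by
  rcases qs_dichotomy K hKn hK d N hNK hN with h | h
  · exfalso
    apply qs_not_solvable hK
    have := hNsol
    exact Group.isSolvable_of_isSolvable_injective (Subgroup.inclusion_injective h)
  · exact h

/-- A subgroup generated by pairwise commuting elements is commutative. -/
theorem closure_comm_of_comm (S : Set G) (hS : ∀ x ∈ S, ∀ y ∈ S, x * y = y * x) :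
    ∀ x ∈ Subgroup.closure S, ∀ y ∈ Subgroup.closure S, x * y = y * x := by
  have h1 : Subgroup.closure S ≤ Subgroup.centralizer S := by
    rw [Subgroup.closure_le]
    intro x hx
    rw [SetLike.mem_coe, Subgroup.mem_centralizer_iff]
    intro y hy
    exact hS y hy x hx
  have h2 : Subgroup.closure S ≤ Subgroup.centralizer (Subgroup.closure S : Set G) := by
    rw [Subgroup.closure_le]
    intro x hx
    rw [SetLike.mem_coe, Subgroup.mem_centralizer_iff]
    intro y hy
    exact ((Subgroup.mem_centralizer_iff.mp (h1 hy)) x hx).symm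
  intro x hx y hy
  exact ((Subgroup.mem_centralizer_iff.mp (h2 hx)) y hy).symm

/-- If `K` normalises the set `S`, it normalises the subgroup generated by `S`. -/
theorem conj_closure_mem (K : Subgroup G) (S : Set G)
    (hS : ∀ l ∈ K, ∀ x ∈ S, l * x * l⁻¹ ∈ S) :
    ∀ l ∈ K, ∀ x ∈ Subgroup.closure S, l * x * l⁻¹ ∈ Subgroup.closure S := by
  intro l hl x hx
  have hle : Subgroup.closure S ≤ (Subgroup.closure S).comap (MulAut.conj l).toMonoidHom := by
    rw [Subgroup.closure_le]
    intro y hy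
    rw [SetLike.mem_coe, Subgroup.mem_comap]
    simpa using Subgroup.subset_closure (hS l hl y hy)
  have := hle hx
  rw [Subgroup.mem_comap] at this
  simpa using this

/-- An element commuting with all its conjugates under a quasisimple normal subgroup `K`
centralises `K`. -/
theorem centralizes_of_comm (K : Subgroup G) (hKn : K.Normal) (hK : Cfsg.IsQuasisimple K)
    (d : G) (hc : ∀ l ∈ K, Commute d (l * d * l⁻¹)) : ∀ l ∈ K, d * l * d⁻¹ = l := by
  obtain ⟨S, hSdef⟩ : ∃ S : Set G, S = {x | ∃ l ∈ K, x = l * d * l⁻¹} := ⟨_, rfl⟩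
  have hSconj : ∀ l ∈ K, ∀ x ∈ S, l * x * l⁻¹ ∈ S := by
    intro l hl x hx
    rw [hSdef] at hx ⊢
    obtain ⟨l', hl', rfl⟩ := hx
    exact ⟨l * l', mul_mem hl hl', by group⟩
  have hScomm : ∀ x ∈ S, ∀ y ∈ S, x * y = y * x := by
    intro x hx y hy
    rw [hSdef] at hx hy
    obtain ⟨l₁, h₁, rfl⟩ := hx
    obtain ⟨l₂, h₂, rfl⟩ := hy
    have h := hc (l₁⁻¹ * l₂) (mul_mem (inv_mem h₁) h₂)
    have e : l₁⁻¹ * (l₂ * d * l₂⁻¹) * l₁ = l₁⁻¹ * l₂ * d * (l₁⁻¹ * l₂)⁻¹ := by group
    rw [← e] at h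
    exact ((commute_conj_iff l₁ d _).mpr h).eq
  have hdS : d ∈ S := by rw [hSdef]; exact ⟨1, one_mem K, by simp⟩
  apply centralizes_of_solvable K hKn hK d (Subgroup.closure S) (conj_closure_mem K S hSconj)
  · apply Group.isSolvable_of_comm
    rintro ⟨x, hx⟩ ⟨y, hy⟩
    exact Subtype.ext (closure_comm_of_comm S hScomm x hx y hy)
  · intro l hl
    have h1 : l * d * l⁻¹ ∈ Subgroup.closure S :=
      Subgroup.subset_closure (by rw [hSdef]; exact ⟨l, hl, rfl⟩)
    have e : d * l * d⁻¹ * l⁻¹ = d * (l * d * l⁻¹)⁻¹ := by group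
    rw [e]
    exact mul_mem (Subgroup.subset_closure hdS) (inv_mem h1)

/-- An involution whose product with each of its conjugates under a quasisimple normal subgroup
`K` has order dividing three centralises `K`. -/
theorem centralizes_of_cube [Finite G] (K : Subgroup G) (hKn : K.Normal)
    (hK : Cfsg.IsQuasisimple K) (d : G) (hd : d * d = 1)
    (hc : ∀ l ∈ K, (d * (l * d * l⁻¹)) ^ 3 = 1) : ∀ l ∈ K, d * l * d⁻¹ = l := by
  have hdi : d⁻¹ = d := inv_eq_of_mul_eq_one_right hd
  obtain ⟨W, hWdef⟩ : ∃ W : Set G, W = {x | ∃ l ∈ K, x = l * d * l⁻¹} := ⟨_, rfl⟩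
  have hWconj : ∀ l ∈ K, ∀ x ∈ W, l * x * l⁻¹ ∈ W := by
    intro l hl x hx
    rw [hWdef] at hx ⊢
    obtain ⟨l', hl', rfl⟩ := hx
    exact ⟨l * l', mul_mem hl hl', by group⟩
  have hsq : ∀ u ∈ W, u * u = 1 := by
    intro u hu
    rw [hWdef] at hu
    obtain ⟨l, hl, rfl⟩ := hu
    calc l * d * l⁻¹ * (l * d * l⁻¹) = l * (d * d) * l⁻¹ := by group
      _ = 1 := by rw [hd]; group
  have hinv : ∀ u ∈ W, u⁻¹ = u := fun u hu => inv_eq_of_mul_eq_one_right (hsq u hu)
  have hdW : ∀ v ∈ W, d * v * d⁻¹ ∈ W := by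
    intro v hv
    rw [hWdef] at hv ⊢
    obtain ⟨l, hl, rfl⟩ := hv
    exact ⟨d * l * d⁻¹, hKn.conj_mem l hl d, by group⟩
  have hcj : ∀ u ∈ W, ∀ v ∈ W, u * v * u ∈ W := by
    intro u hu v hv
    have hui := hinv u hu
    rw [hWdef] at hu
    obtain ⟨l, hl, rfl⟩ := hu
    have hk : l * (d * l⁻¹ * d⁻¹) ∈ K := mul_mem hl (hKn.conj_mem _ (inv_mem hl) d)
    have h1 := hWconj _ hk _ (hdW v hv)
    have e : l * (d * l⁻¹ * d⁻¹) * (d * v * d⁻¹) * (l * (d * l⁻¹ * d⁻¹))⁻¹ =
        l * d * l⁻¹ * v * (l * d * l⁻¹)⁻¹ := by group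
    rw [e, hui] at h1
    exact h1
  have hcube : ∀ u ∈ W, ∀ v ∈ W, (u * v) ^ 3 = 1 := by
    intro u hu v hv
    rw [hWdef] at hu hv
    obtain ⟨l₁, h₁, rfl⟩ := hu
    obtain ⟨l₂, h₂, rfl⟩ := hv
    have h := hc (l₁⁻¹ * l₂) (mul_mem (inv_mem h₁) h₂)
    have e : l₁ * d * l₁⁻¹ * (l₂ * d * l₂⁻¹) =
        l₁ * (d * (l₁⁻¹ * l₂ * d * (l₁⁻¹ * l₂)⁻¹)) * l₁⁻¹ := by group
    rw [e, conj_pow, h]
    group
  have hbr : ∀ u ∈ W, ∀ v ∈ W, u * v * u = v * u * v := by
    intro u hu v hv
    have h3 := hcube u hu v hv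
    have h3' : (u * v) * (u * v) * (u * v) = 1 := by rw [← h3, pow_succ, pow_succ, pow_one]
    calc u * v * u = (u * v) * (u * v) * (u * v) * (v⁻¹ * u⁻¹ * v⁻¹) := by group
      _ = v⁻¹ * u⁻¹ * v⁻¹ := by rw [h3', one_mul]
      _ = v * u * v := by rw [hinv u hu, hinv v hv]
  have h3grp := Cfsg.Agent.Helper89.isPGroup_three_closure_mul W hsq hcj hbr
  obtain ⟨P, hPdef⟩ : ∃ P : Set G, P = {x : G | ∃ u ∈ W, ∃ v ∈ W, x = u * v} := ⟨_, rfl⟩
  rw [← hPdef] at h3grp
  have hPconj : ∀ l ∈ K, ∀ x ∈ P, l * x * l⁻¹ ∈ P := by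
    intro l hl x hx
    rw [hPdef] at hx ⊢
    obtain ⟨u, hu, v, hv, rfl⟩ := hx
    exact ⟨l * u * l⁻¹, hWconj l hl u hu, l * v * l⁻¹, hWconj l hl v hv, by group⟩
  have : Fact (Nat.Prime 3) := ⟨Nat.prime_three⟩
  apply centralizes_of_solvable K hKn hK d (Subgroup.closure P) (conj_closure_mem K P hPconj)
  · have := h3grp.isNilpotent
    infer_instance
  · intro l hl
    apply Subgroup.subset_closure
    rw [hPdef]
    refine ⟨d, ?_, l * d * l⁻¹, ?_, ?_⟩
    · rw [hWdef]; exact ⟨1, one_mem K, by simp⟩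
    · rw [hWdef]; exact ⟨l, hl, rfl⟩
    · rw [hdi]; group

/-- Two members of `D` whose product squares to one commute. -/
theorem IsTT.commute_of_sq {D : Set G} (hD : IsTT D) {d e : G} (hd : d ∈ D) (he : e ∈ D)
    (h : (d * e) ^ 2 = 1) : Commute d e := by
  have h1 : (d * e) * (d * e) = 1 := by rw [← pow_two]; exact h
  have h2 : d * e = (d * e)⁻¹ := eq_inv_of_mul_eq_one_left h1
  rw [mul_inv_rev, hD.inv_eq hd, hD.inv_eq he] at h2
  exact h2

/-- The product of two non-commuting members of `D` has order three. -/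
theorem IsTT.cube_of_not_commute {D : Set G} (hD : IsTT D) {d e : G} (hd : d ∈ D) (he : e ∈ D)
    (h : ¬ Commute d e) : (d * e) ^ 3 = 1 := by
  rcases hD.sq_or_cube hd he with h2 | h3
  · exact absurd (hD.commute_of_sq hd he h2) h
  · exact h3

/-- The product of two commuting members of `D` squares to one. -/
theorem IsTT.sq_of_commute {D : Set G} (hD : IsTT D) {d e : G} (hd : d ∈ D) (he : e ∈ D)
    (h : Commute d e) : (d * e) ^ 2 = 1 := by
  rw [pow_two]
  calc d * e * (d * e) = d * (e * d) * e := by group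
    _ = d * (d * e) * e := by rw [h.eq]
    _ = (d * d) * (e * e) := by group
    _ = 1 := by rw [hD.sq d hd, hD.sq e he, mul_one]

/-- An element of order dividing both two and three is trivial. -/
theorem eq_one_of_sq_of_cube {H : Type*} [Group H] {c : H} (h2 : c ^ 2 = 1) (h3 : c ^ 3 = 1) :
    c = 1 := by
  calc c = c ^ 3 * (c ^ 2)⁻¹ := by group
    _ = 1 := by rw [h3, h2]; simp

/-- **Components are normal.** -/
theorem component_normal [Finite G] {D : Set G} (hD : IsTT D) {K : Subgroup G}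
    (hK : Cfsg.IsComponent K) : K.Normal := by
  have key : ∀ d ∈ D, K.map (MulAut.conj d).toMonoidHom = K := by
    intro d hd
    by_contra hne
    have hK' := Cfsg.Agent.Helper22.isComponent_conj hK d
    have hcomm := Cfsg.Agent.Helper22.components_commute hK hK' (Ne.symm hne)
    rw [Subgroup.commutator_eq_bot_iff_le_centralizer] at hcomm
    have hdi := hD.inv_eq hd
    have hpow : ∀ l ∈ K, ∀ n : ℕ, (d * (l * d * l⁻¹)) ^ n = 1 →
        ∀ y ∈ K, y * l ^ n = l ^ n * y := by
      intro l hl n hn y hy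
      have hm : d * l * d⁻¹ ∈ K.map (MulAut.conj d).toMonoidHom :=
        Subgroup.mem_map.mpr ⟨l, hl, by simp⟩
      have hc : Commute (d * l * d⁻¹) l⁻¹ :=
        Subgroup.mem_centralizer_iff.mp (hcomm (inv_mem hl)) _ hm
      have hprod : d * (l * d * l⁻¹) = (d * l * d⁻¹) * l⁻¹ := by rw [hdi]; group
      rw [hprod, hc.mul_pow, inv_pow] at hn
      have h1 : (d * l * d⁻¹) ^ n = l ^ n := by
        have := eq_inv_of_mul_eq_one_left hn
        rwa [inv_inv] at this
      have h2 : l ^ n ∈ K.map (MulAut.conj d).toMonoidHom := by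
        rw [← h1]; exact pow_mem hm n
      exact (Subgroup.mem_centralizer_iff.mp (hcomm hy) _ h2).symm
    have hexp : ∀ q : K ⧸ Subgroup.center K, q ^ 2 = 1 ∨ q ^ 3 = 1 := by
      intro q
      obtain ⟨⟨l, hl⟩, rfl⟩ := QuotientGroup.mk_surjective q
      have hcen : ∀ n : ℕ, (d * (l * d * l⁻¹)) ^ n = 1 →
          ((⟨l, hl⟩ : K) : K ⧸ Subgroup.center K) ^ n = 1 := by
        intro n hn
        rw [← QuotientGroup.mk_pow, QuotientGroup.eq_one_iff, Subgroup.mem_center_iff]
        rintro ⟨y, hy⟩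
        exact Subtype.ext (hpow l hl n hn y hy)
      rcases hD.sq_or_cube hd (hD.conj_mem d hd l) with h | h
      · exact Or.inl (hcen 2 h)
      · exact Or.inr (hcen 3 h)
    have hsol : Group.IsSolvable (K ⧸ Subgroup.center K) := isSolvable_of_sq_or_cube hexp
    have := hK.2.1
    have hsimple := hK.2.2
    have hperf : Group.IsPerfect (K ⧸ Subgroup.center K) := inferInstance
    have hnt : Nontrivial (K ⧸ Subgroup.center K) := hsimple.toNontrivial
    exact Group.IsPerfect.not_isSolvable _ hsol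
  have hDN : D ⊆ Subgroup.normalizer (K : Set G) := by
    intro d hd
    rw [SetLike.mem_coe, Subgroup.mem_normalizer_iff]
    intro h
    constructor
    · intro hh
      have : (MulAut.conj d).toMonoidHom h ∈ K.map (MulAut.conj d).toMonoidHom :=
        Subgroup.mem_map_of_mem _ hh
      rw [key d hd] at this
      simpa using this
    · intro hh
      rw [← key d hd] at hh
      obtain ⟨t, ht, hte⟩ := Subgroup.mem_map.mp hh
      have : t = h := by simpa using hte
      rw [← this]; exact ht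
  have htop : Subgroup.normalizer (K : Set G) = ⊤ := by
    rw [eq_top_iff, ← hD.gen]
    exact (Subgroup.closure_le _).mpr hDN
  exact Subgroup.normalizer_eq_top_iff.mp htop

/-- Some conjugate of `d ∈ D` under a quasisimple normal subgroup is different from `d` and
commutes with `d`. -/
theorem exists_comm_conj [Finite G] {D : Set G} (hD : IsTT D) (K : Subgroup G) (hKn : K.Normal)
    (hK : Cfsg.IsQuasisimple K) {d : G} (hd : d ∈ D) :
    ∃ l ∈ K, l * d * l⁻¹ ≠ d ∧ Commute d (l * d * l⁻¹) := by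
  by_contra hall
  push Not at hall
  have hc : ∀ l ∈ K, (d * (l * d * l⁻¹)) ^ 3 = 1 := by
    intro l hl
    by_cases h : l * d * l⁻¹ = d
    · rw [h, hD.sq d hd, one_pow]
    · exact hD.cube_of_not_commute hd (hD.conj_mem d hd l) (hall l hl h)
  have hcen := centralizes_of_cube K hKn hK d (hD.sq d hd) hc
  exact not_centralizes hD K hKn (qs_not_comm hK) hd
    (fun l hl => mul_inv_eq_iff_eq_mul.mp (hcen l hl))

/-- Some conjugate of `d ∈ D` under a quasisimple normal subgroup does not commute with `d`. -/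
theorem exists_noncomm_conj {D : Set G} (hD : IsTT D) (K : Subgroup G) (hKn : K.Normal)
    (hK : Cfsg.IsQuasisimple K) {d : G} (hd : d ∈ D) :
    ∃ l ∈ K, ¬ Commute d (l * d * l⁻¹) := by
  by_contra hall
  push Not at hall
  have hcen := centralizes_of_comm K hKn hK d hall
  exact not_centralizes hD K hKn (qs_not_comm hK) hd
    (fun l hl => mul_inv_eq_iff_eq_mul.mp (hcen l hl))

/-- **There is at most one component.** -/
theorem component_unique [Finite G] {D : Set G} (hD : IsTT D) {d : G} (hd : d ∈ D)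
    {K₁ K₂ : Subgroup G} (h₁ : Cfsg.IsComponent K₁) (h₂ : Cfsg.IsComponent K₂) : K₁ = K₂ := by
  by_contra hne
  have hn₁ := component_normal hD h₁
  have hn₂ := component_normal hD h₂
  have hcomm := Cfsg.Agent.Helper22.components_commute h₁ h₂ hne
  rw [Subgroup.commutator_eq_bot_iff_le_centralizer] at hcomm
  have hdi := hD.inv_eq hd
  obtain ⟨l₁, hl₁, hne₁, hc₁⟩ := exists_comm_conj hD K₁ hn₁ h₁.2 hd
  obtain ⟨l₂, hl₂, hc₂⟩ := exists_noncomm_conj hD K₂ hn₂ h₂.2 hd
  obtain ⟨c₁, hc₁def⟩ : ∃ c, c = d * (l₁ * d * l₁⁻¹) := ⟨_, rfl⟩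
  obtain ⟨c₂, hc₂def⟩ : ∃ c, c = d * (l₂ * d * l₂⁻¹) := ⟨_, rfl⟩
  have hc₁K : c₁ ∈ K₁ := by
    have e : c₁ = (d * l₁ * d⁻¹) * l₁⁻¹ := by rw [hc₁def, hdi]; group
    rw [e]; exact mul_mem (hn₁.conj_mem l₁ hl₁ d) (inv_mem hl₁)
  have hc₂K : c₂ ∈ K₂ := by
    have e : c₂ = (d * l₂ * d⁻¹) * l₂⁻¹ := by rw [hc₂def, hdi]; group
    rw [e]; exact mul_mem (hn₂.conj_mem l₂ hl₂ d) (inv_mem hl₂)
  have hK12 : ∀ x ∈ K₁, ∀ y ∈ K₂, y * x = x * y := fun x hx y hy =>
    Subgroup.mem_centralizer_iff.mp (hcomm hx) y hy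
  have e1 := hD.conj_mem d hd l₁
  have e2 := hD.conj_mem d hd l₂
  have hc₁sq : c₁ ^ 2 = 1 := by rw [hc₁def]; exact hD.sq_of_commute hd e1 hc₁
  have hc₁ne : c₁ ≠ 1 := by
    intro h
    apply hne₁
    rw [hc₁def] at h
    have : l₁ * d * l₁⁻¹ = d⁻¹ := eq_inv_of_mul_eq_one_right h
    rw [this, hdi]
  have hc₂cube : c₂ ^ 3 = 1 := by rw [hc₂def]; exact hD.cube_of_not_commute hd e2 hc₂
  have hc₂sq : c₂ ^ 2 ≠ 1 := by
    intro h; rw [hc₂def] at h; exact hc₂ (hD.commute_of_sq hd e2 h)
  have hprod : d * ((l₁ * l₂) * d * (l₁ * l₂)⁻¹) = c₁ * c₂ := by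
    have hcomm' : c₂ * l₁⁻¹ = l₁⁻¹ * c₂ := hK12 l₁⁻¹ (inv_mem hl₁) c₂ hc₂K
    calc d * ((l₁ * l₂) * d * (l₁ * l₂)⁻¹)
        = (d * l₁ * d⁻¹) * ((d * (l₂ * d * l₂⁻¹)) * l₁⁻¹) := by group
      _ = (d * l₁ * d⁻¹) * (c₂ * l₁⁻¹) := by rw [← hc₂def]
      _ = (d * l₁ * d⁻¹) * (l₁⁻¹ * c₂) := by rw [hcomm']
      _ = c₁ * c₂ := by rw [hc₁def, hdi]; group
  have hcc : Commute c₁ c₂ := (hK12 c₁ hc₁K c₂ hc₂K).symm
  have e3 := hD.conj_mem d hd (l₁ * l₂)
  rcases hD.sq_or_cube hd e3 with h | h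
  · rw [hprod, hcc.mul_pow, hc₁sq, one_mul] at h
    exact hc₂sq h
  · rw [hprod, hcc.mul_pow, hc₂cube, mul_one] at h
    exact hc₁ne (eq_one_of_sq_of_cube hc₁sq h)

/-- **Width one modulo a quasisimple normal subgroup**: commuting members of `D` are congruent
modulo a quasisimple normal subgroup. -/
theorem width_one_qs {D : Set G} (hD : IsTT D) (L : Subgroup G) (hLn : L.Normal)
    (hL : Cfsg.IsQuasisimple L) {a b : G} (ha : a ∈ D) (hb : b ∈ D) (hab : Commute a b) :
    a * b ∈ L := by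
  by_contra hnL
  have := hLn
  have hai := hD.inv_eq ha
  have hker : ∀ x : G, (QuotientGroup.mk' L) x = 1 ↔ x ∈ L := by
    intro x; rw [QuotientGroup.mk'_apply, QuotientGroup.eq_one_iff]
  have step1 : ∀ l ∈ L, Commute b (l * a * l⁻¹) := by
    intro l hl
    have he := hD.conj_mem a ha l
    apply hD.commute_of_sq hb he
    rcases hD.sq_or_cube hb he with h | h
    · exact h
    · exfalso
      apply hnL
      have hc : a * (l * a * l⁻¹) ∈ L := by
        have e : a * (l * a * l⁻¹) = (a * l * a⁻¹) * l⁻¹ := by rw [hai]; group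
        rw [e]; exact mul_mem (hLn.conj_mem l hl a) (inv_mem hl)
      have e1 : b * (l * a * l⁻¹) = (b * a) * (a * (l * a * l⁻¹)) := by
        calc b * (l * a * l⁻¹) = b * (a * a) * (l * a * l⁻¹) := by rw [hD.sq a ha, mul_one]
          _ = (b * a) * (a * (l * a * l⁻¹)) := by group
      have h3 : (QuotientGroup.mk' L (b * a)) ^ 3 = 1 := by
        have := congrArg (QuotientGroup.mk' L) h
        rw [map_pow, e1, map_mul, (hker _).mpr hc, mul_one, map_one] at this
        exact this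
      have h2 : (QuotientGroup.mk' L (b * a)) ^ 2 = 1 := by
        rw [← map_pow, hD.sq_of_commute hb ha hab.symm, map_one]
      have h1 : QuotientGroup.mk' L (b * a) = 1 := eq_one_of_sq_of_cube h2 h3
      rw [hab.eq]
      exact (hker _).mp h1
  obtain ⟨S, hSdef⟩ : ∃ S : Set G, S = {x | ∃ l ∈ L, x = l * a * l⁻¹} := ⟨_, rfl⟩
  have hSconj : ∀ l ∈ L, ∀ x ∈ S, l * x * l⁻¹ ∈ S := by
    intro l hl x hx
    rw [hSdef] at hx ⊢
    obtain ⟨l', hl', rfl⟩ := hx
    exact ⟨l * l', mul_mem hl hl', by group⟩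
  have haS : a ∈ S := by rw [hSdef]; exact ⟨1, one_mem L, by simp⟩
  have hbS : Subgroup.closure S ≤ Subgroup.centralizer {b} := by
    rw [Subgroup.closure_le]
    intro x hx
    rw [hSdef] at hx
    obtain ⟨l, hl, rfl⟩ := hx
    rw [SetLike.mem_coe, Subgroup.mem_centralizer_singleton_iff]
    exact (step1 l hl).eq.symm
  have hcomm : ∀ l ∈ L, a * l * a⁻¹ * l⁻¹ ∈ Subgroup.closure S := by
    intro l hl
    have h1 : l * a * l⁻¹ ∈ Subgroup.closure S :=
      Subgroup.subset_closure (by rw [hSdef]; exact ⟨l, hl, rfl⟩)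
    have e : a * l * a⁻¹ * l⁻¹ = a * (l * a * l⁻¹)⁻¹ := by group
    rw [e]
    exact mul_mem (Subgroup.subset_closure haS) (inv_mem h1)
  rcases qs_dichotomy L hLn hL a (Subgroup.closure S) (conj_closure_mem L S hSconj) hcomm
    with h | h
  · apply not_centralizes hD L hLn (qs_not_comm hL) hb
    intro l hl
    have := hbS (h hl)
    rw [Subgroup.mem_centralizer_singleton_iff] at this
    exact this.symm
  · exact not_centralizes hD L hLn (qs_not_comm hL) ha
      (fun l hl => mul_inv_eq_iff_eq_mul.mp (h l hl))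

/-- For `p > 3` the `p`-core is central. -/
theorem pCore_le_center {D : Set G} (hD : IsTT D) {p : ℕ} (hp : p.Prime) (hp3 : 3 < p) :
    Cfsg.pCore p G ≤ Subgroup.center G := by
  have hPg : IsPGroup p (Cfsg.pCore p G) := Cfsg.Agent.Helper22.pCore_isPGroup p G
  have hDC : D ⊆ Subgroup.centralizer (Cfsg.pCore p G : Set G) := by
    intro d hd
    rw [SetLike.mem_coe, Subgroup.mem_centralizer_iff]
    intro g hg
    have hdi := hD.inv_eq hd
    have hmem : d * (g * d * g⁻¹) ∈ Cfsg.pCore p G := by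
      have e : d * (g * d * g⁻¹) = (d * g * d⁻¹) * g⁻¹ := by rw [hdi]; group
      rw [e]; exact mul_mem ((Cfsg.pCore_normal p G).conj_mem g hg d) (inv_mem hg)
    obtain ⟨n, hn⟩ := hPg ⟨_, hmem⟩
    have hn' : (d * (g * d * g⁻¹)) ^ (p ^ n) = 1 := by simpa using congrArg Subtype.val hn
    have d2 := orderOf_dvd_of_pow_eq_one hn'
    have h1 : d * (g * d * g⁻¹) = 1 := by
      rcases hD.sq_or_cube hd (hD.conj_mem d hd g) with h | h
      · have d1 := orderOf_dvd_of_pow_eq_one h
        have hcop : Nat.Coprime 2 (p ^ n) :=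
          Nat.Coprime.pow_right n ((Nat.coprime_primes Nat.prime_two hp).mpr (by omega))
        have d3 : orderOf (d * (g * d * g⁻¹)) ∣ 1 := by
          rw [← Nat.Coprime.gcd_eq_one hcop]; exact Nat.dvd_gcd d1 d2
        exact orderOf_eq_one_iff.mp (Nat.dvd_one.mp d3)
      · have d1 := orderOf_dvd_of_pow_eq_one h
        have hcop : Nat.Coprime 3 (p ^ n) :=
          Nat.Coprime.pow_right n ((Nat.coprime_primes Nat.prime_three hp).mpr (by omega))
        have d3 : orderOf (d * (g * d * g⁻¹)) ∣ 1 := by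
          rw [← Nat.Coprime.gcd_eq_one hcop]; exact Nat.dvd_gcd d1 d2
        exact orderOf_eq_one_iff.mp (Nat.dvd_one.mp d3)
    have h2 : g * d * g⁻¹ = d := by
      have := eq_inv_of_mul_eq_one_right h1
      rw [this, hdi]
    exact mul_inv_eq_iff_eq_mul.mp h2
  have htop : Subgroup.centralizer (Cfsg.pCore p G : Set G) = ⊤ := by
    rw [eq_top_iff, ← hD.gen]; exact (Subgroup.closure_le _).mpr hDC
  intro x hx
  rw [Subgroup.mem_center_iff]
  intro g
  have hg : g ∈ Subgroup.centralizer (Cfsg.pCore p G : Set G) := by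
    rw [htop]; exact Subgroup.mem_top g
  exact (Subgroup.mem_centralizer_iff.mp hg x hx).symm

/-- If `O_2(G)` and `O_3(G)` are central, the Fitting subgroup is the centre. -/
theorem fitting_eq_center [Finite G] {D : Set G} (hD : IsTT D)
    (h2 : Cfsg.pCore 2 G ≤ Subgroup.center G) (h3 : Cfsg.pCore 3 G ≤ Subgroup.center G) :
    Cfsg.fittingSubgroup G = Subgroup.center G := by
  apply le_antisymm
  · rw [Cfsg.Agent.Helper22.fittingSubgroup_eq_iSup_pCore]
    apply iSup_le
    intro p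
    have hp := p.2
    by_cases hp2 : (p : ℕ) = 2
    · rw [hp2]; exact h2
    · by_cases hp3 : (p : ℕ) = 3
      · rw [hp3]; exact h3
      · apply pCore_le_center hD hp
        have := hp.two_le
        omega
  · have hnil : Group.IsNilpotent (Subgroup.center G) := by
      refine ⟨⟨1, ?_⟩⟩
      rw [Subgroup.upperCentralSeries_one, eq_top_iff]
      rintro ⟨z, hz⟩ -
      rw [Subgroup.mem_center_iff]
      rintro ⟨g, hg⟩
      exact Subtype.ext (Subgroup.mem_center_iff.mp hz g)
    exact le_sSup ⟨inferInstance, hnil⟩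

/-- **The generalized Fitting subgroup** when `O_2(G)` and `O_3(G)` are central: the layer is a
quasisimple normal subgroup `L` and `F*(G) = L Z(G)`. -/
theorem layer_structure [Finite G] {D : Set G} (hD : IsTT D) (hD2 : ∃ a ∈ D, ∃ b ∈ D, a ≠ b)
    (h2 : Cfsg.pCore 2 G ≤ Subgroup.center G) (h3 : Cfsg.pCore 3 G ≤ Subgroup.center G) :
    ∃ L : Subgroup G, L.Normal ∧ Cfsg.IsQuasisimple L ∧ Cfsg.layer G = L ∧
      Cfsg.generalizedFittingSubgroup G = L ⊔ Subgroup.center G := by
  have hF := fitting_eq_center hD h2 h3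
  obtain ⟨a, ha, b, hb, hab⟩ := hD2
  have hex : ∃ K : Subgroup G, Cfsg.IsComponent K := by
    by_contra hno
    push Not at hno
    have hlayer : Cfsg.layer G = ⊥ := by
      unfold Cfsg.layer
      rw [sSup_eq_bot]
      intro K hK
      exact absurd hK (hno K)
    have hFs : Cfsg.generalizedFittingSubgroup G = Subgroup.center G := by
      unfold Cfsg.generalizedFittingSubgroup
      rw [hlayer, hF, bot_sup_eq]
    have hB := Cfsg.Agent.Helper22.centralizer_generalizedFittingSubgroup_le G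
    rw [hFs] at hB
    have htop : Subgroup.center G = ⊤ := by
      rw [eq_top_iff]
      intro g _
      apply hB
      rw [Subgroup.mem_centralizer_iff]
      intro z hz
      exact (Subgroup.mem_center_iff.mp hz g).symm
    apply hab
    obtain ⟨g, rfl⟩ := hD.isConj a ha b hb
    have haz : a ∈ Subgroup.center G := by rw [htop]; exact Subgroup.mem_top a
    have := Subgroup.mem_center_iff.mp haz g
    rw [this, mul_assoc, mul_inv_cancel, mul_one]
  obtain ⟨K, hK⟩ := hex
  have hKn := component_normal hD hK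
  have hlayer : Cfsg.layer G = K := by
    unfold Cfsg.layer
    apply le_antisymm
    · apply sSup_le
      intro K' hK'
      rw [component_unique hD ha hK' hK]
    · exact le_sSup hK
  refine ⟨K, hKn, hK.2, hlayer, ?_⟩
  unfold Cfsg.generalizedFittingSubgroup
  rw [hlayer, hF]

end Cfsg.Agent.Helper14.TT
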